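import Mathlib

/-! Two-groups of symplectic type and minus type. -/

set_option autoImplicit false
set_option linter.unusedSimpArgs false
set_option linter.unusedSectionVars false
set_option linter.unusedVariables false

namespace Cfsg.Agent.H9.Sp

open Subgroup

variable {G : Type*} [Group G] [Finite G]

theorem comm_of_sq {A : Subgroup G} (h : ∀ x ∈ A, x * x = 1) : IsMulCommutative A :=
  ⟨⟨fun x y => Subtype.ext (show x.1 * y.1 = y.1 * x.1 by
    rw [← inv_eq_of_mul_eq_one_right (h _ (mul_mem x.2 y.2)), mul_inv_rev,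
      inv_eq_of_mul_eq_one_right (h _ x.2), inv_eq_of_mul_eq_one_right (h _ y.2)])⟩⟩

theorem exists_ext {A : Subgroup G} (h : ∀ x ∈ A, x * x = 1) {t : G} (ht : t * t = 1)
    (hc : ∀ x ∈ A, t * x = x * t) (hA : t ∉ A) : ∃ A' : Subgroup G, (∀ x ∈ A', x * x = 1) ∧
      2 * Nat.card A ≤ Nat.card A' ∧ ∀ x, x ∈ A' ↔ x ∈ A ∨ x * t ∈ A := by
  have h1 : ∀ x, x * t ∈ A → t * x = x * t := fun x hx => mul_right_cancel (b := t) (by
    rw [mul_assoc t, hc _ hx])
  have h2 : ∀ x, x ∈ A ∨ x * t ∈ A → x * x = 1 := by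
    rintro x (hx | hx)
    · exact h x hx
    · have := h _ hx
      rwa [mul_assoc, ← mul_assoc t, h1 x hx, mul_assoc x, ht, mul_one] at this
  let A' : Subgroup G :=
    { carrier := {x | x ∈ A ∨ x * t ∈ A}
      one_mem' := Or.inl (one_mem _)
      mul_mem' := by
        rintro a b (ha | ha) (hb | hb)
        · exact Or.inl (mul_mem ha hb)
        · exact Or.inr (by rw [mul_assoc]; exact mul_mem ha hb)
        · exact Or.inr (by rw [mul_assoc, ← hc b hb, ← mul_assoc]; exact mul_mem ha hb)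
        · have := mul_mem ha hb
          rw [← h1 b hb, mul_assoc, ← mul_assoc t, ht, one_mul] at this
          exact Or.inl this
      inv_mem' := fun {a} ha => by rwa [inv_eq_of_mul_eq_one_right (h2 a ha)] }
  have h3 : A ≤ A' := fun x hx => Or.inl hx
  refine ⟨A', h2, ?_, fun _ => Iff.rfl⟩
  obtain ⟨c, hc⟩ := card_dvd_of_le h3
  have h4 : Nat.card A' ≠ Nat.card A := fun e =>
    hA (eq_of_le_of_card_ge h3 e.le ▸ (Or.inr (ht ▸ one_mem _) : t ∈ A'))
  have h5 : 0 < Nat.card A' := Nat.card_pos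
  rcases c with _ | _ | c
  · omega
  · omega
  · rw [hc]; nlinarith

theorem minus_struct (hp : IsPGroup 2 G) (hZ : Nat.card (center G) = 2) (h4 : ∀ x : G, x ^ 4 = 1)
    (hc : ∀ A : Subgroup G, A.Characteristic → IsMulCommutative A → IsCyclic A)
    (hm : ∀ A : Subgroup G, IsMulCommutative A → (∀ x ∈ A, x * x = 1) → Nat.card A < 2 ^ (2 + 1)) :
    ∃ z : G, z ≠ 1 ∧ z * z = 1 ∧ (∀ g, g * z = z * g) ∧ (∀ x, x * x = 1 ∨ x * x = z) ∧
      (∀ s t, s * s = 1 → t * t = 1 → s * t = t * s → s = 1 ∨ s = z ∨ t = 1 ∨ t = z ∨ t = s ∨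
        t = z * s) ∧ ∀ r, r = 1 ∨ r = z ∨ ∃ y, y * r = z * (r * y) := by
  obtain ⟨⟨z, hz⟩, h1, h2⟩ := (Nat.card_eq_two_iff' (1 : center G)).1 hZ
  have h1' : z ≠ 1 := fun e => h1 (Subtype.ext e)
  have hZ' : ∀ g, g ∈ center G ↔ g = 1 ∨ g = z := fun g => ⟨fun hg => or_iff_not_imp_left.2 fun e =>
    congrArg Subtype.val (h2 ⟨g, hg⟩ fun e' => e (congrArg Subtype.val e')), by
      rintro (rfl | rfl); exacts [one_mem _, hz]⟩
  have hzc : ∀ g, g * z = z * g := mem_center_iff.1 hz
  have hzz : z * z = 1 := ((hZ' _).1 (mul_mem hz hz)).resolve_right (by simpa using h1')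
  have hZ2 : ∀ x ∈ center G, x * x = 1 := fun x hx => by
    rcases (hZ' x).1 hx with rfl | rfl <;> simp [hzz]
  have ext : ∀ s, s * s = 1 → s ∉ center G → ∃ A : Subgroup G, (∀ x ∈ A, x * x = 1) ∧
      4 ≤ Nat.card A ∧ ∀ x, x ∈ A ↔ x ∈ center G ∨ x = s ∨ x = z * s := fun s hs hs' => by
    obtain ⟨A, a1, a2, a3⟩ := exists_ext hZ2 hs (fun x hx => mem_center_iff.1 hx s) hs'
    refine ⟨A, a1, by omega, fun x => (a3 x).trans (or_congr_right ?_)⟩
    rw [hZ', mul_eq_one_iff_eq_inv, ← eq_mul_inv_iff_mul_eq, inv_eq_of_mul_eq_one_right hs]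
  have key : ∀ s t, s * s = 1 → t * t = 1 → s * t = t * s → s ∉ center G → t ∉ center G →
      t = s ∨ t = z * s := fun s t hs ht hst hs' ht' => by
    by_contra e
    obtain ⟨A, a1, a2, a3⟩ := ext s hs hs'
    obtain ⟨A', b1, b2, -⟩ := exists_ext a1 ht (fun x hx => by
      rcases (a3 x).1 hx with a | rfl | rfl
      exacts [mem_center_iff.1 a t, hst.symm, by rw [← mul_assoc, hzc, mul_assoc, mul_assoc, hst]])
      fun a => ((a3 t).1 a).elim ht' e
    have := hm A' (comm_of_sq b1) b1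
    omega
  have sq : ∀ x : G, x * x * (x * x) = 1 := fun x => by rw [← h4 x]; simp [pow_succ, mul_assoc]
  have hsq : ∀ x : G, x * x ∈ center G := fun x => by_contra fun hx => by
    obtain ⟨A, a1, a2, a3⟩ := ext _ (sq x) hx
    have hA : ∀ y, y * y ∉ center G → y ∈ normalizer (A : Set G) → y * y ∈ A := fun y hy hy' =>
      (a3 _).2 (Or.inr (key _ _ (sq x) (sq y) (by
        have h5 := (mem_normalizer_iff.1 hy' _).1 ((a3 _).2 (Or.inr (Or.inl rfl)))
        have h6 : y * (x * x) * y⁻¹ ∉ center G := fun e => hx (by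
          simpa [mul_assoc] using (normal_of_characteristic (center G)).conj_mem _ e y⁻¹)
        rcases ((a3 _).1 h5).resolve_left h6 with e | e <;> rw [mul_inv_eq_iff_eq_mul] at e
        · rw [mul_assoc y, e, ← mul_assoc y, e, mul_assoc (x * x)]
        · rw [mul_assoc y, e, mul_assoc z, ← mul_assoc y, hzc, mul_assoc z, ← mul_assoc y, e]
          simp only [← mul_assoc, hzz, one_mul]) hx hy))
    have hN : normalizer (A : Set G) = ⊤ := by
      by_contra e
      have := hp.isNilpotent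
      obtain ⟨y, y1, y2⟩ := SetLike.exists_of_lt
        (Group.normalizerCondition_of_isNilpotent _ (lt_top_iff_ne_top.2 e))
      have h5 : ∀ y, y * (x * x) * y⁻¹ ∈ A → y ∈ normalizer (A : Set G) := fun y hy =>
        mem_normalizer_fintype fun n hn => by
          rcases (a3 _).1 hn with a | rfl | rfl
          · exact (a3 _).2 (Or.inl ((normal_of_characteristic (center G)).conj_mem _ a y))
          · exact hy
          · rw [← mul_assoc y, hzc, mul_assoc z, mul_assoc z]
            exact mul_mem ((a3 _).2 (Or.inl hz)) hy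
      have h6 := hA (y * x * y⁻¹) (fun e => hx (by
        simpa [mul_assoc] using (normal_of_characteristic (center G)).conj_mem _ e y⁻¹))
        ((mem_normalizer_iff.1 y1 x).1 (h5 x ((a3 _).2 (Or.inr (Or.inl (by group))))))
      exact y2 (h5 y (by simpa [mul_assoc] using h6))
    have h5 : ∀ y, y * y ∈ A := fun y => by
      by_cases e : y * y ∈ center G
      exacts [(a3 _).2 (Or.inl e), hA y e (hN ▸ trivial)]
    have h6 : ∀ (φ : G ≃* G), ∀ y ∈ center G, φ y ∈ A := fun φ y hy =>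
      (a3 _).2 (Or.inl (characteristic_iff_le_comap.1 inferInstance φ hy))
    have := hc A (characteristic_iff_le_comap.2 fun φ a ha => show φ a ∈ A by
      rcases (a3 _).1 ha with a | rfl | rfl
      exacts [h6 φ _ a, map_mul φ x x ▸ h5 _, by
        rw [map_mul, map_mul]; exact mul_mem (h6 φ _ hz) (h5 _)]) (comm_of_sq a1)
    have h7 := Nat.le_of_dvd two_pos (Monoid.exponent_dvd_of_forall_pow_eq_one (G := A)
      fun g => Subtype.ext (by simpa [pow_two] using a1 _ g.2))
    rw [IsCyclic.exponent_eq_card] at h7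
    omega
  refine ⟨z, h1', hzz, hzc, fun x => (hZ' _).1 (hsq x), fun s t hs ht hst => ?_, fun r => ?_⟩
  · have := key s t hs ht hst
    rw [hZ', hZ'] at this
    tauto
  rw [← or_assoc, ← hZ', or_iff_not_imp_left, mem_center_iff]
  intro hr
  push Not at hr
  obtain ⟨y, hy⟩ := hr
  have h5 : y * r * (r * y)⁻¹ ∈ center G := by
    convert mul_mem (mul_mem (hsq y) (hsq (y⁻¹ * r))) (hsq r⁻¹) using 1
    group
  exact ⟨y, mul_inv_eq_iff_eq_mul.1 (((hZ' _).1 h5).resolve_left (mt mul_inv_eq_one.1 hy))⟩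

end Cfsg.Agent.H9.Sp
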