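import Cfsg.Agent.H9.Sp.Cl2
import Cfsg.Agent.H9.Sp.Cl3
import Cfsg.Agent.H9.O5.Frame2
import Cfsg.Agent.H7.AschDensity

/-! Maximality of the normaliser of `2^{1+4}_-` in `Sp_4(p)`. -/

set_option autoImplicit false
set_option linter.unusedSimpArgs false
set_option linter.unusedSectionVars false
set_option linter.unusedVariables false

namespace Cfsg.Agent.H9.Sp

open Module Cfsg.Agent.H6 LinearMap

attribute [-simp] LinearEquiv.coe_inv Submodule.mem_map_equiv

variable {F V W : Type*} [Field F] [Fintype F] [AddCommGroup V] [Module F V]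
  [FiniteDimensional F V] [AddCommGroup W] [Module F W] [FiniteDimensional F W]
  {B : V →ₗ[F] V →ₗ[F] F} {Q : QuadraticForm F W} {ι : W →ₗ[F] End F V}

theorem Symp.trace_adj (hB : Symp B) {X Y : End F V} (h : ∀ u v, B (X u) v = B u (Y v)) :
    trace F V X = trace F V Y := by
  let e : V ≃ₗ[F] Dual F V := LinearEquiv.ofBijective B ⟨(injective_iff_map_eq_zero _).2
    fun z hz => hB.nd' z (by simp [hz]), fun φ => by
      obtain ⟨s, hs⟩ := hB.exists_dual φ
      exact ⟨-s, LinearMap.ext fun x => by simp [hB.skew s, hs]⟩⟩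
  rw [← trace_transpose' Y, ← trace_conj' X e]
  congr 1
  ext φ v
  obtain ⟨u, rfl⟩ := e.surjective φ
  simp only [LinearEquiv.conj_apply_apply, LinearEquiv.symm_apply_apply]
  exact h u v

theorem Cl.tr_mul (h : Cl B Q ι) (x y : W) : trace F V (ι x * ι y) = 2 * Orth.B Q x y := by
  have : ι x * ι y = Orth.B Q x y • 1 - ι y * ι x := LinearMap.ext fun v => h.anti x y v
  have h1 := congrArg (trace F V) this
  rw [map_sub, trace_mul_comm _ (ι y), map_smul, trace_one, h.dimV] at h1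
  exact mul_left_cancel₀ h.two (by simp at h1; linear_combination h1)

theorem tr_zero (h2 : (2 : F) ≠ 0) {X : End F V} (y : V ≃ₗ[F] V) (h : ∀ v, y (X v) = -X (y v)) :
    trace F V X = 0 := by
  have : y.conj X = -X := LinearMap.ext fun v => by simp [h]
  have h1 := trace_conj' X y
  rw [this, map_neg] at h1
  exact mul_left_cancel₀ h2 (by linear_combination -h1)

theorem Cl.frame (h : Cl B Q ι) {R : Subgroup (V ≃ₗ[F] V)} (hR : R ≤ Sp B)
    (hn : LinearEquiv.neg F ∈ R) (h1 : ∀ x ∈ R, x * x = 1 ∨ x * x = LinearEquiv.neg F)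
    (h2 : ∀ s ∈ R, ∀ t ∈ R, s * s = 1 → t * t = 1 → s * t = t * s → s = 1 ∨ s = LinearEquiv.neg F ∨
      t = 1 ∨ t = LinearEquiv.neg F ∨ t = s ∨ t = LinearEquiv.neg F * s)
    (h3 : ∀ r ∈ R, r = 1 ∨ r = LinearEquiv.neg F ∨ ∃ y ∈ R, y * r = LinearEquiv.neg F * (r * y))
    (h4 : ∀ X : End F V, (∀ r ∈ R, trace F V (X * r.toLinearMap) = 0) → ∀ Y, trace F V (X * Y) = 0) :
    ∃ e, O5.Fr Q e ∧ ∀ g ∈ Sp B, ∀ k, Rel ι g k →
      (g ∈ Subgroup.normalizer (R : Set (V ≃ₗ[F] V)) ↔ O5.Mon e k) := by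
  have h2' := h.two
  have h4' : (4 : F) ≠ 0 := by rw [show (4 : F) = 2 * 2 by norm_num]; exact mul_ne_zero h2' h2'
  let I : Set W := {x | Q x = 1 ∧ ∃ s ∈ R, ∀ v, s v = ι x v}
  have nc : ∀ (x : W) (c : F), c ≠ 0 → ¬ ∀ v, ι x v = c • v := fun x c hc e => by
    have := h.tr x
    rw [show ι x = c • 1 from LinearMap.ext e] at this
    simp [h.dimV, hc, h4'] at this
  have hI : ∀ x ∈ I, ∀ y ∈ I, y = x ∨ y = -x ∨ Orth.B Q x y = 0 := by
    rintro x ⟨x1, s, s1, s2⟩ y ⟨y1, t, t1, t2⟩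
    have a : s * s = 1 := by ext; simp [s2, h.sq, x1]
    have b : t * t = 1 := by ext; simp [t2, h.sq, y1]
    rcases h1 _ (mul_mem s1 t1) with c | c
    · rcases h2 s s1 t t1 a b (by rw [← inv_eq_of_mul_eq_one_right c, mul_inv_rev,
        inv_eq_of_mul_eq_one_right a, inv_eq_of_mul_eq_one_right b]) with e | e | e | e | e | e
      · exact absurd (fun v => by simp [← s2, e]) (nc x 1 one_ne_zero)
      · exact absurd (fun v => by simp [← s2, e]) (nc x (-1) (by simp))
      · exact absurd (fun v => by simp [← t2, e]) (nc y 1 one_ne_zero)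
      · exact absurd (fun v => by simp [← t2, e]) (nc y (-1) (by simp))
      · exact Or.inl (h.inj fun v => by simp [← t2, ← s2, e])
      · exact Or.inr (Or.inl (h.inj fun v => by simp [← t2, ← s2, e]))
    refine Or.inr (Or.inr (h.sc fun v => ?_))
    have := congrArg (fun z => ι y (ι x z)) (LinearEquiv.congr_fun c v)
    simp only [LinearEquiv.mul_apply, s2, t2, h.sq, x1, y1, one_smul] at this
    rw [h.anti] at this
    simpa [sub_eq_iff_eq_add] using this
  have hI' : ∀ w, (∀ x ∈ I, Orth.B Q w x = 0) → w = 0 := fun w hw => h.nd w fun y => by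
    refine mul_left_cancel₀ h2' ?_
    rw [Orth.B_comm, ← h.tr_mul, h4 _ fun r hr => ?_, mul_zero]
    rcases h3 r hr with rfl | rfl | ⟨y, hy, e⟩
    · exact h.tr w
    · rw [show ι w * (LinearEquiv.neg F : V ≃ₗ[F] V).toLinearMap = -ι w by ext; simp, map_neg, h.tr,
        neg_zero]
    rcases h1 r hr with c | c
    · obtain ⟨x, hx⟩ := h.surj r.toLinearMap (fun u v => by
        simpa [inv_eq_of_mul_eq_one_right c] using Sp_left (hR hr) u v)
        (tr_zero h2' y (LinearEquiv.congr_fun e))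
      rw [← hx, h.tr_mul, hw x ⟨h.sc fun v => by
        simpa [← h.sq, hx] using LinearEquiv.congr_fun c v, r, hr, by simp [hx]⟩, mul_zero]
    · have := h.symp.trace_adj (X := ι w * r.toLinearMap) (Y := -(r.toLinearMap * ι w)) fun u v => by
        have := LinearEquiv.congr_fun c (ι w v)
        simp only [LinearEquiv.mul_apply, LinearEquiv.neg_apply] at this
        simp [h.adj, ← hR hr u, this]
      rw [map_neg, trace_mul_comm _ r.toLinearMap] at this
      exact mul_left_cancel₀ h2' (by linear_combination this)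
  have hsp : Submodule.span F I = ⊤ := h.nd.perp_injective (by
    rw [h.nd.perp_top, eq_bot_iff]
    exact fun w hw => hI' w fun x hx => (Orth.B_comm _ _ _).trans (Orth.mem_perp_span.1 hw x hx))
  obtain ⟨e, e1, e2, e3⟩ : ∃ e : Fin 5 → W, (∀ i, e i ∈ I) ∧ Submodule.span F (Set.range e) = ⊤ ∧
      LinearIndependent F e := by
    have := Submodule.exists_fun_fin_finrank_span_eq F I
    rwa [hsp, finrank_top, h.dim] at this
  have hF : O5.Fr Q e := ⟨h2', h.nd, h.dim, fun i j => by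
    split_ifs with c
    · rw [c, Orth.B_self, (e1 j).1, mul_one]
    · exact ((hI _ (e1 i) _ (e1 j)).resolve_left fun a => c (e3.injective a).symm).resolve_left
        fun a => c (e3.eq_of_smul_apply_eq_smul_apply (-1) 1 i j (by simp) (by simp [a])), fun x hx => h.nd x fun y => (e2 ▸ Orth.mem_perp_span.2 (by simpa)) y trivial⟩
  choose s s1 s2 using fun i => (e1 i).2
  have hI2 : ∀ x ∈ I, ∃ j, x = e j ∨ x = -e j := fun x hx => by
    by_contra! c
    simpa [hF.zero x fun i => ((hI _ (e1 i) x hx).resolve_left (c i).1).resolve_left (c i).2] using hx.1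
  have hD : ∀ r ∈ Sp B, r ∈ R ↔ ∀ i, (∀ v, r (ι (e i) v) = ι (e i) (r v)) ∨
      ∀ v, r (ι (e i) v) = -ι (e i) (r v) := by
    have a : ∀ r ∈ R, ∀ i, (∀ v, r (ι (e i) v) = ι (e i) (r v)) ∨
        ∀ v, r (ι (e i) v) = -ι (e i) (r v) := fun r hr i => by
      have b : ∀ v, ι (e i) (ι (e i) v) = v := fun v => by simp [h.sq, (e1 i).1]
      have c1 := (h1 r hr).imp LinearEquiv.congr_fun LinearEquiv.congr_fun
      have c2 := (h1 _ (mul_mem hr (s1 i))).imp LinearEquiv.congr_fun LinearEquiv.congr_fun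
      simp only [LinearEquiv.mul_apply, s2, LinearEquiv.neg_apply, LinearEquiv.coe_one, id_eq] at c1 c2
      rcases c1 with c1 | c1 <;> rcases c2 with c2 | c2
      · exact Or.inl fun v => by simpa [c1, b] using congrArg (fun z => ι (e i) (r z)) (c2 v)
      · exact Or.inr fun v => by simpa [c1, b] using congrArg (fun z => ι (e i) (r z)) (c2 v)
      · exact Or.inr fun v => by
          simpa [c1, b, neg_eq_iff_eq_neg] using congrArg (fun z => ι (e i) (r z)) (c2 v)
      · exact Or.inl fun v => by simpa [c1, b] using congrArg (fun z => ι (e i) (r z)) (c2 v)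
    refine fun r hr => ⟨a r, fun c => ?_⟩
    obtain ⟨t, t1, t2⟩ : ∃ t ∈ R, trace F V (r * t).toLinearMap ≠ 0 := by
      by_contra! c
      have := h4 r c (r⁻¹).toLinearMap
      rw [← LinearEquiv.coe_toLinearMap_mul] at this
      simp [h.dimV, h4'] at this
    have c1 : ∀ i v, (r * t) (ι (e i) v) = ι (e i) ((r * t) v) := fun i => by
      by_contra c2
      refine t2 (tr_zero h2' (s i) fun v => ?_)
      rcases c i with c | c <;> rcases a t t1 i with a | a <;> simp [s2, c, a] at c2 ⊢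
    obtain ⟨k, rk⟩ := h.exists_rel (mul_mem hr (hR t1))
    obtain rfl : k = 1 := hF.ext_equiv fun i => h.inj fun v => by
      obtain ⟨v, rfl⟩ := (r * t).surjective v
      rw [← rk, c1]; rfl
    rcases h.ker (mul_mem hr (hR t1)) rk with c | c <;> rw [← eq_mul_inv_iff_mul_eq] at c <;> rw [c]
    exacts [mul_mem (one_mem _) (inv_mem t1), mul_mem hn (inv_mem t1)]
  refine ⟨e, hF, fun g hg k r => ⟨fun c i => hI2 _ ⟨by rw [h.rel_O r, (e1 i).1], _,
    (Subgroup.mem_normalizer_iff.1 c _).1 (s1 i), fun v => by simp [s2, r _ _]⟩, fun c => ?_⟩⟩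
  have := finite_linearEquiv (F := F) (V := V)
  refine inv_mem_iff.1 (Subgroup.mem_normalizer_fintype fun n hn => (hD _ (mul_mem (mul_mem
    (inv_mem hg) (hR hn)) (inv_mem (inv_mem hg)))).2 fun i => ?_)
  obtain ⟨j, c⟩ := c i
  have r' : ∀ v, g⁻¹ (ι (k (e i)) v) = ι (e i) (g⁻¹ v) := fun v => by simpa using r.inv (k (e i)) v
  refine ((hD n (hR hn)).1 hn j).imp (fun a v => ?_) fun a v => ?_ <;> rcases c with c | c <;>
    simp [r _ _, ← r', c, a]

theorem prime_field_cast (h : (Fintype.card F).Prime) (c : F) : ∃ n : ℕ, c = n := by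
  have := Fact.mk h
  have hc : CharP F (Fintype.card F) := by
    obtain ⟨p, hp⟩ := CharP.exists F
    obtain ⟨n, hpp, hn⟩ := FiniteField.card F p
    have : p = Fintype.card F := by
      rw [hn] at h ⊢
      rw [(Nat.Prime.pow_eq_iff h).1 rfl |>.2, pow_one]
    exact this ▸ hp
  obtain ⟨z, rfl⟩ := (ZMod.ringEquiv F rfl).surjective c
  obtain ⟨n, rfl⟩ := ZMod.natCast_zmod_surjective z
  exact ⟨n, map_natCast _ n⟩

theorem not_mon {e : Fin 5 → W} (h : O5.Fr Q e) : ∃ k ∈ Orth.EO Q, ¬ O5.Mon e k := by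
  have h2 := h.two
  have h1 : Q (e 0 + e 1 + e 2 + e 3) = 2 * 2 := by simp [Orth.Q_add, h.Q_e, h.B_eq]; ring
  refine ⟨_, h.nd.refl_mul_refl_mem_EO h.dim.ge (a := e 0 + e 1 + e 2 + e 3) (b := (2 : F) • e 4)
    (by simp [h1, Orth.Q_smul, h.Q_e]), fun c => ?_⟩
  obtain ⟨j, c⟩ := c 0
  rw [Orth.mul_app, Orth.refl_of_perp (x := e 0) (by simp [h.B_eq]), Orth.refl_apply, h1] at c
  obtain ⟨i, a, b⟩ : ∃ i : Fin 5, (i = 1 ∨ i = 2) ∧ i ≠ j := by clear c; revert j; decide
  rcases c with c | c <;> have := congrArg (Orth.B Q (e i)) c <;> rcases a with rfl | rfl <;>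
    simp [h.B_eq, b, h2] at this

theorem c6_maximal (hodd : Odd (Fintype.card F)) (hp : (Fintype.card F).Prime)
    (R : Subgroup (GL (Fin 2 ⊕ Fin 2) F)) (h1 : Geo.IsSymplecticTypeGroup 2 R)
    (h2 : Geo.ActsAbsolutelyIrreducibly (Geo.matrixSet R)) (h3 : R ≤ spGL 2 F)
    (h4 : Nat.card (Subgroup.center R) = 2) (h5 : Geo.IsOfMinusType 2 R) :
    Geo.IsMaximalIn (spGL 2 F) (Geo.subgroupNormalizer R ⊓ spGL 2 F) := by
  have h := cl0 (two_ne_zero_of_odd hodd)
  obtain ⟨z, a1, a2, a3, a4, a5, a6⟩ := minus_struct h1.pGroup h4 (fun x => by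
    simpa [h1.exponent_eq] using Monoid.pow_exponent_eq_one x) h1.cyclic_of_characteristic h5
  have hz : gl0 z.1 = LinearEquiv.neg F := by
    obtain ⟨c, hc⟩ := h2.2 z.1 (by
      rintro _ ⟨g, hg, rfl⟩
      exact congrArg (fun x : R => x.1.1) (a3 ⟨g, hg⟩).symm)
    refine (h.ker (h3 z.2) fun x v => ?_).resolve_left fun e => a1 (Subtype.ext (gl0.injective ?_))
    · simp [gl0_apply, hc, Matrix.smul_mulVec]
    · simpa using e
  let φ : R →* _ := gl0.toMonoidHom.comp R.subtype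
  have hφ : Function.Injective φ := gl0.injective.comp Subtype.val_injective
  change φ z = _ at hz
  obtain ⟨e, hF, he⟩ := h.frame (R := φ.range) (by rintro _ ⟨g, rfl⟩; exact h3 g.2) ⟨z, hz⟩
    (by rintro _ ⟨g, rfl⟩; simpa only [← hz, ← map_mul, ← map_one φ, hφ.eq_iff] using a4 g)
    (by
      rintro _ ⟨g, rfl⟩ _ ⟨g', rfl⟩
      simpa only [← hz, ← map_mul, ← map_one φ, hφ.eq_iff] using a5 g g')
    (by
      rintro _ ⟨g, rfl⟩
      simpa only [← hz, ← map_one φ, hφ.eq_iff, MonoidHom.mem_range, exists_exists_eq_and,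
        ← map_mul] using a6 g) fun X hX Y => by
      obtain ⟨Y, rfl⟩ := Matrix.toLin'.surjective Y
      refine H7.spanAlg_induction (p := fun Y => trace F _ (X * Matrix.toLin' Y) = 0)
        ((H7.absIrr_iff.2 h2).spanAlg_eq_top ▸ Algebra.mem_top) (fun g hg => ?_) (by simp)
        (fun x y _ _ a b => by simp [mul_add, a, b]) fun c x _ a => by simp [a]
      rw [← gl0_coe]; exact hX _ ⟨⟨g, hg⟩, rfl⟩
  refine isMaximalIn_transport gl0 _ _ (Sp (B0 2 F)) (· ∈ Subgroup.normalizer (φ.range : Set _))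
    mem_spGL (fun g _ => ?_) ?_ (h.transfer _ (O5.Mon e) he (fun i => ⟨i, Or.inl rfl⟩)
      fun M => O5.frame_core (prime_field_cast hp) hF)
  · simp only [Geo.subgroupNormalizer, Subgroup.mem_normalizer_iff, gl0.surjective.forall,
      ← map_mul, ← map_inv]
    simp [φ, -map_mul]
  · obtain ⟨k, a, b⟩ := not_mon hF
    obtain ⟨g, hg, r⟩ := h.EO_le a
    exact ⟨g, hg, mt (he g hg k r).1 b⟩

end Cfsg.Agent.H9.Sp
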