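import Cfsg.Agent.H9.Sp.Ext
import Cfsg.Agent.H9.Sp.SL2

/-! Groups generated by two quadratic root groups; commutators in unipotent radicals. -/

set_option autoImplicit false
set_option linter.unusedSimpArgs false
set_option linter.unusedSectionVars false

namespace Cfsg.Agent.H9.Sp

open Module Cfsg.Agent.H6 Polynomial

attribute [-simp] LinearEquiv.coe_inv Submodule.mem_map_equiv

universe u

variable {F : Type u} [Field F] {V : Type*} [AddCommGroup V] [Module F V] [FiniteDimensional F V]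

theorem exists_eigen_functional [Finite F] (θ : V →ₗ[F] V) (hθ : ∀ n : ℕ, θ ^ n ≠ 0) :
    ∃ (K : Type u) (_ : Field K) (_ : Finite K) (_ : Algebra F K) (ψ : V →ₗ[F] K) (τ : K),
      τ ≠ 0 ∧ ψ ≠ 0 ∧ ∀ v, ψ (θ v) = τ * ψ v := by
  classical
  let P := θ.charpoly
  let K := P.SplittingField
  have : Finite K := Module.finite_of_finite F
  have hm : P.Monic := θ.charpoly_monic
  have hs : (P.map (algebraMap F K)).Splits := SplittingField.splits P
  obtain ⟨τ, hτ0, hτ⟩ : ∃ τ : K, τ ≠ 0 ∧ (P.map (algebraMap F K)).eval τ = 0 := by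
    by_contra! h
    have h1 := hs.eq_prod_roots_of_monic (hm.map _)
    have h2 : (P.map (algebraMap F K)).roots.map (fun a => X - C a) =
        Multiset.replicate (P.map (algebraMap F K)).roots.card X := by
      rw [Multiset.eq_replicate]
      refine ⟨by simp, fun b hb => ?_⟩
      obtain ⟨a, ha, rfl⟩ := Multiset.mem_map.1 hb
      have : a = 0 := by
        by_contra h3
        exact h a h3 (isRoot_of_mem_roots ha)
      simp [this]
    rw [h2, Multiset.prod_replicate] at h1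
    have h3 : P = X ^ (P.map (algebraMap F K)).roots.card :=
      Polynomial.map_injective _ (algebraMap F K).injective (by rw [Polynomial.map_pow, map_X, ← h1])
    have h4 : aeval θ P = 0 := θ.aeval_self_charpoly
    rw [h3] at h4
    exact hθ _ (by simpa using h4)
  let b := finBasis F V
  let T := (LinearMap.toMatrix b b θ).map (algebraMap F K)
  have h1 : T.charpoly = P.map (algebraMap F K) := by
    rw [Matrix.charpoly_map, LinearMap.charpoly_toMatrix]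
  rw [← h1, Matrix.eval_charpoly] at hτ
  obtain ⟨c, hc0, hc⟩ := Matrix.exists_vecMul_eq_zero_iff.2 hτ
  let ψ : V →ₗ[F] K := ∑ i, (b.coord i).smulRight (c i)
  have hψ : ∀ i, ψ (b i) = c i := fun i => by
    simp [ψ, Finsupp.single_apply, LinearMap.sum_apply]
  refine ⟨K, inferInstance, inferInstance, inferInstance, ψ, τ, hτ0, fun h => hc0 ?_, fun v => ?_⟩
  · ext i; rw [← hψ, h]; rfl
  · have : ψ ∘ₗ θ = τ • ψ := b.ext fun j => by
      have := congrFun hc j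
      simp only [Matrix.vecMul_sub, Pi.sub_apply, Pi.zero_apply, sub_eq_zero] at this
      simp only [LinearMap.comp_apply, LinearMap.smul_apply, hψ, smul_eq_mul]
      rw [mul_comm]
      simp only [Matrix.scalar_apply, Matrix.vecMul_diagonal] at this
      rw [this]
      simp [ψ, T, Matrix.vecMul, dotProduct, LinearMap.toMatrix_apply, Algebra.smul_def, mul_comm,
        LinearMap.sum_apply]
    exact LinearMap.congr_fun this v

section

variable {K : Type*} [Field K] [Algebra F K]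

/-- the action on a pair of `K`-valued functionals -/
def pairGL (Γ : Subgroup (V ≃ₗ[F] V)) (ψ₀ ψ₁ : V →ₗ[F] K) : Subgroup (GL (Fin 2) K) where
  carrier := {m | m 0 0 * m 1 1 - m 0 1 * m 1 0 = 1 ∧ ∃ γ ∈ Γ,
    (∀ v, ψ₀ (γ v) = m 0 0 * ψ₀ v + m 0 1 * ψ₁ v) ∧ ∀ v, ψ₁ (γ v) = m 1 0 * ψ₀ v + m 1 1 * ψ₁ v}
  one_mem' := ⟨by simp, 1, one_mem _, by simp, by simp⟩
  mul_mem' := by
    rintro A B ⟨hA, g, hg, h1, h2⟩ ⟨hB, h, hh, h3, h4⟩
    refine ⟨?_, g * h, mul_mem hg hh, fun v => ?_, fun v => ?_⟩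
    · simp only [Units.val_mul, Matrix.mul_apply, Fin.sum_univ_two]
      linear_combination (B 0 0 * B 1 1 - B 0 1 * B 1 0) * hA + hB
    all_goals
      simp only [LinearEquiv.mul_apply, h1, h2, h3, h4, Units.val_mul, Matrix.mul_apply,
        Fin.sum_univ_two]
      ring
  inv_mem' := by
    rintro A ⟨hA, g, hg, h1, h2⟩
    have h := A.inv_mul
    have h00 := congrFun (congrFun h 0) 0
    have h01 := congrFun (congrFun h 0) 1
    have h10 := congrFun (congrFun h 1) 0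
    have h11 := congrFun (congrFun h 1) 1
    simp only [Matrix.mul_apply, Fin.sum_univ_two, Matrix.one_apply_eq, ne_eq, zero_ne_one,
      one_ne_zero, not_false_eq_true, Matrix.one_apply_ne] at h00 h01 h10 h11
    refine ⟨?_, g⁻¹, inv_mem hg, fun v => ?_, fun v => ?_⟩
    · have e1 := congrArg₂ (· * ·) h00 h11
      have e2 := congrArg₂ (· * ·) h01 h10
      linear_combination (-((A⁻¹ : GL (Fin 2) K) 0 0 * (A⁻¹ : GL (Fin 2) K) 1 1 -
        (A⁻¹ : GL (Fin 2) K) 0 1 * (A⁻¹ : GL (Fin 2) K) 1 0)) * hA + e1 - e2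
    · have e1 := h1 (g⁻¹ v)
      have e2 := h2 (g⁻¹ v)
      rw [apply_inv_apply] at e1 e2
      rw [e1, e2]
      linear_combination -(ψ₀ (g⁻¹ v)) * h00 - ψ₁ (g⁻¹ v) * h01
    · have e1 := h1 (g⁻¹ v)
      have e2 := h2 (g⁻¹ v)
      rw [apply_inv_apply] at e1 e2
      rw [e1, e2]
      linear_combination -(ψ₀ (g⁻¹ v)) * h10 - ψ₁ (g⁻¹ v) * h11

theorem pair_dickson [Finite F] [Finite K] (h2 : (2 : F) ≠ 0) (Γ : Subgroup (V ≃ₗ[F] V))
    {σ σ' : V →ₗ[F] V} (hσ : ∀ v, σ (σ v) = 0) (hσ' : ∀ v, σ' (σ' v) = 0)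
    (hr : ∀ c : F, ∃ r ∈ Γ, ∀ v, r v = v + c • σ v) (hr' : ∃ r ∈ Γ, ∀ v, r v = v + σ' v)
    {ψ : V →ₗ[F] K} {τ : K} (hτ : τ ≠ 0) (hψ : ∀ v, ψ (σ (σ' v)) = τ * ψ v) :
    (∃ γ ∈ Γ, ∀ v, ψ (σ (γ v)) = -1 * ψ (σ v)) ∧
    (4 ≤ Nat.card F → ∃ γ ∈ Γ, ∃ l l' m : K, l * l' = 1 ∧ l * l ≠ 1 ∧
      (∀ v, ψ (γ v) = l * ψ v + m * ψ (σ v)) ∧ ∀ v, ψ (σ (γ v)) = l' * ψ (σ v)) := by
  have hu : ∀ s : F, H8.mat 1 (algebraMap F K s) 0 1 (by simp) ∈ pairGL Γ ψ (ψ ∘ₗ σ) := by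
    intro s
    obtain ⟨r, hr, h⟩ := hr s
    exact ⟨by simp, r, hr, fun v => by simp [h, Algebra.smul_def], fun v => by simp [h, hσ]⟩
  have hl : H8.mat 1 0 τ 1 (by simp) ∈ pairGL Γ ψ (ψ ∘ₗ σ) := by
    obtain ⟨r, hr, h⟩ := hr'
    refine ⟨by simp, r, hr, fun v => ?_, fun v => by simp [h, hψ, add_comm]⟩
    have := hψ (σ' v)
    rw [hσ', map_zero, map_zero, eq_comm, mul_eq_zero] at this
    simp [h, this.resolve_left hτ]
  constructor
  · obtain ⟨g, ⟨-, γ, hγ, -, h4⟩, -, -, h7, h8⟩ := neg_one_mem (K := K) (by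
      intro h
      exact h2 ((algebraMap F K).injective (by rw [map_ofNat, h, map_zero])))
      (pairGL Γ ψ (ψ ∘ₗ σ)) (fun g hg => hg.1)
      (by simpa using hu 1) hτ hl
    exact ⟨γ, hγ, fun v => by simpa [h7, h8] using h4 v⟩
  · intro h4
    obtain ⟨g, ⟨-, γ, hγ, h5, h6⟩, h7, h8, h9⟩ := exists_diag_mem h4 _ hu hτ hl
    exact ⟨γ, hγ, _, _, _, h8, h9, h5, fun v => by simpa [h7] using h6 v⟩

end

theorem comm_abs {B : V →ₗ[F] V →ₗ[F] F} {M : Subgroup (V ≃ₗ[F] V)} (hB : Symp B) (hM : M ≤ Sp B)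
    {N : Submodule F V} (hN : ∀ u ∈ N, ∀ v ∈ N, B u v = 0) {n k : V ≃ₗ[F] V} (hn : n ∈ M)
    (hk : k ∈ M) (h1 : ∀ l ∈ N, n l = l) (k1 : ∀ l ∈ N, k l = l) {β β' : V →ₗ[F] V}
    (h2 : ∀ v, n v - v - β v ∈ N) (k2 : ∀ v, k v - v - β' v ∈ N)
    (h3 : ∀ v ∈ perp B N, β v = 0) (k3 : ∀ v ∈ perp B N, β' v = 0) :
    ∃ y ∈ EL M N, ∀ p, B (y p) p = 2 * B (β p) (β' p) := by
  have a1 : ∀ {n : V ≃ₗ[F] V}, n ∈ M → (∀ l ∈ N, n l = l) → ∀ v, n v - v ∈ perp B N :=
    fun {n} hn h v l hl => by rw [map_sub, ← hM hn l v, h l hl, sub_self]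
  have a2 : ∀ {n : V ≃ₗ[F] V}, (∀ l ∈ N, n l = l) → ∀ l ∈ N, n⁻¹ l = l := fun {n} h l hl =>
    n.injective (by rw [apply_inv_apply, h l hl])
  have a3 : ∀ {n : V ≃ₗ[F] V} {β : V →ₗ[F] V}, n ∈ M → (∀ l ∈ N, n l = l) →
      (∀ v ∈ perp B N, β v = 0) → ∀ v, β (n v) = β v := fun {n β} hn h h' v => by
    rw [← sub_eq_zero, ← map_sub]; exact h' _ (a1 hn h v)
  have a4 : ∀ {n : V ≃ₗ[F] V} {β : V →ₗ[F] V}, n ∈ M → (∀ l ∈ N, n l = l) →
      (∀ v ∈ perp B N, β v = 0) → (∀ v, n v - v - β v ∈ N) → ∀ v, n⁻¹ v - v + β v ∈ N :=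
    fun {n β} hn h h' h'' v => by
      have := N.neg_mem (h'' (n⁻¹ v))
      rw [apply_inv_apply, a3 (M.inv_mem hn) (a2 h) h'] at this
      convert this using 1; abel
  have hc := M.mul_mem (M.mul_mem (M.mul_mem hn hk) (M.inv_mem hn)) (M.inv_mem hk)
  have hy : ((n * k * n⁻¹ * k⁻¹ : V ≃ₗ[F] V) : V →ₗ[F] V) - LinearMap.id ∈ EL M N := by
    refine ⟨fun v => ?_, fun l hl => by simp [a2 k1 l hl, a2 h1 l hl, k1 l hl, h1 l hl], _, hc,
      fun v => by simp⟩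
    have := N.add_mem (N.add_mem (h2 (k (n⁻¹ (k⁻¹ v)))) (k2 (n⁻¹ (k⁻¹ v))))
      (N.add_mem (a4 hn h1 h3 h2 (k⁻¹ v)) (a4 hk k1 k3 k2 v))
    rw [a3 hk k1 h3, a3 (M.inv_mem hn) (a2 h1) h3, a3 (M.inv_mem hn) (a2 h1) k3,
      a3 (M.inv_mem hk) (a2 k1) k3] at this
    convert this using 1
    simp only [LinearMap.sub_apply, LinearEquiv.coe_coe, LinearEquiv.mul_apply, LinearMap.id_apply]
    abel
  refine ⟨_, hy, fun p => ?_⟩
  have e1 := EL_perp hB hM hN hy ((perp B N).add_mem (a1 hk k1 (n p)) (a1 hn h1 p))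
  rw [sub_add_sub_cancel, map_sub, sub_eq_zero] at e1
  rw [← e1]
  have b1 : ∀ {x x' y y' : V}, x - x' ∈ N → y - y' ∈ N → x ∈ perp B N → y ∈ perp B N →
      B x y = B x' y' := fun {x x' y y'} hx hy hx' hy' => by
    have e2 := hy' _ hx
    have e3 := hB.comm.1 (hx' _ hy)
    have e4 := hN _ hx _ hy
    simp only [map_sub, LinearMap.sub_apply] at e2 e3 e4
    linear_combination e2 + e3 - e4
  have e2 := b1 (k2 p) (y' := -β p) (by simpa using a4 hn h1 h3 h2 p) (a1 hk k1 p)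
    (a1 (M.inv_mem hn) (a2 h1) p)
  have e3 := b1 (h2 p) (y' := -β' p) (by simpa using a4 hk k1 k3 k2 p) (a1 hn h1 p)
    (a1 (M.inv_mem hk) (a2 k1) p)
  simp only [map_sub, LinearMap.sub_apply, ← Sp_left (hM hn), ← Sp_left (hM hk), map_neg,
    hB.skew (β' p) (β p), LinearEquiv.coe_coe, LinearEquiv.mul_apply, inv_apply_apply,
    LinearMap.id_apply] at e2 e3 ⊢
  linear_combination e2 - e3

theorem finrank_map_add_inf_ker {Z : Type*} [AddCommGroup Z] [Module F Z] (K : Submodule F V)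
    (σ : V →ₗ[F] Z) : finrank F (K.map σ) + finrank F ↥(K ⊓ LinearMap.ker σ) = finrank F K := by
  have h1 := LinearMap.finrank_range_add_finrank_ker (σ.domRestrict K)
  have h3 : finrank F (LinearMap.ker (σ.domRestrict K)) = finrank F ↥(K ⊓ LinearMap.ker σ) := by
    rw [LinearMap.ker_domRestrict, ← Submodule.finrank_map_subtype_eq, Submodule.map_comap_subtype]
  rwa [LinearMap.range_domRestrict, h3] at h1

end Cfsg.Agent.H9.Sp
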