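import Cfsg.Agent.H9.Sp.Ten7

/-! The tensor product subgroup `Sp_a(3) ⊗ O₃(3)` is not maximal. -/

set_option autoImplicit false
set_option linter.unusedSimpArgs false
set_option linter.unusedSectionVars false

namespace Cfsg.Agent.H9.Sp

open Module Cfsg.Agent.H6

attribute [-simp] LinearEquiv.coe_inv Submodule.mem_map_equiv

variable {F : Type*} [Field F] {U : Type*} [AddCommGroup U] [Module F U] [FiniteDimensional F U]
  {W : Type*} [AddCommGroup W] [Module F W] [FiniteDimensional F W]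

variable {B₁ : U →ₗ[F] U →ₗ[F] F} {f : W →ₗ[F] W →ₗ[F] F}
  {B : (U →ₗ[F] W) →ₗ[F] (U →ₗ[F] W) →ₗ[F] F}

/-- vectors with anisotropic orthogonal complement -/
def Aniso (f : W →ₗ[F] W →ₗ[F] F) (w : W) : Prop := w ≠ 0 ∧ ∀ z, f w z = 0 → f z z = 0 → z = 0

theorem Aniso.ne {w : W} (h : Aniso f w) : f w w ≠ 0 := fun h0 => h.1 (h.2 w h0 h0)

theorem exists_aniso (hf : Sym f) (h3 : ∀ x : F, x ≠ 0 → x * x = 1) (hW : finrank F W = 3) :
    ∃ w, Aniso f w := by
  have := invertibleOfNonzero hf.two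
  obtain ⟨b, hb⟩ := LinearMap.BilinForm.exists_orthogonal_basis (B := f) ⟨hf.symm⟩
  let b' := b.reindex (finCongr hW)
  have h1 : ∀ i j, i ≠ j → f (b' i) (b' j) = 0 := fun i j hij => by
    simp only [b', Basis.reindex_apply]
    exact hb fun h => hij ((finCongr hW).symm.injective h)
  have h2 : ∀ i, f (b' i) (b' i) ≠ 0 := fun i h => b'.ne_zero i (hf.nd _ fun x => by
    rw [← b'.sum_repr x, map_sum, LinearMap.sum_apply]
    refine Finset.sum_eq_zero fun j _ => ?_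
    by_cases hij : j = i
    · simp [hij, h]
    · simp [h1 j i hij])
  have key : ∀ i j k : Fin 3, i ≠ j → i ≠ k → j ≠ k → (∀ z, z = b'.repr z i • b' i +
      b'.repr z j • b' j + b'.repr z k • b' k) → f (b' j) (b' j) = f (b' k) (b' k) →
      Aniso f (b' i) := by
    intro i j k hij hik hjk hz he
    refine ⟨b'.ne_zero i, fun z e1 e2 => ?_⟩
    rw [hz z] at e1 e2
    simp only [map_add, map_smul, h1 i j hij, h1 i k hik, smul_eq_mul, mul_zero, add_zero,
      mul_eq_zero, h2 i, or_false] at e1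
    simp only [e1, zero_smul, zero_add, map_add, map_smul, LinearMap.add_apply,
      LinearMap.smul_apply, h1 j k hjk, h1 k j hjk.symm, smul_eq_mul, he] at e2
    have e3 : b'.repr z j * b'.repr z j + b'.repr z k * b'.repr z k = 0 :=
      (mul_eq_zero.1 (show (b'.repr z j * b'.repr z j + b'.repr z k * b'.repr z k) *
        f (b' k) (b' k) = 0 by linear_combination e2)).resolve_right (h2 k)
    by_cases e4 : b'.repr z j = 0
    · rw [e4] at e3
      rw [hz z, e1, e4, show b'.repr z k = 0 by simpa using e3]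
      simp
    · by_cases e5 : b'.repr z k = 0
      · simp [e5, e4] at e3
      · rw [h3 _ e4, h3 _ e5] at e3
        exact absurd (by linear_combination e3) hf.two
  have hz : ∀ z, z = b'.repr z 0 • b' 0 + b'.repr z 1 • b' 1 + b'.repr z 2 • b' 2 := fun z => by
    conv_lhs => rw [← b'.sum_repr z]
    rw [Fin.sum_univ_three]
  by_cases e1 : f (b' 1) (b' 1) = f (b' 2) (b' 2)
  · exact ⟨_, key 0 1 2 (by decide) (by decide) (by decide) hz e1⟩
  by_cases e2 : f (b' 0) (b' 0) = f (b' 2) (b' 2)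
  · exact ⟨_, key 1 0 2 (by decide) (by decide) (by decide)
      (fun z => (hz z).trans (by abel)) e2⟩
  refine ⟨_, key 2 0 1 (by decide) (by decide) (by decide) (fun z => (hz z).trans (by abel)) ?_⟩
  rcases mul_self_eq_one_iff.1 (h3 _ (h2 0)) with a | a <;>
    rcases mul_self_eq_one_iff.1 (h3 _ (h2 1)) with b | b <;>
    rcases mul_self_eq_one_iff.1 (h3 _ (h2 2)) with c | c <;>
    first | exact a.trans b.symm | exact absurd (b.trans c.symm) e1 | exact absurd (a.trans c.symm) e2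

theorem Aniso.perp (hf : Sym f) (h3 : ∀ x : F, x ≠ 0 → x * x = 1) (h30 : (3 : F) = 0)
    (hW : 3 ≤ finrank F W) {w w' : W} (h : Aniso f w) (h' : Aniso f w') (hne : f w w' ≠ 0) :
    ∃ c : F, w' = c • w := by
  by_contra! hc
  have hw := h.ne
  obtain ⟨α, z, hα, hz, rfl⟩ : ∃ (α : F) (z : W), α ≠ 0 ∧ f w z = 0 ∧ w' = α • w + z :=
    ⟨f w w' / f w w, w' - (f w w' / f w w) • w, by simp [hne, hw], by simp [hw], by simp⟩
  have hz0 : z ≠ 0 := fun h0 => hc α (by simp [h0])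
  have hzz : f z z ≠ 0 := fun h0 => hz0 (h.2 z hz h0)
  obtain ⟨y, ⟨h5, h6⟩, h7⟩ := exists_ne_zero_of_finrank
    (K := LinearMap.ker (f w) ⊓ LinearMap.ker (f z))
    (by have := finrank_ker₂_ge (f w) (f z); omega)
  replace h5 : f w y = 0 := h5
  replace h6 : f z y = 0 := h6
  have hyy : f y y ≠ 0 := fun h0 => h7 (h.2 y h5 h0)
  have e1 : f y y + f z z ≠ 0 := fun h0 => hyy (by
    have := h.2 (y + z) (by simp [h5, hz]) (by simpa [h6, hf.symm y z] using h0)
    simpa [hf.symm y z, h6] using congrArg (f y) this)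
  have e2 : f w w + f z z ≠ 0 := fun h0 => h'.ne (by
    simp only [map_add, map_smul, LinearMap.add_apply, LinearMap.smul_apply, hz, hf.symm z w,
      smul_eq_mul]
    linear_combination f w w * h3 α hα + h0)
  have e3 : ∀ a b : F, a ≠ 0 → b ≠ 0 → a + b ≠ 0 → a = b := fun a b ha hb hab =>
    sub_eq_zero.1 ((mul_eq_zero.1 (show (a - b) * (a + b) = 0 by
      linear_combination h3 a ha - h3 b hb)).resolve_right hab)
  have e4 := e3 _ _ hyy hzz e1
  have e5 := e3 _ _ hw hzz e2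
  have := h'.2 (w - α • z + y) (by
    simp only [map_add, map_sub, map_smul, LinearMap.add_apply, LinearMap.smul_apply, hz,
      hf.symm z w, h5, h6, smul_eq_mul, e5]
    ring) (by
    simp only [map_add, map_sub, map_smul, LinearMap.add_apply, LinearMap.sub_apply,
      LinearMap.smul_apply, hz, hf.symm z w, h5, h6, smul_eq_mul, e5, hf.symm y w, hf.symm y z, e4]
    linear_combination f z z * h3 α hα + f z z * h30)
  exact hyy (by simpa [hf.symm y w, hf.symm y z, h5, h6] using congrArg (f y) this)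

variable (U) in
/-- the subspace `U ⊗ w` -/
def Nw (w : W) : Submodule F (U →ₗ[F] W) :=
  LinearMap.range (LinearMap.smulRightₗ.flip w : Dual F U →ₗ[F] (U →ₗ[F] W))

theorem mem_Nw {w : W} {v : U →ₗ[F] W} : v ∈ Nw U w ↔ ∃ φ, rk φ w = v := Iff.rfl

/-- the stabiliser of a family of subspaces -/
def famStab {V : Type*} [AddCommGroup V] [Module F V] (S : Set (Submodule F V)) :
    Subgroup (V ≃ₗ[F] V) where
  carrier := {g | ∀ N, N ∈ S ↔ N.map (g : V →ₗ[F] V) ∈ S}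
  one_mem' N := by rw [show ((1 : V ≃ₗ[F] V) : V →ₗ[F] V) = LinearMap.id from rfl, Submodule.map_id]
  mul_mem' {a b} ha hb N := by
    rw [hb, ha, ← Submodule.map_comp]; rfl
  inv_mem' {a} ha N := by
    rw [ha (N.map _), ← Submodule.map_comp]
    have : (a : V →ₗ[F] V) ∘ₗ ((a⁻¹ : V ≃ₗ[F] V) : V →ₗ[F] V) = LinearMap.id := by ext; simp
    rw [this, Submodule.map_id]

theorem mem_famStab {V : Type*} [AddCommGroup V] [Module F V] {S : Set (Submodule F V)}
    {g : V ≃ₗ[F] V} (h : ∀ N ∈ S, N.map (g : V →ₗ[F] V) ∈ S)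
    (h' : ∀ N ∈ S, N.map ((g⁻¹ : V ≃ₗ[F] V) : V →ₗ[F] V) ∈ S) : g ∈ famStab S := fun N =>
  ⟨h N, fun hN => by
    have := h' _ hN
    rw [← Submodule.map_comp] at this
    have e : ((g⁻¹ : V ≃ₗ[F] V) : V →ₗ[F] V) ∘ₗ (g : V →ₗ[F] V) = LinearMap.id := by ext; simp
    rwa [e, Submodule.map_id] at this⟩

theorem tensor_three [Fintype F] {m a : ℕ} (hm : 1 ≤ m) (hq : Fintype.card F = 3)
    (e : (Fin m ⊕ Fin m) ≃ Fin a × Fin 3) (P : GL (Fin m ⊕ Fin m) F)
    (f₁ : (Fin a → F) → (Fin a → F) → F) (f₂ : (Fin 3 → F) → (Fin 3 → F) → F)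
    (hf₁ : Geo.IsSymplecticForm f₁) (hf₂ : Geo.IsSymmetricForm f₂)
    (hT : Geo.IsTensorFormStructure id (sympForm m F) f₁ f₂ e P) :
    ∃ K : Subgroup (GL (Fin m ⊕ Fin m) F),
      Geo.tensorProductSubgroup a 3 e P ⊓ spGL m F < K ∧ K < spGL m F := by
  obtain ⟨B₁, f, B, E, hT, h2, h3⟩ := exists_model (two_ne_zero_of_odd (by rw [hq]; decide))
    e P f₁ f₂ hf₁ hf₂ hT
  have ha : 1 ≤ a := by
    have := Fintype.card_congr e
    simp only [Fintype.card_sum, Fintype.card_fin, Fintype.card_prod] at this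
    omega
  have hs := hT.s1
  have hf := hT.s2
  have h30 : (3 : F) = 0 := by simpa [hq] using FiniteField.cast_card_eq_zero F
  have hsq : ∀ x : F, x ≠ 0 → x * x = 1 := fun x hx => by
    simpa [hq, sq] using FiniteField.pow_card_sub_one_eq_one x hx
  obtain ⟨u, -, hu⟩ := exists_ne_zero_of_finrank (K := (⊤ : Submodule F (Fin a → F))) (by simpa)
  obtain ⟨x, hx⟩ := hs.exists_one hu
  have hx' : B₁ x u = -1 := by rw [hs.skew, hx]
  obtain ⟨w₁, hw₁⟩ := exists_aniso hf hsq (by simp)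
  obtain ⟨y, hy, hy0⟩ := exists_ne_zero_of_finrank (K := LinearMap.ker (f w₁))
    (by have := finrank_ker_ge (f w₁); simp at this; omega)
  replace hy : f w₁ y = 0 := hy
  have hyw : ∀ c d : F, c • (w₁ + y) = d • w₁ → c = 0 := fun c d h => by
    have h1 : c = d := by simpa [hy, hw₁.ne] using congrArg (f w₁) h
    simpa [h1, hy0] using h
  let S : Set (Submodule F ((Fin a → F) →ₗ[F] (Fin 3 → F))) := {N | ∃ w, Aniso f w ∧ N = Nw _ w}
  have k1 : ∀ g ∈ Sp B, Kron g → ∀ N ∈ S, N.map (g : _ →ₗ[F] _) ∈ S := by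
    rintro g hg ⟨A, h, hK⟩ _ ⟨w, hw, rfl⟩
    have e1 : ∀ φ w, g (rk φ w) = rk (φ ∘ₗ (h : _ →ₗ[F] _)) (A w) := fun φ w =>
      LinearMap.ext fun y => by simp [hK]
    obtain ⟨x', hx'⟩ := hs.exists_left (B₁ x ∘ₗ (h : _ →ₗ[F] _))
    have e2 : ∀ w w', f w w' = B₁ u (h x') * f (A w) (A w') := fun w w' => by
      have := hg (rk (B₁ x) w) (rk (B₁ u) w')
      rw [e1, e1, ← hx', hT.hB, hT.hB] at this
      simpa [hx] using this.symm
    refine ⟨A w, ⟨by simpa using hw.1, fun z e3 e4 => ?_⟩, ?_⟩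
    · obtain ⟨z, rfl⟩ := A.surjective z
      rw [hw.2 z (by rw [e2, e3, mul_zero]) (by rw [e2, e4, mul_zero]), map_zero]
    · apply le_antisymm
      · rintro _ ⟨_, ⟨φ, rfl⟩, rfl⟩
        exact ⟨_, (e1 φ w).symm⟩
      · rintro _ ⟨φ, rfl⟩
        refine ⟨_, ⟨φ ∘ₗ ((h⁻¹ : _ ≃ₗ[F] _) : _ →ₗ[F] _), rfl⟩, (e1 _ w).trans ?_⟩
        exact LinearMap.ext fun y => by simp
  have k2 : ∀ c : F, ∀ N ∈ S, ∀ v ∈ N, v + (c * B v (rk (B₁ u) w₁)) • rk (B₁ u) w₁ ∈ N := by
    rintro c _ ⟨w, hw, rfl⟩ _ ⟨φ, rfl⟩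
    by_cases h : f w w₁ = 0
    · have : B (rk φ w) (rk (B₁ u) w₁) = 0 := by simp [hT.hB', hf.symm w₁ w, h]
      change rk φ w + (c * B (rk φ w) (rk (B₁ u) w₁)) • rk (B₁ u) w₁ ∈ _
      rw [this]
      simpa using mem_Nw.2 ⟨φ, rfl⟩
    · obtain ⟨d, hd⟩ := Aniso.perp hf hsq h30 (by simp) hw hw₁ h
      exact Submodule.add_mem _ ⟨φ, rfl⟩ (Submodule.smul_mem _ _ (mem_Nw.2
        ⟨d • B₁ u, by rw [rk_smul, hd]⟩))
  refine exists_between_transport (glEquiv E) _ _ (Sp B) (famStab S) Kron h2 (fun g _ => h3 g)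
    (fun g hg hK => mem_famStab (k1 g hg hK) (k1 _ ((Sp B).inv_mem hg) (kron_inv hK)))
    ⟨tvE hT.s (rk (B₁ u) w₁) 1, tvE_mem _ _ _, mem_famStab (fun N hN => ?_) (fun N hN => ?_), ?_⟩
    ⟨tvE hT.s (rk (B₁ u) (w₁ + y)) 1, tvE_mem _ _ _, fun h => ?_⟩
  · convert hN
    refine Submodule.eq_of_le_of_finrank_eq ?_ (LinearEquiv.finrank_map_eq _ _)
    rintro _ ⟨v, hv, rfl⟩
    exact k2 1 N hN v hv
  · convert hN
    refine Submodule.eq_of_le_of_finrank_eq ?_ (LinearEquiv.finrank_map_eq _ _)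
    rintro _ ⟨v, hv, rfl⟩
    convert k2 (-1) N hN v hv using 1
    rw [LinearEquiv.coe_coe, tvE_inv_apply]
    module
  · refine not_kron_of (φ := B₁ x) (u := w₁ + y)
      (φ₁ := B₁ x) (φ₂ := B₁ u) (u₁ := w₁ + y) (u₂ := f w₁ w₁ • w₁) (fun c hc => ?_)
      (fun h0 => by simp [h0] at hx') (fun c hc => ?_) (fun h0 => ?_) ?_
    · simpa [hx, hs.alt] using LinearMap.congr_fun hc x
    · have := hyw c _ hc.symm
      simp [this, hw₁.ne, hw₁.1] at hc
    · simpa using hyw 1 0 (by simpa using h0)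
    · rw [tvE_apply, hT.hB']
      simp [hx', hy]
  · obtain ⟨w, -, hw⟩ := (h (Nw _ w₁)).1 ⟨w₁, hw₁, rfl⟩
    have : tvE hT.s (rk (B₁ u) (w₁ + y)) 1 (rk (B₁ x) w₁) ∈ Nw _ w := by
      rw [← hw]; exact ⟨_, ⟨_, rfl⟩, rfl⟩
    obtain ⟨φ, hφ⟩ := mem_Nw.1 this
    have e1 := LinearMap.congr_fun hφ u
    have e2 := LinearMap.congr_fun hφ x
    simp only [rk_apply, tvE_apply, hT.hB, LinearMap.add_apply, LinearMap.smul_apply, hx, hx',
      hs.alt, zero_smul, smul_zero, add_zero, zero_add, one_smul, map_add, hy, one_mul] at e1 e2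
    have := hyw (φ u * f w₁ w₁) (-φ x) (by
      linear_combination (norm := module) φ x • e1 - φ u • e2)
    rw [(mul_eq_zero.1 this).resolve_right hw₁.ne] at e1
    exact hw₁.1 (by simpa using e1)

end Cfsg.Agent.H9.Sp
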