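import Cfsg.Agent.H9.Sp.Re9
import Cfsg.Agent.H9.O5.Plane

/-! The isomorphism `PSp_4(q) ≅ Ω_5(q)`, `q` odd. -/

set_option autoImplicit false
set_option linter.unusedSimpArgs false
set_option linter.unusedSectionVars false
set_option linter.unusedVariables false

namespace Cfsg.Agent.H9.Sp

open Module Cfsg.Agent.H6

attribute [-simp] LinearEquiv.coe_inv Submodule.mem_map_equiv

variable {F V W : Type*} [Field F] [AddCommGroup V] [Module F V] [FiniteDimensional F V]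
  [AddCommGroup W] [Module F W] [FiniteDimensional F W]
  {B : V →ₗ[F] V →ₗ[F] F} {Q : QuadraticForm F W} {ι : W →ₗ[F] End F V}

/-- Clifford data -/
structure Cl (B : V →ₗ[F] V →ₗ[F] F) (Q : QuadraticForm F W) (ι : W →ₗ[F] End F V) : Prop where
  symp : Symp B
  two : (2 : F) ≠ 0
  nd : Orth.Nd Q
  dim : finrank F W = 5
  dimV : finrank F V = 4
  sq : ∀ x v, ι x (ι x v) = Q x • v
  adj : ∀ x u v, B (ι x u) v = B u (ι x v)
  tr : ∀ x, LinearMap.trace F V (ι x) = 0
  surj : ∀ X : End F V, (∀ u v, B (X u) v = B u (X v)) → LinearMap.trace F V X = 0 → ∃ x, ι x = X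
  ex : ∀ δ, ∃ x y, Q x = 1 ∧ Q y = δ ∧ Orth.B Q x y = 0

/-- the graph of `Sp_4 → O_5` -/
def Rel (ι : W →ₗ[F] End F V) (g : V ≃ₗ[F] V) (k : W ≃ₗ[F] W) : Prop :=
  ∀ x v, g (ι x v) = ι (k x) (g v)

theorem Rel.one : Rel ι 1 1 := fun _ _ => rfl

theorem Rel.mul {g g' : V ≃ₗ[F] V} {k k' : W ≃ₗ[F] W} (h : Rel ι g k) (h' : Rel ι g' k') :
    Rel ι (g * g') (k * k') := fun x v => by simp [h' x v, h (k' x)]

theorem Rel.inv {g : V ≃ₗ[F] V} {k : W ≃ₗ[F] W} (h : Rel ι g k) : Rel ι g⁻¹ k⁻¹ := fun x v =>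
  g.injective (by simp [h (k⁻¹ x)])

theorem Rel.neg : Rel ι (LinearEquiv.neg F) 1 := fun x v => by simp

/-- the image of a subgroup -/
def Img (ι : W →ₗ[F] End F V) (M : Subgroup (V ≃ₗ[F] V)) : Subgroup (W ≃ₗ[F] W) where
  carrier := {k | ∃ g ∈ M, Rel ι g k}
  one_mem' := ⟨1, one_mem _, Rel.one⟩
  mul_mem' := fun ⟨g, a, b⟩ ⟨g', a', b'⟩ => ⟨_, mul_mem a a', b.mul b'⟩
  inv_mem' := fun ⟨g, a, b⟩ => ⟨_, inv_mem a, b.inv⟩

namespace Cl

variable (h : Cl B Q ι)
include h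

theorem exists_ne : ∃ v : V, v ≠ 0 :=
  have : Nontrivial V := finrank_pos_iff.1 (show 0 < finrank F V by simp [h.dimV])
  _root_.exists_ne 0

theorem sc {a b : F} (e : ∀ v : V, a • v = b • v) : a = b := by
  obtain ⟨v, hv⟩ := h.exists_ne
  exact smul_left_injective F hv (e v)

theorem anti (x y : W) (v : V) : ι x (ι y v) = Orth.B Q x y • v - ι y (ι x v) := by
  have := h.sq (x + y) v
  simp only [map_add, LinearMap.add_apply, h.sq, Orth.Q_add] at this
  linear_combination (norm := module) this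

theorem inj {x y : W} (e : ∀ v, ι x v = ι y v) : x = y :=
  sub_eq_zero.1 (h.nd _ fun z => h.sc fun v => by
    simpa [e, sub_smul] using (h.anti z (x - y) v).symm)

theorem rel_O {g : V ≃ₗ[F] V} {k : W ≃ₗ[F] W} (r : Rel ι g k) : k ∈ Orth.O Q := fun x =>
  h.sc fun v => by
    obtain ⟨v, rfl⟩ := g.surjective v
    rw [← h.sq, ← r, ← r, h.sq, map_smul]

theorem exists_rel {g : V ≃ₗ[F] V} (hg : g ∈ Sp B) : ∃ k, Rel ι g k := by
  obtain ⟨l, hl⟩ := ι.exists_leftInverse_of_injective (LinearMap.ker_eq_bot'.2 fun x hx =>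
    h.inj (by simp [hx]))
  have h1 : ∀ x v, g (ι x v) = ι ((l ∘ₗ g.conj.toLinearMap ∘ₗ ι) x) (g v) := fun x v => by
    obtain ⟨y, hy⟩ := h.surj (g.conj (ι x)) (fun u v => by
      simp only [LinearEquiv.conj_apply_apply]
      rw [Sp_left hg, h.adj, Sp_right hg]; rfl) (by rw [LinearMap.trace_conj', h.tr])
    have := LinearMap.congr_fun hl y
    simp only [LinearMap.comp_apply, LinearMap.id_apply, LinearEquiv.coe_coe] at this ⊢
    rw [← hy, this, hy]; simp
  exact ⟨LinearEquiv.ofInjectiveEndo (l ∘ₗ g.conj.toLinearMap ∘ₗ ι) ((injective_iff_map_eq_zero _).2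
    fun x hx => h.inj fun v => g.injective (by rw [h1, hx]; simp)), h1⟩

theorem exists_S {a b : V} (hab : B a b = 0) : ∃ x, ∀ v, ι x v = B v a • b - B v b • a := by
  obtain ⟨x, hx⟩ := h.surj ((B.flip a).smulRight b - (B.flip b).smulRight a) (fun u v => by
    simp [h.symp.skew v]; ring) (by simp [hab, h.symp.skew b a])
  exact ⟨x, fun v => by simp [hx]⟩

theorem comm {X : End F V} (hX : ∀ x v, X (ι x v) = ι x (X v)) : ∃ c : F, ∀ v, X v = c • v := by
  have hB := h.symp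
  refine eig_const X LinearMap.id Function.injective_id fun a => ?_
  by_cases ha : a = 0
  · simp [ha]
  suffices X a ∈ F ∙ a by
    obtain ⟨c, hc⟩ := Submodule.mem_span_singleton.1 this
    exact ⟨c, hc.symm⟩
  refine hB.mem_of_perp fun s hs => ?_
  have hs' := hs a (Submodule.mem_span_singleton_self a)
  obtain ⟨b, b1, b2⟩ := Orth.exists_mem_notMem_of_finrank_lt
    (H := perp B (Submodule.span F {a, s})) (X := F ∙ a) (by
      have := hB.finrank_perp (Submodule.span F {a, s})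
      have := Orth.finrank_span_pair_le (F := F) a s
      have := Orth.finrank_span_singleton_le (F := F) a
      have := h.dimV
      omega)
  obtain ⟨x, hx⟩ := h.exists_S (b1 a (Submodule.subset_span (by simp)))
  obtain ⟨v, v1, v2⟩ := hB.exists_perp b2
  have := congrArg (fun z => B z s) (hX x v)
  simpa [hx, hB.skew v, v1 a (Submodule.mem_span_singleton_self a), v2, hs',
    hB.comm.1 (b1 s (Submodule.subset_span (by simp)))] using this

theorem ker {g : V ≃ₗ[F] V} (hg : g ∈ Sp B) (r : Rel ι g 1) : g = 1 ∨ g = LinearEquiv.neg F := by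
  obtain ⟨c, hc⟩ := h.comm (X := g.toLinearMap) r
  simp only [LinearEquiv.coe_coe] at hc
  obtain ⟨v, hv⟩ := h.exists_ne
  obtain ⟨w, hw⟩ := h.symp.exists_one hv
  have := hg v w
  simp only [hc, map_smul, LinearMap.smul_apply, hw, smul_eq_mul, mul_one] at this
  exact (mul_self_eq_one_iff.1 this).imp (fun e => by ext; simp [hc, e]) fun e => by ext; simp [hc, e]

theorem eich {u w : W} (hu : Q u = 0) (hw : Orth.B Q u w = 0) :
    ∃ g ∈ Sp B, (∀ v, g v = v - ι u (ι w v)) ∧ Rel ι g (Orth.eich Q u w) := by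
  have h1 : ∀ v, ι w (ι u v) = -ι u (ι w v) := fun v => by simp [h.anti u w, hw]
  obtain ⟨g, hg, e⟩ := exists_Sp h.symp (1 - ι u * ι w) fun x y => by
    simp [h.adj, h1, h.sq, hu]
  refine ⟨g, hg, e, fun x v => ?_⟩
  simp only [e, Orth.eich_apply hu hw, map_add, map_sub, map_smul, LinearMap.sub_apply,
    LinearMap.add_apply, LinearMap.smul_apply, End.one_apply, End.mul_apply, h.sq, hu, h1,
    h.anti w x, h.anti u x, map_neg]
  module

theorem EO_le : Orth.EO Q ≤ Img ι (Sp B) := Orth.EO_le_iff.2 fun u w hu hw =>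
  let ⟨g, a, _, b⟩ := h.eich hu hw
  ⟨g, a, b⟩

theorem Sp_le {M : Subgroup (V ≃ₗ[F] V)} (hM : M ≤ Sp B) (h1 : LinearEquiv.neg F ∈ M)
    (hE : Orth.EO Q ≤ Img ι M) : Sp B ≤ M := by
  have hB := h.symp
  refine Sp.Sp_le hB hM fun v c => ?_
  obtain ⟨a, b, ha, hb, hab⟩ : ∃ a b, B v a = 0 ∧ B v b = 0 ∧ B a b = -c := by
    by_contra! e
    obtain ⟨a, a1, a2⟩ := Orth.exists_mem_notMem_of_finrank_lt (H := perp B (F ∙ v)) (X := F ∙ v) (by
      have := hB.finrank_perp (F ∙ v)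
      have := Orth.finrank_span_singleton_le (F := F) v
      have := h.dimV
      omega)
    obtain ⟨b, b1, b2⟩ := hB.exists_perp a2
    exact e a ((-c) • b) (a1 v (Submodule.mem_span_singleton_self v))
      (by simp [b1 v (Submodule.mem_span_singleton_self v)]) (by simp [b2])
  obtain ⟨u, hu⟩ := h.exists_S ha
  obtain ⟨w, hw⟩ := h.exists_S hb
  have hu' : Q u = 0 := h.sc fun z => by simp [← h.sq, hu, hB.alt, ha, hB.skew a v]
  have hw' : Orth.B Q u w = 0 := h.sc fun z => by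
    rw [← sub_add_cancel (_ • z) (ι w (ι u z)), ← h.anti]
    simp [hu, hw, hB.alt, ha, hb, hB.skew a v, hB.skew b v, hB.skew b a]
  obtain ⟨g, hg, e, r⟩ := h.eich hu' hw'
  obtain ⟨g', hg', r'⟩ := hE (Orth.eich_mem_EO u w)
  refine ⟨g, ?_, fun z => by
    simp [e, hu, hw, hB.alt, ha, hb, hB.skew b v, hB.skew b a, hab, smul_smul, mul_comm]⟩
  rcases h.ker (mul_mem (inv_mem (hM hg')) hg) (by simpa using r'.inv.mul r) with e | e <;>
    rw [inv_mul_eq_iff_eq_mul] at e <;> rw [e]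
  exacts [mul_mem hg' (one_mem _), mul_mem hg' h1]

theorem transfer (P : (V ≃ₗ[F] V) → Prop) (P' : (W ≃ₗ[F] W) → Prop)
    (hP : ∀ g ∈ Sp B, ∀ k, Rel ι g k → (P g ↔ P' k)) (h1 : P' 1)
    (core : ∀ M ≤ Orth.O Q, (∀ k ∈ Orth.EO Q, P' k → k ∈ M) → (∀ k ∈ M, P' k) ∨ Orth.EO Q ≤ M)
    (M : Subgroup (V ≃ₗ[F] V)) (hM : M ≤ Sp B) (hH : ∀ g ∈ Sp B, P g → g ∈ M)
    (hne : ∃ g ∈ M, ¬ P g) : Sp B ≤ M := by
  have hn : LinearEquiv.neg F ∈ Sp B := fun u v => by simp
  refine h.Sp_le hM (hH _ hn ((hP _ hn _ Rel.neg).2 h1)) ((core _ ?_ fun k hk hk' => ?_).resolve_left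
    fun e => ?_)
  · rintro k ⟨g, -, r⟩; exact h.rel_O r
  · obtain ⟨g, hg, r⟩ := h.EO_le hk
    exact ⟨g, hH g hg ((hP g hg k r).2 hk'), r⟩
  · obtain ⟨g, hg, hg'⟩ := hne
    obtain ⟨k, r⟩ := h.exists_rel (hM hg)
    exact hg' ((hP g (hM hg) k r).2 (e k ⟨g, hg, r⟩))

end Cl

open Matrix

/-- the explicit model -/
def ι0 (F : Type*) [Field F] : (Fin 5 → F) →ₗ[F] End F (Fin 2 ⊕ Fin 2 → F) where
  toFun x := Matrix.toLin' (fromBlocks !![x 0, x 1; x 2, -x 0] !![0, x 3; -x 3, 0]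
    !![0, x 4; -x 4, 0] !![x 0, x 2; x 1, -x 0])
  map_add' x y := by
    rw [← map_add]; congr 1
    ext (i | i) (j | j) <;> fin_cases i <;> fin_cases j <;> simp [add_comm]
  map_smul' c x := by
    rw [← map_smul]; congr 1
    ext (i | i) (j | j) <;> fin_cases i <;> fin_cases j <;> simp

/-- the quadratic form -/
def Q0 (F : Type*) [Field F] : QuadraticForm F (Fin 5 → F) :=
  QuadraticMap.proj 0 0 + QuadraticMap.proj 1 2 - QuadraticMap.proj 3 4

theorem Q0_apply (x : Fin 5 → F) : Q0 F x = x 0 * x 0 + x 1 * x 2 - x 3 * x 4 := by simp [Q0]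

theorem B_Q0 (x y : Fin 5 → F) : Orth.B (Q0 F) x y =
    2 * x 0 * y 0 + x 1 * y 2 + x 2 * y 1 - x 3 * y 4 - x 4 * y 3 := by
  simp [Orth.B_eq_polar, QuadraticMap.polar, Q0_apply]; ring

theorem cl0 (h2 : (2 : F) ≠ 0) : Cl (B0 2 F) (Q0 F) (ι0 F) where
  symp := symp_B0 2 F
  two := h2
  nd v hv := by
    have := fun i => hv (Pi.single i 1)
    have h0 := this 0; have h1 := this 1; have h3 := this 2; have h4 := this 3; have h5 := this 4
    ext i
    fin_cases i <;> simp_all [B_Q0]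
  dim := by simp
  dimV := by simp
  sq x v := by
    ext (i | i) <;> fin_cases i <;>
      simp [ι0, Q0_apply, mulVec, dotProduct, Fintype.sum_sum_type] <;> ring
  adj x u v := by
    simp [ι0, B0_apply, sympForm_eq, mulVec, dotProduct, Fintype.sum_sum_type]; ring
  tr x := by simp [ι0, Matrix.trace, Fintype.sum_sum_type]
  surj X hX ht := by
    obtain ⟨A, rfl⟩ := Matrix.toLin'.surjective X
    have h1 := fun i j => hX (Pi.single i 1) (Pi.single j 1)
    simp only [B0_apply, sympForm_eq, toLin'_apply, mulVec_single_one, Sum.forall, Fin.forall_fin_two,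
      Fin.sum_univ_two] at h1
    simp [Matrix.trace, Fintype.sum_sum_type] at ht h1
    refine ⟨![A (.inl 0) (.inl 0), A (.inl 0) (.inl 1), A (.inl 1) (.inl 0), A (.inl 0) (.inr 1),
      A (.inr 0) (.inl 1)], congrArg Matrix.toLin' ?_⟩
    obtain ⟨⟨⟨⟨a1, a2⟩, a3, a4⟩, ⟨-, a5⟩, a6, a7⟩, ⟨-, a8, a9⟩, -, -, a10⟩ := h1
    ext (i | i) (j | j) <;> fin_cases i <;> fin_cases j <;> simp <;> apply mul_left_cancel₀ h2 <;>
      first | linear_combination -ht - a3 - a7 | linear_combination a8 | linear_combination 2 * a9 |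
        linear_combination a10 | linear_combination -a1 | linear_combination -2 * a2 |
        linear_combination -a5 | linear_combination 2 * a3 | linear_combination 2 * a4 |
        linear_combination 2 * a6 | linear_combination -ht - a3 + a7
  ex δ := ⟨Pi.single 0 1, ![0, 1, δ, 0, 0], by simp [Q0_apply], by simp [Q0_apply], by simp [B_Q0]⟩

end Cfsg.Agent.H9.Sp
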