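import Cfsg.Agent.H9.Sp.Cl1

/-! Maximality of `GL_2(q).2` and `GU_2(q).2` in `Sp_4(q)`, `q ≥ 5` odd. -/

set_option autoImplicit false
set_option linter.unusedSimpArgs false
set_option linter.unusedSectionVars false
set_option linter.unusedVariables false

universe u

namespace Cfsg.Agent.H9.Sp

open Module Cfsg.Agent.H6

attribute [-simp] LinearEquiv.coe_inv Submodule.mem_map_equiv

variable {F V : Type u} {W : Type*} [Field F] [Fintype F] [AddCommGroup V] [Module F V]
  [FiniteDimensional F V] [AddCommGroup W] [Module F W] [FiniteDimensional F W]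
  {B : V →ₗ[F] V →ₗ[F] F} {Q : QuadraticForm F W} {ι : W →ₗ[F] End F V} {J : End F V} {δ : F}

theorem Cl.js_core (h : Cl B Q ι) (hJ : JS B J δ) (hl : ∃ l : F, l ≠ 0 ∧ l * l ≠ 1)
    (M : Subgroup (V ≃ₗ[F] V)) (hM : M ≤ Sp B) (hH : ∀ g ∈ Sp B, PJ J g → g ∈ M)
    (hne : ∃ g ∈ M, ¬ PJ J g) : Sp B ≤ M := by
  have h2 := h.two
  obtain ⟨x, y, hx, hy, hxy, e⟩ : ∃ x y, Q x = 1 ∧ Q y = -δ ∧ Orth.B Q x y = 0 ∧
      ∀ v, J v = ι x (ι y v) := by
    obtain ⟨x, y, hx, hy, hxy⟩ := h.ex (-δ)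
    have h1 : ∀ v, ι y (ι x v) = -ι x (ι y v) := fun v => by simp [h.anti x y, hxy]
    obtain ⟨g, hg, e⟩ := JS.conj (J := ι x * ι y) ⟨h.symp, fun v => by simp [h1, h.sq, hx, hy],
      hJ.ne, fun u v => by simp [h.adj, h1], h2⟩ hJ
    obtain ⟨k, r⟩ := h.exists_rel hg
    refine ⟨k x, k y, by rw [h.rel_O r, hx], by rw [h.rel_O r, hy],
      by rw [Orth.O_B (h.rel_O r), hxy], fun v => ?_⟩
    obtain ⟨v, rfl⟩ := g.surjective v
    rw [← e, End.mul_apply, r, r]
  have h1 : ∀ v, ι y (ι x v) = -ι x (ι y v) := fun v => by simp [h.anti x y, hxy]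
  have hδ := hJ.ne
  have hP : ∀ z, z ∈ Submodule.span F {x, y} ↔ ∀ v, J (ι z v) = -ι z (J v) := fun z => by
    refine ⟨fun hz v => ?_, fun hz => Submodule.mem_span_pair.2
      ⟨Orth.B Q x z / 2, -Orth.B Q y z / (2 * δ), h.inj fun v => ?_⟩⟩
    · obtain ⟨a, b, rfl⟩ := Submodule.mem_span_pair.1 hz
      simp only [e, map_add, map_smul, LinearMap.add_apply, LinearMap.smul_apply, h1, h.sq, hx, hy,
        map_neg]
      module
    have h3 : (2 : F) • J (ι z v) = Orth.B Q y z • ι x v - Orth.B Q x z • ι y v := by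
      rw [two_smul]
      nth_rewrite 1 [hz]
      simp only [e, h.anti y z, h.anti x z, map_sub, map_smul]
      module
    have h4 := congrArg J h3
    simp only [map_smul, hJ.sq] at h4
    simp only [e, map_sub, map_smul, h1, h.sq, hx, hy, map_neg] at h4
    apply smul_right_injective V (mul_ne_zero h2 hδ)
    simp only [map_add, map_smul, LinearMap.add_apply, LinearMap.smul_apply, mul_smul, h4]
    match_scalars <;> field_simp
  have hy0 : y ≠ 0 := by rintro rfl; simp [hδ] at hy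
  obtain ⟨ind, dim⟩ := O5.orth_ind h2 (by simp [hx]) hy0 hxy
  refine h.transfer (PJ J) (fun k => ∀ z ∈ Submodule.span F {x, y}, k z ∈ Submodule.span F {x, y})
    (fun g hg k r => ⟨fun c z hz => (hP _).2 fun v => ?_, fun c => ?_⟩) (fun _ h => h)
    (fun M hM hH => O5.plane_core h.nd h.dim h2 hl (fun z hz h' => ?_) dim hM hH) M hM hH hne
  · obtain ⟨v, rfl⟩ := g.surjective v
    rw [hP] at hz
    rcases c with c | c
    · rw [← r, ← c, ← c, ← r, hz, map_neg]
    · rw [← r, ← neg_inj, ← c, hz, map_neg, r, c]; simp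
  · obtain ⟨a, b, h3⟩ := Submodule.mem_span_pair.1 (c x (Submodule.subset_span (by simp)))
    obtain ⟨a', b', h4⟩ := Submodule.mem_span_pair.1 (c y (Submodule.subset_span (by simp)))
    have h5 := Orth.O_B (h.rel_O r) x y
    rw [← h3, ← h4] at h5
    simp only [map_add, map_smul, LinearMap.add_apply, LinearMap.smul_apply, Orth.B_self, hx, hy,
      hxy, Orth.B_comm Q y x, smul_eq_mul] at h5
    have h6 : ∀ v, g (J v) = (a * b' - b * a') • J (g v) := fun v => by
      simp only [e, r x, r y, ← h3, ← h4, map_add, map_smul, LinearMap.add_apply,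
        LinearMap.smul_apply, h1, h.sq, hx, hy]
      match_scalars
      · exact mul_left_cancel₀ h2 (by linear_combination h5)
      · ring
    have h7 : (a * b' - b * a') * (a * b' - b * a') = 1 := mul_right_cancel₀ hδ (h.sc fun v => by
      obtain ⟨v, rfl⟩ := g.surjective v
      have := h6 (J v)
      rw [hJ.sq, h6 v, map_smul, map_smul, hJ.sq] at this
      simpa [mul_smul] using this.symm)
    exact (mul_self_eq_one_iff.1 h7).imp (fun e v => by simp [h6, e]) fun e v => by simp [h6, e]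
  · obtain ⟨a, b, rfl⟩ := Submodule.mem_span_pair.1 hz
    have h3 := h' x (Submodule.subset_span (by simp))
    have h4 := h' y (Submodule.subset_span (by simp))
    simp [Orth.B_self, hx, hy, hxy, Orth.B_comm Q y x, h2, hδ] at h3 h4
    simp [h3, h4]

theorem exists_l (h5 : 5 ≤ Fintype.card F) : ∃ l : F, l ≠ 0 ∧ l * l ≠ 1 := by
  classical
  by_contra! h
  have : (Finset.univ : Finset F) ⊆ {0, 1, -1} := fun l _ => by
    by_cases h0 : l = 0
    · simp [h0]
    · rcases mul_self_eq_one_iff.1 (h l h0) with e | e <;> simp [e]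
  have := (Finset.card_le_card this).trans Finset.card_le_three
  rw [Finset.card_univ] at this
  omega

theorem ti_maximal4 (hodd : Odd (Fintype.card F)) (h5 : 5 ≤ Fintype.card F)
    (D : Fin 2 → Submodule F (Fin 2 ⊕ Fin 2 → F)) (hD : Geo.IsMDecomposition 2 D)
    (hts : ∀ i, Geo.IsTotallySingularFor (sympForm 2 F) (D i)) :
    Geo.IsMaximalIn (spGL 2 F) (Geo.decompositionStabilizer D ⊓ spGL 2 F) := by
  obtain ⟨J, hJ, h1, h2⟩ := ti_core (symp_B0 2 F) (two_ne_zero_of_odd hodd) (D := D) hts (by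
    constructor
    · exact hD.indep.pairwiseDisjoint (by decide : (0 : Fin 2) ≠ 1)
    · rw [codisjoint_iff, ← hD.iSup_eq_top]
      apply le_antisymm (sup_le (le_iSup D 0) (le_iSup D 1))
      refine iSup_le fun i => ?_
      fin_cases i
      · exact le_sup_left
      · exact le_sup_right) (by rw [hD.finrank_eq, hD.finrank_eq])
  exact isMaximalIn_transport gl0 _ _ (Sp (B0 2 F)) (PJ J) mem_spGL
    (fun g _ => (mem_decompositionStabilizer g).trans (h1 _)) (hJ.proper (by simp))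
    ((cl0 hJ.two).js_core hJ (exists_l h5))

theorem unitary_maximal4 (hodd : Odd (Fintype.card F)) (h5 : 5 ≤ Fintype.card F)
    (K : Subalgebra F (Matrix (Fin 2 ⊕ Fin 2) (Fin 2 ⊕ Fin 2) F)) (hK : Geo.IsFieldSubalgebra 2 K)
    (hac : Geo.IsAdjointClosedFor (sympForm 2 F) K)
    (hnsa : ¬ Geo.IsSelfAdjointFor (sympForm 2 F) K) :
    Geo.IsMaximalIn (spGL 2 F) (Geo.subalgebraNormalizer K ⊓ spGL 2 F) := by
  obtain ⟨J, δ, hJ, -, h1⟩ := unitary_bridge one_le_two hodd K hK hac hnsa
  exact isMaximalIn_transport gl0 _ _ (Sp (B0 2 F)) (PJ J) mem_spGL h1 (hJ.proper (by simp))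
    ((cl0 hJ.two).js_core hJ (exists_l h5))

end Cfsg.Agent.H9.Sp
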