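import Cfsg.Agent.H9.Sp.UnitFin
import Cfsg.Agent.H6.Ext2

/-! Extension field subgroups `Sp_d(q^r).r` are maximal in the symplectic group. -/

set_option autoImplicit false
set_option linter.unusedSimpArgs false
set_option linter.unusedSectionVars false
set_option linter.unusedVariables false

namespace Cfsg.Agent.H9.Sp

open Module Cfsg.Agent.H6

attribute [-simp] LinearEquiv.coe_inv Submodule.mem_map_equiv

section EL

variable {F : Type*} [Field F] {V : Type*} [AddCommGroup V] [Module F V]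
variable {B : V →ₗ[F] V →ₗ[F] F} {M : Subgroup (V ≃ₗ[F] V)}

theorem EL_symm (hB : Symp B) (hM : M ≤ Sp B) {L : Submodule F V}
    (hL : ∀ u ∈ L, ∀ v ∈ L, B u v = 0) {y : V →ₗ[F] V} (hy : y ∈ EL M L) (x z : V) :
    B (y x) z = B (y z) x := by
  obtain ⟨h1, -, g, hg, h3⟩ := hy
  have := hM hg x z
  rw [h3, h3] at this
  simp only [map_add, LinearMap.add_apply, hL _ (h1 x) _ (h1 z), hB.skew x (y z)] at this
  linear_combination this

theorem EL_perp (hB : Symp B) (hM : M ≤ Sp B) {L : Submodule F V}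
    (hL : ∀ u ∈ L, ∀ v ∈ L, B u v = 0) {y : V →ₗ[F] V} (hy : y ∈ EL M L) {x : V}
    (hx : x ∈ perp B L) : y x = 0 :=
  hB.nd' _ fun z => by rw [EL_symm hB hM hL hy, hx _ (hy.1 z)]

theorem comm_R [FiniteDimensional F V] (hB : Symp B) (hM : M ≤ Sp B) {L : Submodule F V}
    (hL : ∀ u ∈ L, ∀ v ∈ L, B u v = 0) {y : V →ₗ[F] V} (hy : y ∈ EL M L) {k : V ≃ₗ[F] V}
    (hk : k ∈ M) {v₀ s : V} (hs : s ∈ L) (hkx : ∀ x ∈ L, k x = x + B x v₀ • s) :
    R B M s (y v₀) (B (y v₀) v₀) := by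
  obtain ⟨-, -, g, hg, h⟩ := (EL M L).sub_mem hy (EL_conj_stab hy hk fun v hv => by
    rw [hkx v hv]; exact L.add_mem hv (L.smul_mem _ hs))
  refine ⟨g, hg, fun x => ?_⟩
  have h1 : y (k⁻¹ x) = y x - B x s • y v₀ := by
    rw [← map_smul, ← map_sub, ← sub_eq_zero, ← map_sub]
    refine EL_perp hB hM hL hy fun z hz => ?_
    simp only [map_sub, map_smul, smul_eq_mul]
    rw [← Sp_left (hM hk), hkx z hz]
    simp only [map_add, map_smul, LinearMap.add_apply, LinearMap.smul_apply, smul_eq_mul,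
      hB.skew s x]
    ring
  rw [h, LinearMap.sub_apply, cj_apply, h1, hkx _ (L.sub_mem (hy.1 _) (L.smul_mem _ (hy.1 _)))]
  simp only [map_sub, map_smul, LinearMap.sub_apply, LinearMap.smul_apply, smul_eq_mul,
    EL_symm hB hM hL hy x v₀, hB.skew (y v₀) x]
  module

end EL

section Core

variable {F : Type*} [Field F] {K : Type*} [Field K] [Algebra F K]
  {V : Type*} [AddCommGroup V] [Module F V] [Module K V] [IsScalarTower F K V]
  [Finite K] [FiniteDimensional K V]
variable {B : V →ₗ[F] V →ₗ[F] F} {M : Subgroup (V ≃ₗ[F] V)}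

theorem exists_BK (hB : Symp B) (hsa : ∀ (c : K) x y, B (c • x) y = B x (c • y))
    (halt : ∀ (c : K) x, B (c • x) x = 0) : ∃ (θ : Dual F K) (BK : V →ₗ[K] V →ₗ[K] K),
      θ ≠ 0 ∧ Symp BK ∧ ∀ x y, B x y = θ (BK x y) := by
  have := finite_base F K
  obtain ⟨θ, hθ1⟩ := exists_dual_one' (F := F) (one_ne_zero (α := K))
  have hθ : θ ≠ 0 := by rintro rfl; simp at hθ1
  have hinj : Function.Injective fun a : K => θ ∘ₗ LinearMap.mulRight F a := by
    intro a b hab
    rw [← sub_eq_zero]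
    refine eq_zero_of_forall_mul hθ fun c => ?_
    have := LinearMap.congr_fun hab c
    simp only [LinearMap.comp_apply, LinearMap.mulRight_apply] at this
    rw [mul_sub, map_sub, this, sub_self]
  have hex : ∀ x y : V, ∃ a : K, ∀ c : K, θ (c * a) = B (c • x) y := by
    intro x y
    obtain ⟨a, ha⟩ := surjective_of_injective_dual _ hinj
      (B.flip y ∘ₗ (LinearMap.toSpanSingleton K V x).restrictScalars F)
    exact ⟨a, fun c => LinearMap.congr_fun ha c⟩
  choose f hf using hex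
  have hext : ∀ a b : K, (∀ c, θ (c * a) = θ (c * b)) → a = b := fun a b h => by
    rw [← sub_eq_zero]
    exact eq_zero_of_forall_mul hθ fun c => by rw [mul_sub, map_sub, h, sub_self]
  refine ⟨θ, LinearMap.mk₂ K f (fun x y z => hext _ _ fun c => by simp [mul_add, hf])
    (fun a x y => hext _ _ fun c => by simp [← mul_assoc, hf, smul_smul])
    (fun x y z => hext _ _ fun c => by simp [mul_add, hf])
    (fun a x y => hext _ _ fun c => by
      rw [smul_eq_mul, ← mul_assoc, hf, hf, ← hsa, smul_smul, mul_comm]), hθ, ⟨fun v => ?_, ?_⟩,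
    fun x y => by simpa using (hf x y 1).symm⟩
  · exact hext _ _ fun c => by simp [hf, halt]
  · intro z hz
    refine hB.nd z fun x => ?_
    have := hf x z 1
    have h2 : f x z = 0 := hz x
    simpa [h2] using this.symm

variable {θ : Dual F K} {BK : V →ₗ[K] V →ₗ[K] K}

theorem ext_core (hB : Symp B) (hM : M ≤ Sp B) (hθ : θ ≠ 0) (hK : Symp BK)
    (hBK : ∀ x y, B x y = θ (BK x y)) (hr : (finrank F K).Prime) (hm : 2 ≤ finrank K V)
    (hq : (∃ c : F, c ≠ 0 ∧ c ≠ 1) ∨ 3 ≤ finrank F K ∨ 3 ≤ finrank K V)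
    (hH : ∀ g ∈ Sp B, GamL K g → g ∈ M) (hg : ∃ g ∈ M, ¬ GamL K g) : Sp B ≤ M := by
  have := finite_base F K
  have := fd_base F K V
  have hH0 : ∀ k ∈ Sp BK, rs F k ∈ M := fun k hk =>
    hH _ (fun u v => by rw [hBK, hBK, rs_apply, rs_apply, hk]) (rs_gamL k)
  have fin : ∀ (x : V) (c : F), x ≠ 0 → c ≠ 0 → T B M x c → Sp B ≤ M := by
    intro x c hx hc hT
    apply Sp_le hB hM
    intro v
    refine full_of_smul hB hc fun a => ?_
    by_cases h : a • v = 0
    · rw [h]; exact T.zero_left c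
    obtain ⟨k, hk, hkx⟩ := Sp_trans hK hx h
    rw [← hkx]
    exact hT.conj hM (hH0 k hk)
  have finR : ∀ (x y : V) (c d : F), x ≠ 0 → c ≠ d → B x y = 0 → R B M x y c → R B M x y d →
      Sp B ≤ M := by
    intro x y c d hx hcd hxy h1 h2
    have := h1.mul hB (h2.inv hB hxy) hxy (by simp [hxy])
    refine fin x (c - d) hx (sub_ne_zero.2 hcd) (R_zero_iff.1 (this.congr (by simp) ?_))
    simp [hB.alt, sub_eq_add_neg]
  obtain ⟨g, hgM, hg⟩ := hg
  rcases exists_maxInt (M := M) (S := IsKl F K) with h | ⟨L, L', hL, hL', hne, hbot, hmax⟩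
  · exact absurd ⟨semi_of_maxInt hm h hgM, semi_of_maxInt hm h (M.inv_mem hgM)⟩ hg
  have hti : ∀ L, ML M (IsKl F K) L → ∀ u ∈ L, ∀ v ∈ L, B u v = 0 := by
    rintro _ ⟨g, hg, _, ⟨l, -, rfl⟩, rfl⟩ _ ⟨u, hu, rfl⟩ _ ⟨v, hv, rfl⟩
    obtain ⟨c, rfl⟩ := mem_Kl.1 hu
    obtain ⟨d, rfl⟩ := mem_Kl.1 hv
    simp only [LinearEquiv.coe_coe]
    rw [hM hg, hBK]
    simp [hK.alt]
  have hreg : ∀ L, ML M (IsKl F K) L → ∀ v, v ∉ perp B L → ∀ x ∈ L, ∃ y ∈ EL M L, y v = x := by
    rintro _ ⟨g, hg, _, ⟨l, -, rfl⟩, rfl⟩ v hv x hx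
    rw [mem_map_equiv'] at hx
    obtain ⟨c, hc⟩ := mem_Kl.1 hx
    have h1 : BK (g⁻¹ v) l ≠ 0 := by
      intro h
      apply hv
      rintro _ ⟨u, hu, rfl⟩
      obtain ⟨d, rfl⟩ := mem_Kl.1 hu
      simp only [LinearEquiv.coe_coe]
      rw [Sp_left (hM hg), hBK]
      simp [hK.comm.1 h]
    refine ⟨_, EL_conj_map (y := kmap F ((c / BK (g⁻¹ v) l) • BK.flip l) l)
      ⟨fun v => smul_mem_Kl _ _, fun v hv => ?_, _, hH0 _ (tvE_mem hK l (c / BK (g⁻¹ v) l)),
        fun v => by simp⟩ hg, ?_⟩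
    · obtain ⟨d, rfl⟩ := mem_Kl.1 hv
      simp [hK.alt]
    · simp [h1, hc]
  obtain ⟨a, ⟨haL, haL'⟩, ha0⟩ := Submodule.exists_mem_ne_zero_of_ne_bot hbot
  have hfr := (ml_finrank (M := M) (ML.of hL)).trans (ml_finrank hL').symm
  obtain ⟨l₀, -, rfl⟩ := hL
  rw [Kl_eq_of_mem haL ha0] at hne hmax hfr
  obtain ⟨l, hl, hl'⟩ : ∃ l ∈ L', l ∉ Kl F K a := by
    by_contra! h
    exact hne (Submodule.eq_of_le_of_finrank_eq h hfr.symm).symm
  obtain ⟨x, hx, hx'⟩ : ∃ l ∈ Kl F K a, l ∉ L' := by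
    by_contra! h
    exact hne (Submodule.eq_of_le_of_finrank_eq h hfr)
  obtain ⟨ω, rfl⟩ := mem_Kl.1 hx
  have key : ∀ k ∈ Sp BK, k a = a → k l ∈ L' → ∀ v ∈ L', k v ∈ L' := by
    intro k hk h1 h2
    have := hmax _ _ (hL'.map (hH0 k hk)) hL'
      (Submodule.finrank_lt_finrank_of_lt (lt_of_le_of_ne ?_ ?_))
    · intro v hv
      rw [← this]; exact ⟨v, hv, rfl⟩
    · rintro v ⟨hv, hv'⟩
      refine ⟨⟨v, hv', ?_⟩, hv'⟩
      obtain ⟨c, rfl⟩ := mem_Kl.1 hv
      simp [h1]
    · intro h4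
      have h5 : k l ∈ Kl F K a ⊓ L' := by
        rw [h4]
        exact ⟨⟨l, hl, rfl⟩, h2⟩
      obtain ⟨c, hc⟩ := mem_Kl.1 h5.1
      apply hl'
      rw [← h1, ← map_smul] at hc
      exact mem_Kl.2 ⟨c, k.injective hc⟩
  have mv : ∀ l', BK a l' = BK a l → l' ∉ Kl F K a → ∃ k ∈ Sp BK, k a = a ∧ k l = l' := by
    intro l' h1 h2
    have h3 : ∀ x, x ∉ Kl F K a → ∃ s ∈ perp BK (Submodule.span K {a}), BK x s ≠ 0 := by
      intro x hx
      obtain ⟨s, h1, h2⟩ := hK.exists_perp (K := Submodule.span K {a}) hx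
      exact ⟨s, h1, by simp [h2]⟩
    obtain ⟨k, hk, h4, h5, -⟩ := move hK (S := perp BK (Submodule.span K {a}))
      (fun s _ => full_Sp hK s) (x := l) (y := l') (by
        intro z hz
        obtain ⟨c, rfl⟩ := Submodule.mem_span_singleton.1 hz
        simp [h1]) (h3 l hl') (h3 l' h2)
    exact ⟨k, hk, h5 a fun s hs => hs a (Submodule.mem_span_singleton_self a), h4⟩
  have mv' : ∀ s : K, ∃ k ∈ Sp BK, k a = a ∧ k l = l + s • a := fun s =>
    mv _ (by simp [hK.alt]) fun h => hl' (by simpa using Submodule.sub_mem _ h (smul_mem_Kl s a))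
  have dec : ∀ v ∈ L', ∃ (s : K) (t : F), s • a ∈ L' ∧ v = s • a + t • l := by
    intro v hv
    obtain ⟨s, b, rfl⟩ : ∃ s b : K, v = s • a + b • l := by
      by_contra! h
      obtain ⟨w, h1, h2⟩ := hK.exists_perp (K := Submodule.span K {a, l}) (x := v) (by
        intro h'
        obtain ⟨s, b, hsb⟩ := Submodule.mem_span_pair.1 h'
        exact h s b hsb.symm)
      have h3 : BK a w = 0 := h1 a (Submodule.subset_span (by simp))
      have h4 : BK l w = 0 := h1 l (Submodule.subset_span (by simp))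
      have h5 : Kl F K w ≤ L' := by
        intro z hz
        obtain ⟨c, rfl⟩ := mem_Kl.1 hz
        have := key _ (tvE_mem hK w c) (by simp [h3]) (by simpa [h4] using hl) v hv
        simpa [h2] using L'.sub_mem this hv
      have hw0 : w ≠ 0 := by rintro rfl; simp at h2
      have h6 := Submodule.eq_of_le_of_finrank_eq h5 (by rw [finrank_Kl hw0, ml_finrank hL'])
      rw [← h6] at haL' hne
      exact hne (Kl_eq_of_mem haL' ha0).symm
    let T : Subalgebra F K :=
      { carrier := {c | ∀ s : K, s • a ∈ L' → (c * s) • a ∈ L'}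
        mul_mem' := fun {x y} hx hy s hs => by rw [mul_assoc]; exact hx _ (hy s hs)
        add_mem' := fun {x y} hx hy s hs => by
          rw [add_mul, add_smul]; exact L'.add_mem (hx s hs) (hy s hs)
        algebraMap_mem' := fun μ s hs => by
          rw [← Algebra.smul_def, smul_assoc]; exact L'.smul_mem μ hs }
    have hb : b ∈ T := fun s' hs' => by
      obtain ⟨k, hk, h1, h2⟩ := mv' s'
      have := L'.sub_mem (key k hk h1 (h2 ▸ L'.add_mem hl hs') _ hv) hv
      simpa [h1, h2, smul_smul] using this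
    rcases (Subalgebra.isSimpleOrder_of_finrank_prime F K hr).eq_bot_or_eq_top T with h3 | h3
    · rw [h3] at hb
      obtain ⟨t, rfl⟩ := Algebra.mem_bot.1 hb
      rw [algebraMap_smul] at hv ⊢
      exact ⟨s, t, by simpa using L'.sub_mem hv (L'.smul_mem t hl), rfl⟩
    · have : ω ∈ T := h3 ▸ trivial
      exact absurd (by simpa using this 1 (by simpa using haL')) hx'
  obtain ⟨v₀, hv1, hv2⟩ := hB.exists_perp (K := Kl F K a ⊓ L') (x := l) fun h => hl' h.1
  have star : ∀ u ∈ L', ∀ s : K, s • a ∈ L' → R B M (s • a) u (B u v₀) := by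
    intro u hu s hs
    obtain ⟨y, hy, rfl⟩ := hreg L' hL' v₀ (fun h => by simpa [hv2] using h l hl) u hu
    obtain ⟨k, hk, h1, h2⟩ := mv' s
    refine comm_R hB hM (hti L' hL') hy (hH0 k hk) hs fun x hx => ?_
    obtain ⟨c, t, h3, rfl⟩ := dec x hx
    simp only [rs_apply, map_add, map_smul, h1, LinearMap.add_apply, LinearMap.smul_apply, hv2,
      hv1 _ ⟨smul_mem_Kl c a, h3⟩, LinearMapClass.map_smul_of_tower]
    change c • a + t • k l = _
    rw [h2, smul_add, add_assoc]; simp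
  have hal : B a l = 0 := hti L' hL' a haL' l hl
  have star1 : R B M a l 1 := by simpa [hv2] using star l hl 1 (by simpa using haL')
  by_cases hF : ∃ c : F, c ≠ 0 ∧ c ≠ 1
  · obtain ⟨c, hc0, hc1⟩ := hF
    have := star (c⁻¹ • l) (L'.smul_mem _ hl) (algebraMap F K c) (by simpa using L'.smul_mem c haL')
    rw [algebraMap_smul, R_smul_left] at this
    refine finR a l c 1 ha0 hc1 hal (this.congr (by simp [smul_smul, hc0]) ?_) star1
    simp only [map_smul, LinearMap.smul_apply, hv2, smul_eq_mul]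
    field_simp
  by_cases hr3 : 3 ≤ finrank F K
  · obtain ⟨ψ, hψ1, hψ2⟩ := exists_dual_one hl'
    obtain ⟨ψ₀, hψ3, hψ4⟩ := exists_dual_one hx'
    have h5 : finrank F L' ≤ finrank F ↥(Kl F K a ⊓ L') + 1 := by
      refine (finrank_inf_ker_ge L' ψ).trans (Nat.succ_le_succ (Submodule.finrank_mono ?_))
      rintro v ⟨hv, hv'⟩
      refine ⟨?_, hv⟩
      obtain ⟨s, t, -, rfl⟩ := dec v hv
      have : t = 0 := by simpa [hψ1 _ (smul_mem_Kl s a), hψ2] using hv'
      simpa [this] using smul_mem_Kl s a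
    have h6 : (Kl F K a ⊓ L') ⊔ Submodule.span F {ω • a} = Kl F K a := by
      apply Submodule.eq_of_le_of_finrank_le
      · exact sup_le inf_le_left ((Submodule.span_singleton_le_iff_mem _ _).2 hx)
      · rw [Submodule.finrank_sup_span_singleton fun h => hx' (Submodule.mem_inf.1 h).2]
        omega
    have h7 : ∀ c : K, ψ₀ (c • a) = 0 → c • a ∈ L' := by
      intro c hc
      have := smul_mem_Kl (F := F) c a
      rw [← h6] at this
      obtain ⟨u, hu, z, hz, huz⟩ := Submodule.mem_sup.1 this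
      obtain ⟨t, rfl⟩ := Submodule.mem_span_singleton.1 hz
      have h8 : t = 0 := by rw [← huz] at hc; simpa [hψ3 u hu.2, hψ4] using hc
      rw [← huz]; simpa [h8] using hu.2
    have h8 : ∀ u w : K, R B M (u • a) (w • a) 0 := by
      intro u w
      obtain ⟨μ, hμ, hμ0⟩ := exists_ne_zero_of_finrank
        (K := LinearMap.ker (ψ₀ ∘ₗ (LinearMap.toSpanSingleton K V (u • a)).restrictScalars F) ⊓
          LinearMap.ker (ψ₀ ∘ₗ (LinearMap.toSpanSingleton K V (w • a)).restrictScalars F)) (by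
          have := finrank_ker₂_ge
            (ψ₀ ∘ₗ (LinearMap.toSpanSingleton K V (u • a)).restrictScalars F)
            (ψ₀ ∘ₗ (LinearMap.toSpanSingleton K V (w • a)).restrictScalars F)
          omega)
      have e1 : (μ * u) • a ∈ L' := h7 _ (by rw [mul_smul]; exact hμ.1)
      have e2 : (μ * w) • a ∈ L' := h7 _ (by rw [mul_smul]; exact hμ.2)
      obtain ⟨k, hk, hka⟩ := Sp_trans hK ha0 (smul_ne_zero (inv_ne_zero hμ0) ha0)
      have := (star _ e2 _ e1).conj hM (hH0 k hk)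
      rw [hv1 _ ⟨smul_mem_Kl _ a, e2⟩] at this
      simpa [hka, smul_smul, mul_comm μ, mul_assoc, hμ0] using this
    have h9 : ∀ u ∈ L', ∀ w ∈ L', R B M u w 0 := by
      obtain ⟨g, hg, _, ⟨l₁, hl₁, rfl⟩, rfl⟩ := hL'
      rintro _ ⟨u, hu, rfl⟩ _ ⟨w, hw, rfl⟩
      obtain ⟨c, rfl⟩ := mem_Kl.1 hu
      obtain ⟨d, rfl⟩ := mem_Kl.1 hw
      obtain ⟨k, hk, hka⟩ := Sp_trans hK ha0 hl₁
      have := ((h8 c d).conj hM (hH0 k hk)).conj hM hg
      simpa [hka] using this
    exact finR a l 1 0 ha0 one_ne_zero hal star1 (h9 a haL' l hl)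
  have hd : 3 ≤ finrank K V := (hq.resolve_left hF).resolve_left hr3
  have star2 : ∀ l', BK a l' = BK a l → l' ∉ Kl F K a → R B M a l' 1 := by
    intro l' h1 h2
    obtain ⟨k, hk, h3, h4⟩ := mv l' h1 h2
    simpa [h3, h4] using star1.conj hM (hH0 k hk)
  have h2F : (2 : F) = 0 := by
    by_contra h
    exact hF ⟨2, h, fun h' => one_ne_zero (α := F) (by linear_combination h')⟩
  by_cases hal' : BK a l = 0
  · obtain ⟨c, -, hc⟩ := exists_not_mem_one (K := (⊤ : Submodule F K))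
      (by simpa using hr.two_le) 1
    have hc0 : c ≠ 0 := by simpa using hc 0
    have hc1 : 1 + c ≠ 0 := fun h => hc (-1) (by simp; linear_combination h)
    have hn : ∀ c : K, c ≠ 0 → c • l ∉ Kl F K a := fun c hc h => hl' (by
      obtain ⟨d, hd⟩ := mem_Kl.1 h
      exact mem_Kl.2 ⟨c⁻¹ * d, by rw [mul_smul, hd, smul_smul, inv_mul_cancel₀ hc, one_smul]⟩)
    have e1 := star1.mul hB (star2 (c • l) (by simp [hal']) (hn c hc0)) hal (by simp [hBK, hal'])
    have e2 := star2 ((1 + c) • l) (by simp [hal']) (hn _ hc1)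
    rw [add_smul, one_smul] at e2
    refine finR a _ _ 1 ha0 ?_ (by simp [hBK, hal']) e1 e2
    simp [hBK, hK.alt]
  · obtain ⟨y, hy0, hy1, hy2⟩ := exists_perp_pair (B := BK) hd a l
    obtain ⟨y', hy3, hy4, hy5⟩ := exists_perp_ne hK hal' hy0 hy1 hy2
    obtain ⟨c, hc⟩ : ∃ c : K, θ (c * BK y y') ≠ 0 := by
      by_contra! h; exact hy5 (eq_zero_of_forall_mul hθ h)
    have e : ∀ y, BK a y = 0 → BK l y = 0 → R B M a y 0 := by
      intro y h1 h2
      have := (star2 (l + y) (by simp [h1]) (by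
        intro h
        obtain ⟨d, hd⟩ := mem_Kl.1 h
        have := congrArg (BK a) hd
        simp [hK.alt, h1] at this
        exact hal' this.symm)).mul hB (star1.inv hB hal) (by rw [map_add, hal, hBK, h1]; simp) (by simp [hal])
      refine this.congr (by abel) ?_
      simp [hB.alt, hBK, h2, hK.alt]
    have e1 := (e (c • y') (by simp [hy3]) (by simp [hy4])).mul hB (e y hy1 hy2)
      (by simp [hBK, hy3]) (by simp [hBK, hy1])
    refine finR a _ _ 0 ha0 ?_ (by simp [hBK, hy1, hy3]) e1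
      (e _ (by simp [hy1, hy3]) (by simp [hy2, hy4]))
    simpa [hBK] using hc

theorem ext_proper' (hB : Symp B) (halt : ∀ (c : K) x, B (c • x) x = 0)
    (hr : 2 ≤ finrank F K) (hm : 1 ≤ finrank K V) : ∃ g ∈ Sp B, ¬ GamL K g := by
  obtain ⟨c, -, hc⟩ := exists_not_mem_one (K := (⊤ : Submodule F K)) (by simpa using hr) 1
  obtain ⟨x, -, hx⟩ := exists_ne_zero_of_finrank (K := (⊤ : Submodule K V)) (by simpa using hm)
  refine ⟨tvE hB x 1, tvE_mem _ _ _, fun h => ?_⟩
  obtain ⟨c', hc'⟩ := h.1 c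
  have h1 := hc' x
  simp only [tvE_apply, halt, hB.alt, mul_zero, zero_smul, add_zero] at h1
  have h2 : c = c' := smul_left_injective K hx h1
  obtain ⟨w, hw⟩ := hB.exists_one hx
  have h3 := hc' w
  simp only [tvE_apply, ← h2, hB.skew w x, hw, smul_add, add_right_inj, one_mul] at h3
  apply hc (-B (c • w) x)
  apply smul_left_injective K hx
  simp only [smul_assoc, one_smul, neg_smul]
  rw [h3]; simp

end Core

section Bridge

open Matrix

theorem ext_maximal' {F : Type*} [Field F] [Fintype F] {m : ℕ} (hm : 3 ≤ m ∨ (m = 2 ∧ Fintype.card F ≠ 2))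
    {r : ℕ} (hr : r.Prime) (K : Subalgebra F (Matrix (Fin m ⊕ Fin m) (Fin m ⊕ Fin m) F))
    (hK : Geo.IsFieldSubalgebra r K) (hsa : Geo.IsSelfAdjointFor (sympForm m F) K)
    (halt : ∀ k ∈ K, ∀ v : Fin m ⊕ Fin m → F, sympForm m F (k *ᵥ v) v = 0) :
    Geo.IsMaximalIn (spGL m F) (Geo.subalgebraNormalizer K ⊓ spGL m F) := by
  have hnt : Nontrivial K := Module.nontrivial_of_finrank_pos (R := F) (hK.finrank_eq ▸ hr.pos)
  have hf : IsField K :=
    { exists_pair_ne := exists_pair_ne K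
      mul_comm := fun x y => Subtype.ext (hK.comm _ x.2 _ y.2)
      mul_inv_cancel := fun {x} hx => by
        obtain ⟨y, hy, hxy⟩ := hK.inv _ x.2 fun h => hx (Subtype.ext h)
        exact ⟨⟨y, hy⟩, Subtype.ext hxy⟩ }
  let _ : Field K := hf.toField
  let _ : Module K (Fin m ⊕ Fin m → F) :=
    { smul := fun c v => (c : Matrix _ _ F) *ᵥ v
      one_smul := fun v => Matrix.one_mulVec v
      mul_smul := fun a b v => (Matrix.mulVec_mulVec v _ _).symm
      smul_zero := fun a => Matrix.mulVec_zero _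
      smul_add := fun a v w => Matrix.mulVec_add _ _ _
      add_smul := fun a b v => Matrix.add_mulVec _ _ _
      zero_smul := fun v => Matrix.zero_mulVec _ }
  have hsm : ∀ (c : K) (v : Fin m ⊕ Fin m → F), c • v = (c : Matrix _ _ F) *ᵥ v := fun _ _ => rfl
  have : IsScalarTower F K (Fin m ⊕ Fin m → F) := ⟨fun a c v => Matrix.smul_mulVec a _ _⟩
  have : Finite K := inferInstance
  have : FiniteDimensional K (Fin m ⊕ Fin m → F) := Module.Finite.of_finite
  have hr' : finrank F K = r := hK.finrank_eq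
  have hB := symp_B0 m F
  have halt' : ∀ (c : K) x, B0 m F (c • x) x = 0 := fun c x => halt c c.2 x
  obtain ⟨θ, BK, hθ, hBK, hBK'⟩ := exists_BK (K := K) hB (fun c x y => hsa c c.2 x y) halt'
  have hmul := Module.finrank_mul_finrank F K (Fin m ⊕ Fin m → F)
  rw [hr', finrank_V] at hmul
  have hd1 : 1 ≤ finrank K (Fin m ⊕ Fin m → F) := by
    by_contra h
    have : finrank K (Fin m ⊕ Fin m → F) = 0 := by omega
    rw [this] at hmul; omega
  have hd : 2 ≤ finrank K (Fin m ⊕ Fin m → F) := by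
    obtain ⟨x, -, hx⟩ := exists_ne_zero_of_finrank (K := (⊤ : Submodule K (Fin m ⊕ Fin m → F)))
      (by simpa using hd1)
    obtain ⟨y, hy⟩ := hBK.exists_ne hx
    by_contra h
    obtain ⟨c, hc⟩ := (finrank_eq_one_iff_of_nonzero' (K := K) x hx).1 (by omega) y
    rw [← hc] at hy
    simp [hBK.alt] at hy
  have hsemi : ∀ g : GL (Fin m ⊕ Fin m) F, Semi K (gl0 g) ↔ ∀ k ∈ K,
      (g : Matrix _ _ F) * k * ((g⁻¹ : GL _ F) : Matrix _ _ F) ∈ K := by
    intro g
    constructor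
    · intro h k hk
      obtain ⟨c', hc'⟩ := h ⟨k, hk⟩
      have : (g : Matrix _ _ F) * k = (c' : Matrix _ _ F) * (g : Matrix _ _ F) := by
        apply Matrix.toLin'.injective
        apply LinearMap.ext
        intro v
        simpa [gl0_apply, hsm] using hc' v
      rw [this, mul_assoc, Units.mul_inv, mul_one]
      exact c'.2
    · intro h c
      refine ⟨⟨_, h c c.2⟩, fun v => ?_⟩
      simp [gl0_apply, hsm, mul_assoc]
  have hP : ∀ g : GL (Fin m ⊕ Fin m) F, g ∈ Geo.subalgebraNormalizer K ↔ GamL K (gl0 g) := by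
    intro g
    rw [GamL, ← map_inv, hsemi, hsemi]
    constructor
    · intro h
      exact ⟨fun k hk => (h k).1 hk, fun k hk => (inv_mem h k).1 hk⟩
    · rintro ⟨h1, h2⟩ k
      refine ⟨h1 k, fun hk => ?_⟩
      simpa [mul_assoc] using h2 _ hk
  refine isMaximalIn_transport gl0 _ _ (Sp (B0 m F)) (GamL K) mem_spGL (fun g _ => hP g)
    (ext_proper' hB halt' (hr' ▸ hr.two_le) hd1)
    fun M hM h1 h2 => ext_core hB hM hθ hBK hBK' (hr' ▸ hr) hd ?_ h1 h2
  rcases hm with hm | hm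
  · right
    rw [hr']
    by_contra! h
    have := hr.two_le
    have h3 : r = 2 := by omega
    rw [h3] at hmul; omega
  · exact Or.inl (exists_ne_zero_one hm.2)

end Bridge

end Cfsg.Agent.H9.Sp
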