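import Cfsg.Agent.H9.Sp.Re2

/-! Semisimple isometries of odd prime order. -/

set_option autoImplicit false
set_option linter.unusedSimpArgs false
set_option linter.unusedSectionVars false
set_option linter.unusedVariables false

universe u

namespace Cfsg.Agent.H9.Sp

open Module Cfsg.Agent.H6 Cfsg.Agent.H6.El Polynomial
open Multiset hiding map_add map_zero le_iff_exists_add

attribute [-simp] LinearEquiv.coe_inv Submodule.mem_map_equiv

variable {F : Type u} [Field F] {V : Type u} [AddCommGroup V] [Module F V] [FiniteDimensional F V]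
variable {B : V →ₗ[F] V →ₗ[F] F} {f : End F V} {A : Submodule F V}

theorem ni_ker (hB : Symp B) (hA : NI B f A) {s P : F[X]} (hs : Squarefree s) (h0 : aeval f s = 0)
    (hP : P ∣ s) (h : ∀ v, aeval f P v = 0 → ∀ u, B v (aeval f P u) = 0) :
    NI B f (A ⊓ LinearMap.ker (aeval f P)) := by
  obtain ⟨Q, rfl⟩ := hP
  obtain ⟨a, b, hab⟩ := (IsRelPrime.of_squarefree_mul hs).isCoprime
  refine ⟨fun v hv hv0 => ?_, hA.iv.inf (iv_ker_aeval f P)⟩
  obtain ⟨w, hw, h1⟩ := hA.nd v hv.1 hv0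
  refine ⟨aeval f (b * Q) w, ⟨hA.iv.aeval _ w hw, ?_⟩, ?_⟩
  · change aeval f P _ = 0
    rw [← End.mul_apply, ← map_mul, mul_left_comm, map_mul, h0]; simp
  · have : w = aeval f P (aeval f a w) + aeval f (b * Q) w := by
      rw [← End.mul_apply, ← map_mul, ← LinearMap.add_apply, ← map_add, mul_comm P, hab]; simp
    rw [this, map_add, h v hv.2, zero_add] at h1
    exact h1

theorem aeval_fix (f : End F V) (c : F) (v : V) : aeval f (X - C c) v = f v - c • v := by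
  simp [Algebra.algebraMap_eq_smul_one]

theorem mem_fix {c : F} {v : V} : v ∈ LinearMap.ker (aeval f (X - C c)) ↔ f v = c • v := by
  rw [LinearMap.mem_ker, aeval_fix, sub_eq_zero]

theorem Ty.kd_irr {μ : Multiset F[X]} [DecidableEq F[X]] (h : Ty f μ) (hμ : ∀ g ∈ μ, Irreducible g)
    {π : F[X]} (h1 : π.Monic) (h2 : Irreducible π) :
    finrank F (LinearMap.ker (aeval f π)) = π.natDegree * count π μ := by
  classical
  rw [h.finrank_ker, map_congr rfl (g := fun g => if π = g then π.natDegree else 0) fun g hg => by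
    rw [finrank_ker_mr_irred (h.monic g hg) (hμ g hg)]
    by_cases e : π = g
    · simp [e]
    · rw [if_neg e, if_neg fun hd => e (eq_of_monic_of_associated h1 (h.monic g hg)
        ((hμ g hg).associated_of_dvd h2 hd).symm)]]
  clear h hμ
  induction μ using Multiset.induction_on with
  | empty => simp
  | cons a μ ih =>
    rw [map_cons, sum_cons, ih, count_cons]
    by_cases e : π = a <;> simp [e, mul_add, add_comm]

/-- dimension of the fixed space in `A` -/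
noncomputable abbrev fx (f : End F V) (A : Submodule F V) : ℕ := kd (aeval f (X - C (1 : F))) A

/-- the dimension of a minimal non-degenerate block -/
def cv (i : ℕ) : ℕ := if Even i then i else 2 * i

theorem cv_even (i : ℕ) : Even (cv i) := by unfold cv; split_ifs with h <;> simp [h]

theorem cv_dvd {i j : ℕ} (h : i ∣ 2 * j) : cv i ∣ 2 * j := by
  unfold cv; split_ifs with h1
  · exact h
  · exact Nat.mul_dvd_mul_left 2 ((Nat.coprime_two_right.2 (Nat.not_even_iff_odd.1 h1)).dvd_of_dvd_mul_left h)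

theorem cv_pos {i : ℕ} (h : 0 < i) : 2 ≤ cv i := by
  unfold cv; split_ifs with h1
  · exact Nat.le_of_dvd h h1.two_dvd
  · omega

variable [Fintype F] {r : ℕ} [hr : Fact r.Prime]

local notation "q" => Fintype.card F
local notation "ord" => orderOf ((Fintype.card F : ℕ) : ZMod r)

theorem cv_le (hr' : (r : F) ≠ 0) (h2 : r ≠ 2) : cv ord ≤ r - 1 := by
  obtain ⟨k, hk⟩ := hr.out.odd_of_ne_two h2
  have := hr.out.two_le
  exact Nat.le_of_dvd (by omega) (by
    rw [show r - 1 = 2 * k by omega]; exact cv_dvd (by simpa [hk] using ord_dvd hr'))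

theorem cv_dvd_of {j : ℕ} (h : r ∣ q ^ (2 * j) - 1) : cv ord ∣ 2 * j :=
  cv_dvd ((dvd_pow_sub_one_iff _ _ Fintype.card_pos).1 h)

/-- isometries of odd prime order prime to the characteristic -/
structure SS (r : ℕ) (B : V →ₗ[F] V →ₗ[F] F) (f : End F V) : Prop where
  hB : Symp B
  is : Is B f
  pow : f ^ r = 1
  ne : (r : F) ≠ 0
  two : r ≠ 2

theorem SS.sqf (h : SS r B f) : Squarefree (X ^ r - C (1 : F)) :=
  (separable_X_pow_sub_C 1 h.ne one_ne_zero).squarefree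

theorem SS.aeval (h : SS r B f) : aeval f (X ^ r - C (1 : F)) = 0 := by
  rw [aeval_X_pow_sub_C, h.pow]; simp

theorem SS.ss (h : SS r B f) : f.IsSemisimple := ss_of_pow h.ne one_ne_zero (by simp [h.pow])

theorem SS.pi (h : SS r B f) : PI B f := h.is.pi h.hB

theorem SS.ni_fix (h : SS r B f) (hA : NI B f A) :
    NI B f (A ⊓ LinearMap.ker (Polynomial.aeval f (X - C (1 : F)))) :=
  ni_ker h.hB hA h.sqf h.aeval (by simpa using sub_dvd_pow_sub_pow (X : F[X]) 1 r) fun v hv u => by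
    have : f v = v := by simpa using mem_fix.1 hv
    rw [aeval_fix, map_sub, ← this, h.is, this]; simp

theorem cyc_dvd : cyclotomic r F ∣ X ^ r - C 1 := by simpa using cyclotomic.dvd_X_pow_sub_one r F

theorem SS.eq_zero (h : SS r B f) {π : F[X]} (h2 : Irreducible π) (h3 : π ∣ cyclotomic r F) {v : V}
    (hv : Polynomial.aeval f π v = 0) (h4 : f v = v) : v = 0 := by
  obtain ⟨a, b, hab⟩ := h2.coprime_iff_not_dvd.2 (not_dvd_of_dvd_cyc h.ne h2 h3)
  have := congrArg (fun P => Polynomial.aeval f P v) hab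
  simpa [hv, h4] using this.symm

theorem SS.sq (h : SS r B f) {v : V} (hv : f (f v) = v) : f v = v := by
  obtain ⟨k, hk⟩ := hr.out.odd_of_ne_two h.two
  have : ∀ n, ((f ^ 2) ^ n) v = v := fun n => by
    induction n with
    | zero => rfl
    | succ n ih => rw [pow_succ, End.mul_apply, show (f ^ 2) v = v by rw [pow_two]; exact hv, ih]
  have h1 := congrArg (fun g => g v) h.pow
  simp only [hk] at h1
  rw [pow_succ', End.mul_apply, pow_mul, this] at h1
  exact h1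

theorem SS.adj (h : SS r B f) (u v : V) : B (f u) v = B u ((f ^ (r - 1)) v) := by
  rw [← h.is u, ← End.mul_apply, ← pow_succ', Nat.sub_add_cancel hr.out.one_le, h.pow]; rfl

theorem aeval_pow_card (f : End F V) (P : F[X]) (j : ℕ) :
    aeval (f ^ q ^ j) P = aeval f P ^ q ^ j := by
  induction j with
  | zero => simp
  | succ j ih =>
    rw [pow_succ, pow_mul, pow_mul, ← expand_aeval, FiniteField.expand_card, map_pow, ih]

theorem pow_half (hr' : (r : F) ≠ 0) {k : ℕ} (hk : ord = 2 * k) : ((q : ZMod r)) ^ k = -1 := by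
  have h0 := ord_pos hr'
  have h1 : (q : ZMod r) ^ k * q ^ k = 1 := by rw [← pow_add, ← two_mul, ← hk, pow_orderOf_eq_one]
  exact (mul_self_eq_one_iff.1 h1).resolve_left (pow_ne_one_of_lt_orderOf (by omega) (by omega))

theorem SS.inv_eq (h : SS r B f) {k : ℕ} (hk : ord = 2 * k) : f ^ (r - 1) = f ^ q ^ k := by
  rw [pow_eq_pow_mod _ h.pow, pow_eq_pow_mod (q ^ k) h.pow]
  congr 1
  rw [← ZMod.natCast_eq_natCast_iff', Nat.cast_pow, pow_half h.ne hk, Nat.cast_sub hr.out.one_le]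
  simp

theorem SS.ni_irr (h : SS r B f) (he : Even ord) (hA : NI B f A) {π : F[X]}
    (h3 : π ∣ cyclotomic r F) : NI B f (A ⊓ LinearMap.ker (Polynomial.aeval f π)) := by
  obtain ⟨k, hk⟩ := he
  refine ni_ker h.hB hA h.sqf h.aeval (h3.trans cyc_dvd) fun v hv u => ?_
  obtain ⟨n, hn⟩ := Nat.exists_eq_succ_of_ne_zero (pow_ne_zero k Fintype.card_ne_zero : q ^ k ≠ 0)
  rw [h.hB.comm, adj_aeval h.adj, h.inv_eq (hk.trans (two_mul k).symm), aeval_pow_card, hn,
    pow_succ, End.mul_apply, hv]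
  simp

theorem SS.exists_irr (h : SS r B f) {K : Submodule F V} (hK : Iv f K) {π : F[X]} (h1 : π.Monic)
    (h2 : Irreducible π) (h3 : π ∣ cyclotomic r F) (h4 : ∀ v ∈ K, Polynomial.aeval f π v = 0)
    (h5 : ¬ Ti B K) : ∃ W ≤ K, NI B f W ∧ finrank F W = ord := by
  obtain ⟨v, hv, h6⟩ : ∃ v ∈ K, B (f v) v ≠ 0 := by
    by_contra! h6
    exact h5 (ti_of_alt h.hB h.is hK (fun v hv h7 => h.eq_zero h2 h3 (h4 v hv) (h.sq h7)) h6)
  exact ⟨_, cy_le hK hv, ni_cy_irr h.hB h.is h1 h2 (h4 v hv) h6, by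
    rw [finrank_cy_irr h1 h2 (by rintro rfl; simp at h6) (h4 v hv), natDegree_eq_ord h.ne h2 h3]⟩

theorem SS.ti_odd (h : SS r B f) (ho : ¬ Even ord) {π : F[X]} (h1 : π.Monic) (h2 : Irreducible π)
    (h3 : π ∣ cyclotomic r F) : Ti B (LinearMap.ker (Polynomial.aeval f π)) := by
  by_contra h5
  obtain ⟨W, -, h6, h7⟩ := h.exists_irr (iv_ker_aeval f π) h1 h2 h3 (fun _ h => h) h5
  exact ho (h7 ▸ h6.nd.even h.hB)

theorem NdOn.not_ti {K : Submodule F V} (hK : NdOn B K) (h0 : K ≠ ⊥) : ¬ Ti B K := fun h => by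
  obtain ⟨x, hx, hx0⟩ := Submodule.exists_mem_ne_zero_of_ne_bot h0
  exact hx0 (hK.eq_zero hx (h x hx))

theorem ne_bot_of_kd {g : End F V} (h : kd g A ≠ 0) : A ⊓ LinearMap.ker g ≠ ⊥ :=
  fun e => h (by rw [kd, e, finrank_bot])

theorem exists_ti_irr (hB : Symp B) (hf : Is B f) (hA : Iv f A) {π : F[X]} (h1 : π.Monic)
    (h2 : Irreducible π) (h4 : 2 * π.natDegree ≤ kd (aeval f π) A) :
    ∃ U ≤ A ⊓ LinearMap.ker (aeval f π), Ti B U ∧ Iv f U ∧ finrank F U = π.natDegree := by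
  have := h2.natDegree_pos
  obtain ⟨v, hv, h0, h5⟩ := exists_common_zero (A := A ⊓ LinearMap.ker (aeval f π))
    (fun j : Fin (π.natDegree - 1) => B ∘ₗ (f ^ ((j : ℕ) + 1))) (by
      rw [kd] at h4; simp; omega)
  exact ⟨_, cy_le (hA.inf (iv_ker_aeval f π)) hv, ti_cy hB hf fun j hj hj' => by
    simpa [Nat.sub_add_cancel hj] using h5 ⟨j - 1, by omega⟩, iv_cy h1 hv.2,
    finrank_cy_irr h1 h2 h0 hv.2⟩

theorem SS.exists_ti (h : SS r B f) (hA : Iv f A) {π : F[X]} (h1 : π.Monic) (h2 : Irreducible π)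
    (h3 : π ∣ cyclotomic r F) (h4 : (¬ Even ord ∧ kd (Polynomial.aeval f π) A ≠ 0) ∨
      2 * ord ≤ kd (Polynomial.aeval f π) A) :
    ∃ U ≤ A ⊓ LinearMap.ker (Polynomial.aeval f π), Ti B U ∧ Iv f U ∧ finrank F U = ord := by
  have hd := natDegree_eq_ord h.ne h2 h3
  rcases h4 with ⟨h4, h5⟩ | h4
  · obtain ⟨v, hv, h0⟩ := Submodule.exists_mem_ne_zero_of_ne_bot (ne_bot_of_kd h5)
    have h6 := cy_le (k := π.natDegree) (hA.inf (iv_ker_aeval f π)) hv
    exact ⟨_, h6, fun a ha b hb => h.ti_odd h4 h1 h2 h3 a (h6 ha).2 b (h6 hb).2, iv_cy h1 hv.2,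
      hd ▸ finrank_cy_irr h1 h2 h0 hv.2⟩
  · exact hd ▸ exists_ti_irr h.hB h.is hA h1 h2 (hd ▸ h4)

theorem Spl.kd_irr [DecidableEq F[X]] {e : ℕ} {ν : Multiset F[X]} (h : Spl r f e ν)
    (hr' : (r : F) ≠ 0) {π : F[X]} (h1 : π.Monic) (h2 : Irreducible π) (h3 : π ∣ cyclotomic r F) :
    finrank F (LinearMap.ker (aeval f π)) = ord * count π ν := by
  rw [Ty.kd_irr h.ty h.irr' h1 h2, count_add, count_replicate, if_neg (fun e : X - C 1 = π =>
    not_dvd_of_dvd_cyc hr' h2 h3 (e ▸ dvd_rfl)), zero_add, natDegree_eq_ord hr' h2 h3]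

theorem Spl.fx_restrict (hA : Iv f A) {e : ℕ} {ν : Multiset F[X]}
    (h : Spl r (f.restrict hA) e ν) (hr' : (r : F) ≠ 0) : fx f A = e := by
  rw [fx, ← kd_restrict hA, ← h.finrank_ker hr', aeval_X_sub_C, one_smul]

theorem SS.exists_spl (h : SS r B f) (hA : Iv f A) : ∃ e ν, Spl r (f.restrict hA) e ν :=
  El.exists_spl (f := f.restrict hA) h.ne (by rw [End.pow_restrict]; ext; simp [h.pow])

theorem SS.exists_type [DecidableEq F[X]] (h : SS r B f) (hA : Iv f A) : ∃ ν : Multiset F[X],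
    (∀ g ∈ ν, g.Monic ∧ Irreducible g ∧ g ∣ cyclotomic r F) ∧
    finrank F A = fx f A + ord * card ν ∧ ∀ π : F[X], π.Monic → Irreducible π →
      π ∣ cyclotomic r F → kd (Polynomial.aeval f π) A = ord * count π ν := by
  obtain ⟨e, ν, h1⟩ := h.exists_spl hA
  refine ⟨ν, fun g hg => ⟨h1.ty.monic g (mem_add.2 (Or.inr hg)), h1.irr g hg, h1.dvd g hg⟩, ?_,
    fun π a b c => by rw [← kd_restrict hA, Spl.kd_irr h1 h.ne a b c]⟩
  rw [h1.finrank h.ne, Spl.fx_restrict hA h1 h.ne]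

theorem card_le_of_nodup (hr' : (r : F) ≠ 0) {ν : Multiset F[X]} (hν : ν.Nodup)
    (h : ∀ g ∈ ν, g.Monic ∧ Irreducible g ∧ g ∣ cyclotomic r F) : ord * card ν ≤ r - 1 := by
  classical
  have h1 : ν.prod ∣ cyclotomic r F := by
    have := Finset.prod_dvd_of_isRelPrime (t := ⟨ν, hν⟩) (s := id) (z := cyclotomic r F) (by
      intro a ha b hb hab
      exact (h a ha).2.1.isRelPrime_iff_not_dvd.2 fun hd => hab (eq_of_monic_of_associated
        (h a ha).1 (h b hb).1 ((h a ha).2.1.associated_of_dvd (h b hb).2.1 hd)))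
      fun a ha => (h a ha).2.2
    simpa [Finset.prod] using this
  have h2 := natDegree_le_of_dvd h1 (cyclotomic_ne_zero r F)
  rwa [natDegree_multiset_prod_of_monic _ fun g hg => (h g hg).1, natDegree_cyclotomic,
    Nat.totient_prime hr.out, sum_natDegree_of fun g hg =>
      natDegree_eq_ord hr' (h g hg).2.1 (h g hg).2.2] at h2

theorem exists_nodup (hr' : (r : F) ≠ 0) : ∃ D : Multiset F[X], D.Nodup ∧
    (∀ g ∈ D, g.Monic ∧ Irreducible g ∧ g ∣ cyclotomic r F) ∧ card D = (r - 1) / ord := by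
  classical
  have h0 := cyclotomic_ne_zero r F
  have h1 : ∀ g ∈ UniqueFactorizationMonoid.normalizedFactors (cyclotomic r F),
      g.Monic ∧ Irreducible g ∧ g ∣ cyclotomic r F := fun g hg => by
    have := (Polynomial.mem_normalizedFactors_iff h0).1 hg
    exact ⟨this.2.1, this.1, this.2.2⟩
  refine ⟨_, (UniqueFactorizationMonoid.squarefree_iff_nodup_normalizedFactors h0).1
    ((separable_X_pow_sub_C 1 hr' one_ne_zero).squarefree.squarefree_of_dvd cyc_dvd), h1, ?_⟩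
  have h2 := natDegree_eq_of_degree_eq (degree_eq_degree_of_associated
    (UniqueFactorizationMonoid.prod_normalizedFactors h0))
  rw [natDegree_multiset_prod_of_monic _ fun g hg => (h1 g hg).1, natDegree_cyclotomic,
    Nat.totient_prime hr.out, sum_natDegree_of fun g hg =>
      natDegree_eq_ord hr' (h1 g hg).2.1 (h1 g hg).2.2] at h2
  rw [← h2, Nat.mul_div_cancel_left _ (ord_pos hr')]

theorem eq_zero_of_fx (h : fx f A = 0) {w : V} (hw : w ∈ A) (h1 : f w = w) : w = 0 := by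
  have : w ∈ A ⊓ LinearMap.ker (aeval f (X - C (1 : F))) := ⟨hw, mem_fix.2 (by simp [h1])⟩
  rwa [Submodule.finrank_eq_zero.1 h] at this

theorem fx_eq_zero (h : ∀ w ∈ A, f w = w → w = 0) : fx f A = 0 :=
  kd_of_inj fun w hw h1 => h w hw (by simpa using mem_fix.1 h1)

theorem SS.split (h : SS r B f) (hA : NI B f A) : ∃ A₀ A₁, NI B f A₀ ∧ NI B f A₁ ∧
    A₁ ≤ perp B A₀ ∧ A = A₀ ⊔ A₁ ∧ (∀ w ∈ A₀, f w = w) ∧ fx f A₁ = 0 ∧
    finrank F A₀ = fx f A ∧ finrank F A = fx f A + finrank F A₁ :=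
  ⟨_, _, h.ni_fix hA, (h.ni_fix hA).compl h.hB h.pi hA inf_le_left, inf_le_right,
    ((h.ni_fix hA).nd.sup_inf_perp h.hB inf_le_left).symm,
    fun w hw => by simpa using mem_fix.1 hw.2, fx_eq_zero fun w hw h1 =>
      Submodule.disjoint_def.1 ((h.ni_fix hA).nd.disjoint h.hB) w ⟨hw.1, mem_fix.2 (by simp [h1])⟩
        hw.2, rfl, (h.ni_fix hA).nd.finrank_compl h.hB inf_le_left⟩

theorem SS.block (h : SS r B f) (hA : NI B f A) (h0 : fx f A = 0) {π : F[X]} (h1 : π.Monic)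
    (h2 : Irreducible π) (h3 : π ∣ cyclotomic r F) (h4 : kd (Polynomial.aeval f π) A ≠ 0) :
    ∃ W ≤ A, NI B f W ∧ finrank F W = cv ord ∧ ord ≤ kd (Polynomial.aeval f π) W := by
  by_cases he : Even ord
  · obtain ⟨W, k1, k2, k3⟩ := h.exists_irr (h.ni_irr he hA h3).iv h1 h2 h3 (fun _ h => h.2)
      ((h.ni_irr he hA h3).nd.not_ti (ne_bot_of_kd h4))
    exact ⟨W, k1.trans inf_le_left, k2, by rw [cv, if_pos he, k3],
      by rw [kd_of_le fun w hw => (k1 hw).2, k3]⟩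
  · obtain ⟨U, k1, k2, k3, k4⟩ := h.exists_ti hA.iv h1 h2 h3 (Or.inl ⟨he, h4⟩)
    obtain ⟨W, a1, a2, a3, a4⟩ := exists_hypb h.hB h.pi h.ss hA (k1.trans inf_le_left) k2 k3
    exact ⟨W, a1, a3, by rw [cv, if_neg he, a4, k4],
      k4 ▸ Submodule.finrank_mono (le_inf a2 (k1.trans inf_le_right))⟩

/-- fixed planes and blocks -/
def PcS (i : ℕ) (f : End F V) (b : Bool) (W : Submodule F V) : Prop :=
  if b then finrank F W = cv i ∧ fx f W = 0 else finrank F W = 2 ∧ ∀ w ∈ W, f w = w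

theorem eq_replicate_bool (l : Multiset Bool) :
    l = replicate (count false l) false + replicate (count true l) true := by
  ext b; cases b <;> simp [count_replicate]

theorem SS.dec (h : SS r B f) (hA : NI B f A) : ∃ e s,
    OS B f (PcS ord f) (replicate e false + replicate s true) A ∧
      finrank F A = 2 * e + cv ord * s ∧ fx f A = 2 * e := by
  classical
  obtain ⟨l, hl⟩ := OS.exists (Pc := PcS ord f) h.hB h.pi hA fun A' _ h1 h2 => by
    by_cases h3 : fx f A' = 0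
    · obtain ⟨ν, k1, k2, k3⟩ := h.exists_type h1.iv
      obtain ⟨π, hπ⟩ := exists_mem_of_ne_zero (s := ν) (by
        rintro rfl; exact h2 (Submodule.finrank_eq_zero.1 (by simpa [h3] using k2)))
      obtain ⟨a, b, c⟩ := k1 π hπ
      obtain ⟨W, k4, k5, k6, -⟩ := h.block h1 h3 a b c (by
        rw [k3 π a b c]; exact mul_ne_zero (ord_pos h.ne).ne' (count_ne_zero.2 hπ))
      refine ⟨true, W, k4, ?_, k5, k6, Nat.eq_zero_of_le_zero (h3 ▸ kd_mono _ k4)⟩
      rintro rfl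
      have := cv_pos (ord_pos h.ne)
      simp at k6; omega
    · obtain ⟨W, k1, k2, k3, k4⟩ := (h.ni_fix h1).nd.exists_plane h.hB (ne_bot_of_kd h3)
      have k5 : ∀ w ∈ W, f w = w := fun w hw => by simpa using mem_fix.1 (k1 hw).2
      exact ⟨false, W, k1.trans inf_le_left, k2, ⟨k3, fun w hw => (k5 w hw).symm ▸ hw⟩, k4, k5⟩
  rw [eq_replicate_bool l] at hl
  refine ⟨_, _, hl, ?_, ?_⟩
  · rw [hl.finrank h.hB (fun b => if b then cv ord else 2) fun b _ W _ h => by
      cases b <;> exact h.1]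
    simp [mul_comm]
  · rw [fx, hl.kd h.hB _ (fun b => if b then 0 else 2) fun b _ W _ h => by
      cases b
      · exact (kd_of_le fun w hw => mem_fix.2 (by simp [h.2 w hw])).trans h.1
      · exact h.2]
    simp [mul_comm]

theorem OS.finrank_bool {Pc : Bool → Submodule F V → Prop} (hB : Symp B) {e s c : ℕ}
    (h : OS B f Pc (replicate e false + replicate s true) A)
    (h1 : ∀ W, Pc false W → Module.finrank F W = 2) (h2 : ∀ W, Pc true W → Module.finrank F W = c) :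
    Module.finrank F A = 2 * e + c * s := by
  rw [h.finrank hB (fun b => if b then c else 2) fun b _ W _ h => by
    cases b
    · exact h1 W h
    · exact h2 W h]
  simp [mul_comm]

theorem OS.sub_bool {Pc : Bool → Submodule F V → Prop} (hB : Symp B) {e s e' s' c : ℕ}
    (h : OS B f Pc (replicate e false + replicate s true) A)
    (h1 : ∀ W, Pc false W → Module.finrank F W = 2) (h2 : ∀ W, Pc true W → Module.finrank F W = c)
    (he : e' ≤ e) (hs : s' ≤ s) : ∃ W, NI B f W ∧ Module.finrank F W = 2 * e' + c * s' := by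
  obtain ⟨W, -, h3⟩ := h.sub hB (add_le_add ((replicate_le_replicate _).2 he)
    ((replicate_le_replicate _).2 hs))
  exact ⟨W, h3.ni hB, h3.finrank_bool hB h1 h2⟩

theorem SS.ti_free (h : SS r B f) (a : ℕ) (hA : NI B f A) (h0 : fx f A = 0)
    (ha : (¬ Even ord ∧ 2 * (ord * a) ≤ finrank F A) ∨ a = 0 ∨
      2 * (ord * a) + (r - 1) ≤ finrank F A + ord) : TI B f (ord * a) A := by
  classical
  induction a generalizing A with
  | zero => exact TI.zero
  | succ a ih =>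
    have hi := ord_pos h.ne
    obtain ⟨ν, k1, k2, k3⟩ := h.exists_type hA.iv
    obtain ⟨π, hπ, h1⟩ : ∃ π ∈ ν, ¬ Even ord ∨ 2 ≤ count π ν := by
      rcases ha with ha | ha | ha
      · obtain ⟨π, hπ⟩ := exists_mem_of_ne_zero (s := ν) (by
          rintro rfl; rw [mul_add] at ha; simp at k2; omega)
        exact ⟨π, hπ, Or.inl ha.1⟩
      · omega
      · by_contra! h1
        have := card_le_of_nodup h.ne (nodup_iff_count_le_one.2 fun π => by
          by_cases hπ : π ∈ ν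
          · have := (h1 π hπ).2; omega
          · simp [count_eq_zero_of_notMem hπ]) k1
        rw [mul_add] at ha; omega
    obtain ⟨a1, a2, a3⟩ := k1 π hπ
    obtain ⟨U, b1, b2, b3, b4⟩ := h.exists_ti hA.iv a1 a2 a3 (by
      rw [k3 π a1 a2 a3]
      exact h1.imp (fun h1 => ⟨h1, mul_ne_zero hi.ne' (count_ne_zero.2 hπ)⟩) fun h1 => by
        nlinarith)
    obtain ⟨W, c1, c2, c3, c4⟩ := exists_hypb h.hB h.pi h.ss hA (b1.trans inf_le_left) b2 b3
    have d1 := c3.nd.finrank_compl h.hB c1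
    have := TI.add h.hB c3.nd inf_le_right ⟨U, c2, b2, b3, b4⟩ (ih (c3.compl h.hB h.pi hA c1)
      (Nat.eq_zero_of_le_zero (h0 ▸ kd_mono _ inf_le_left)) (by
        rw [mul_add] at ha
        rcases ha with ha | ha | ha
        · exact Or.inl ⟨ha.1, by omega⟩
        · omega
        · omega))
    rwa [c3.nd.sup_inf_perp h.hB c1, add_comm] at this

theorem SS.ti (h : SS r B f) (a b : ℕ) (hA : NI B f A) (hb : 2 * b ≤ fx f A)
    (ha : (¬ Even ord ∧ 2 * (ord * a) + fx f A ≤ finrank F A) ∨ a = 0 ∨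
      2 * (ord * a) + (r - 1) + fx f A ≤ finrank F A + ord) : TI B f (b + ord * a) A := by
  obtain ⟨A₀, A₁, h1, h2, h3, h4, h5, h6, h7, h8⟩ := h.split hA
  exact h4 ▸ TI.add h.hB h1.nd h3 (h1.nd.ti h.hB (c := 1) (by simpa using h5) (by omega))
    (h.ti_free a h2 h6 (ha.imp (fun h => ⟨h.1, by omega⟩) fun h => h.imp id fun h => by omega))

theorem kd_le_of_ti (hB : Symp B) {g : End F V} (h : NdOn B (⊤ ⊓ LinearMap.ker g))
    {U : Submodule F V} (hU : Ti B U) : 2 * kd g U ≤ kd g ⊤ :=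
  h.two_mul_le hB (inf_le_inf_right _ le_top) fun u hu v hv => hU u hu.1 v hv.1

/-! models -/

theorem pow_mr {π : F[X]} (h3 : π ∣ cyclotomic r F) : mr π ^ r = 1 := by
  have := aeval_X_pow_sub_C (mr π) r 1
  rw [one_smul] at this
  rw [← sub_eq_zero, ← this]
  apply LinearMap.ext
  intro a
  rw [aeval_mr, AdjoinRoot.mk_eq_zero.2 (h3.trans cyc_dvd)]; simp

theorem sm_block [DecidableEq F[X]] (hr' : (r : F) ≠ 0) (hr2 : r ≠ 2) {π : F[X]} (h1 : π.Monic)
    (h2 : Irreducible π) (h3 : π ∣ cyclotomic r F) : ∃ ν, SM ν ∧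
      (∀ g ∈ ν, Irreducible g ∧ g ∣ cyclotomic r F) ∧ ord * card ν = cv ord ∧ π ∈ ν := by
  have := h1.finite_adjoinRoot
  have hg : mr π ^ (r - 1) * mr π = 1 := by
    rw [← pow_succ, Nat.sub_add_cancel hr.out.one_le, pow_mr h3]
  have h : SS r (hypF F (AdjoinRoot π)) ((mr π).prodMap (mr π ^ (r - 1)).dualMap) := by
    refine ⟨symp_hypF _ _, is_hyp hg, ?_, hr', hr2⟩
    have k := aeval_prodMap (mr π) (mr π ^ (r - 1)).dualMap (X ^ r)
    rw [aeval_dualMap] at k
    simp only [map_pow, aeval_X] at k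
    rw [k, ← pow_mul, mul_comm, pow_mul, pow_mr h3, one_pow]; rfl
  obtain ⟨A₀, A₁, k1, k2, k3, k4, k5, k6, -⟩ := h.split (ni_top h.hB)
  have hπ : ∀ a : AdjoinRoot π, aeval ((mr π).prodMap (mr π ^ (r - 1)).dualMap) π (a, 0) = 0 := by
    intro a; rw [aeval_prodMap]; simp [aeval_mr]
  obtain ⟨W, a1, a2, a3, a4⟩ := h.block k2 k6 h1 h2 h3 (by
    have k7 := kd_sup (k1.nd.disj h.hB k3) (k1.iv.aeval π) (k2.iv.aeval π)
    rw [← k4, kd_of_inj fun w hw h4 => h.eq_zero h2 h3 h4 (k5 w hw), zero_add] at k7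
    rw [← k7]
    intro h0
    have : ((1 : AdjoinRoot π), (0 : Dual F (AdjoinRoot π))) ∈ (⊥ : Submodule F _) :=
      Submodule.finrank_eq_zero.1 h0 ▸ ⟨trivial, hπ 1⟩
    have := AdjoinRoot.nontrivial π (degree_pos_of_irreducible h2).ne'
    simp_all)
  obtain ⟨e, ν, b1⟩ := h.exists_spl a2.iv
  obtain rfl : e = 0 := Nat.eq_zero_of_le_zero ((Spl.fx_restrict a2.iv b1 hr').ge.trans
    ((kd_mono _ a1).trans k6.le))
  refine ⟨ν, sm_restrict h.hB h.is a2 (by simpa using b1.ty), fun g hg => ⟨b1.irr g hg, b1.dvd g hg⟩,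
    by simpa [a3] using (b1.finrank hr').symm, ?_⟩
  rw [← kd_restrict a2.iv, Spl.kd_irr b1 hr' h1 h2 h3] at a4
  have := ord_pos hr'
  exact count_pos.1 (Nat.pos_of_ne_zero fun h0 => by rw [h0] at a4; omega)

theorem sm_irr (hr' : (r : F) ≠ 0) (hr2 : r ≠ 2) (he : Even ord) {π : F[X]} (h1 : π.Monic)
    (h2 : Irreducible π) (h3 : π ∣ cyclotomic r F) : SM {π} := by
  classical
  obtain ⟨ν, k1, -, k2, k3⟩ := sm_block hr' hr2 h1 h2 h3
  rw [cv, if_pos he, Nat.mul_eq_left (ord_pos hr').ne', card_eq_one] at k2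
  obtain ⟨a, rfl⟩ := k2
  exact mem_singleton.1 k3 ▸ k1

theorem exists_spl_sp (hB : Symp B) (hr' : (r : F) ≠ 0) (hr2 : r ≠ 2) {ν : Multiset F[X]}
    (h : SM ν) (hν : ∀ g ∈ ν, Irreducible g ∧ g ∣ cyclotomic r F) {e : ℕ}
    (hn : finrank F V = 2 * e + ord * card ν) : ∃ f, SS r B f ∧ Spl r f (2 * e) ν := by
  obtain ⟨f, h1, h2⟩ := ((sm_one e).add h).transport hB (by
    rw [sum_natDegree hr' (fun g hg => (hν g hg).1) fun g hg => (hν g hg).2, hn])
  have h3 : Spl r f (2 * e) ν := ⟨h2, fun g hg => (hν g hg).1, fun g hg => (hν g hg).2⟩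
  exact ⟨f, ⟨hB, h1, h3.pow, hr', hr2⟩, h3⟩

theorem Spl.fx_top {e : ℕ} {ν : Multiset F[X]} (h : Spl r f e ν) (hr' : (r : F) ≠ 0) :
    fx f ⊤ = e := by
  rw [fx, kd_top, aeval_X_sub_C, one_smul, h.finrank_ker hr']

theorem exists_ss (hB : Symp B) (hr' : (r : F) ≠ 0) (hr2 : r ≠ 2) {e s : ℕ}
    (hn : finrank F V = e + cv ord * s) : ∃ f, SS r B f ∧ fx f ⊤ = e := by
  classical
  obtain ⟨π, h1, h2, h3⟩ := exists_cyc_factor (F := F) (r := r)
  obtain ⟨ν, k1, k2, k3, -⟩ := sm_block hr' hr2 h1 h2 h3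
  obtain ⟨n, hn'⟩ := (ni_top (f := 1) hB).nd.even hB
  obtain ⟨c, hc⟩ := cv_even ord
  rw [finrank_top] at hn'
  obtain ⟨e, rfl⟩ : ∃ e', e = 2 * e' := ⟨n - c * s, by rw [hc, add_mul] at hn; omega⟩
  obtain ⟨f, a1, a2⟩ := exists_spl_sp hB hr' hr2 (k1.nsmul s) (fun g hg => k2 g (mem_of_mem_nsmul hg))
    (e := e) (by rw [hn, ← k3, card_nsmul]; ring)
  exact ⟨f, a1, Spl.fx_top a2 hr'⟩

theorem SS.po (h : SS r B f) (h1 : fx f ⊤ < finrank F V) : PO r B f :=
  po_of_odd h.hB h.is (hr.out.odd_of_ne_two h.two) h.pow (by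
    rintro rfl
    rw [fx, kd_of_le fun w _ => mem_fix.2 (by simp), finrank_top] at h1
    omega)

theorem PO.ss (hB : Symp B) (h : PO r B f) (hr' : (r : F) ≠ 0) (hr2 : r ≠ 2) :
    ∃ y, SS r B y ∧ y ≠ 1 ∧ (f = y ∨ f = -y) := by
  obtain ⟨y, h1, h2, h3⟩ := h.odd hB (hr.out.odd_of_ne_two hr2)
  exact ⟨y, ⟨hB, h1, h2, hr', hr2⟩, h3⟩

end Cfsg.Agent.H9.Sp
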