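import Cfsg.Agent.H9.Sp.Re3

/-! Involutions in odd characteristic; fixed totally isotropic and non-degenerate subspaces. -/

set_option autoImplicit false
set_option linter.unusedSimpArgs false
set_option linter.unusedSectionVars false
set_option linter.unusedVariables false

universe u

namespace Cfsg.Agent.H9.Sp

open Module Cfsg.Agent.H6 Cfsg.Agent.H6.El Polynomial
open Multiset hiding map_add map_zero le_iff_exists_add

attribute [-simp] LinearEquiv.coe_inv Submodule.mem_map_equiv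

variable {F : Type u} [Field F] {V : Type u} [AddCommGroup V] [Module F V] [FiniteDimensional F V]
variable {B : V →ₗ[F] V →ₗ[F] F} {f : End F V} {A : Submodule F V}

theorem eq_replicate_unit (l : Multiset Unit) : l = replicate (card l) () :=
  eq_replicate_card.2 fun _ _ => rfl

theorem ni_pm (hB : Symp B) (hf : Is B f) (h2 : (2 : F) ≠ 0) (h : ∀ v, f (f v) = v) (hA : NI B f A)
    {c : F} (hc : c * c = 1) : NI B f (A ⊓ LinearMap.ker (aeval f (X - C c))) :=
  ni_ker hB hA (s := X ^ 2 - C 1) (separable_X_pow_sub_C 1 (by exact_mod_cast h2) one_ne_zero).squarefree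
    (by rw [aeval_X_pow_sub_C]; ext v; simp [pow_two, h])
    ⟨X + C c, by rw [← hc, C_mul]; ring⟩ fun v hv u => by
      rw [aeval_fix, map_sub, ← hf v, h, mem_fix.1 hv]; simp

theorem exists_eig_sq {c : F} (h : ∀ v ∈ A, f (f v) = (c * c) • v) (hA : Iv f A) (h0 : A ≠ ⊥) :
    ∃ v ∈ A, v ≠ 0 ∧ (f v = c • v ∨ f v = (-c) • v) := by
  obtain ⟨v, hv, hv0⟩ := Submodule.exists_mem_ne_zero_of_ne_bot h0
  by_cases h1 : f v = c • v
  · exact ⟨v, hv, hv0, Or.inl h1⟩
  · exact ⟨f v - c • v, sub_mem (hA v hv) (A.smul_mem c hv), sub_ne_zero.2 h1, Or.inr (by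
      rw [map_sub, h v hv, map_smul]; module)⟩

theorem iv_pair {x y : V} (hx : f x ∈ Submodule.span F {x, y}) (hy : f y ∈ Submodule.span F {x, y}) :
    Iv f (Submodule.span F {x, y}) := by
  intro w hw
  obtain ⟨a, b, rfl⟩ := Submodule.mem_span_pair.1 hw
  rw [map_add, map_smul, map_smul]
  exact add_mem (Submodule.smul_mem _ _ hx) (Submodule.smul_mem _ _ hy)

theorem left_mem_pair (x y : V) : x ∈ Submodule.span F {x, y} := Submodule.subset_span (by simp)

theorem right_mem_pair (x y : V) : y ∈ Submodule.span F {x, y} := Submodule.subset_span (by simp)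

theorem pair_le {x y : V} (hx : x ∈ A) (hy : y ∈ A) : Submodule.span F {x, y} ≤ A :=
  Submodule.span_le.2 (by rintro _ (rfl | rfl) <;> assumption)

theorem OS.planes {Pc : Unit → Submodule F V → Prop} {l : Multiset Unit} (hB : Symp B)
    (h : OS B f Pc l A) {k : ℕ} (hP : ∀ W, Pc () W → Module.finrank F W = k) :
    OS B f Pc (replicate (card l) ()) A ∧ Module.finrank F A = k * card l :=
  ⟨eq_replicate_unit l ▸ h, by
    rw [h.finrank hB (fun _ => k) fun _ _ W _ h => hP W h]; simp [mul_comm]⟩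

theorem os_pos (hB : Symp B) (hf : Is B f) (h2 : (2 : F) ≠ 0) (h : ∀ v, f (f v) = v)
    (hA : NI B f A) : ∃ n, OS B f (fun (_ : Unit) W => finrank F W = 2 ∧
      ∃ c : F, c * c = 1 ∧ ∀ w ∈ W, f w = c • w) (replicate n ()) A ∧ finrank F A = 2 * n := by
  obtain ⟨l, hl⟩ := OS.exists (Pc := fun (_ : Unit) W => finrank F W = 2 ∧
      ∃ c : F, c * c = 1 ∧ ∀ w ∈ W, f w = c • w) hB (hf.pi hB) hA fun A' _ h1 h0 => by
    obtain ⟨v, a1, a2, a3⟩ := exists_eig_sq (c := 1) (by simp [h]) h1.iv h0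
    obtain ⟨c, hc, a3⟩ : ∃ c : F, c * c = 1 ∧ f v = c • v :=
      a3.elim (fun a => ⟨1, by simp, a⟩) fun a => ⟨-1, by simp, a⟩
    obtain ⟨W, k1, k2, k3, k4⟩ := (ni_pm hB hf h2 h h1 hc).nd.exists_plane hB
      ((Submodule.ne_bot_iff _).2 ⟨v, ⟨a1, mem_fix.2 a3⟩, a2⟩)
    have k5 : ∀ w ∈ W, f w = c • w := fun w hw => mem_fix.1 (k1 hw).2
    exact ⟨(), W, k1.trans inf_le_left, k2, ⟨k3, fun w hw => (k5 w hw).symm ▸ W.smul_mem c hw⟩,
      k4, c, hc, k5⟩
  exact ⟨_, hl.planes hB fun _ h => h.1⟩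

theorem os_neg [Fintype F] (hB : Symp B) (hf : Is B f) (h2 : (2 : F) ≠ 0) (h : ∀ v, f (f v) = -v)
    (hA : NI B f A) : ∃ n, OS B f (fun (_ : Unit) W => finrank F W = 2 ∧
      ∃ v, B v (f v) ≠ 0 ∧ W = Submodule.span F {v, f v}) (replicate n ()) A ∧
      finrank F A = 2 * n := by
  obtain ⟨l, hl⟩ := OS.exists (Pc := fun (_ : Unit) W => finrank F W = 2 ∧
      ∃ v, B v (f v) ≠ 0 ∧ W = Submodule.span F {v, f v}) hB (hf.pi hB) hA fun A' _ h1 h0 => by
    obtain ⟨v, hv, h6⟩ : ∃ v ∈ A', B (f v) v ≠ 0 := by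
      by_contra! h6
      refine h1.nd.not_ti h0 (ti_of_alt hB hf h1.iv (fun v hv h7 => ?_) h6)
      rw [h, neg_eq_iff_add_eq_zero, ← two_smul F] at h7
      exact (smul_eq_zero.1 h7).resolve_left h2
    have h7 : B v (f v) ≠ 0 := fun e => h6 (hB.comm.1 e)
    exact ⟨(), _, pair_le hv (h1.iv v hv), (Submodule.ne_bot_iff _).2 ⟨v, left_mem_pair _ _, by
      rintro rfl; simp at h7⟩, ⟨ndOn_pair hB h7, iv_pair (right_mem_pair _ _)
        (h v ▸ neg_mem (left_mem_pair _ _))⟩, finrank_pair hB h7, v, h7, rfl⟩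
  exact ⟨_, hl.planes hB fun _ h => h.1⟩

theorem PO.two (hB : Symp B) (h : PO 2 B f) : (∀ v, f (f v) = v) ∨ ∀ v, f (f v) = -v :=
  (h.pm hB).imp (fun h v => by simpa [pow_two] using LinearMap.congr_fun h v)
    fun h v => by simpa [pow_two] using LinearMap.congr_fun h v

theorem PO.os_two [Fintype F] (hB : Symp B) (h : PO 2 B f) (h2 : (2 : F) ≠ 0) : ∃ n,
    OS B f (fun (_ : Unit) W => finrank F W = 2) (replicate n ()) ⊤ ∧ finrank F V = 2 * n := by
  rcases h.two hB with h1 | h1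
  · obtain ⟨n, a, b⟩ := os_pos hB h.is h2 h1 (ni_top hB)
    exact ⟨n, a.mono fun _ _ _ _ h => h.1, by simpa using b⟩
  · obtain ⟨n, a, b⟩ := os_neg hB h.is h2 h1 (ni_top hB)
    exact ⟨n, a.mono fun _ _ _ _ h => h.1, by simpa using b⟩

theorem OS.sub_unit {Pc : Unit → Submodule F V → Prop} (hB : Symp B) {n m k : ℕ}
    (h : OS B f Pc (replicate n ()) A) (hP : ∀ W, Pc () W → Module.finrank F W = k) (hm : m ≤ n) :
    ∃ W ≤ A, NI B f W ∧ Module.finrank F W = k * m := by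
  obtain ⟨W, h1, h2⟩ := h.sub hB ((replicate_le_replicate _).2 hm)
  exact ⟨W, h1, h2.ni hB, by simpa using (h2.planes hB hP).2⟩

theorem is_conj {W : Type*} [AddCommGroup W] [Module F W] {B' : W →ₗ[F] W →ₗ[F] F}
    {e : W ≃ₗ[F] V} (he : ∀ u v, B (e u) (e v) = B' u v) {g : End F W} (hg : Is B' g) :
    Is B (e.conj g) := fun u v => by
  simp only [LinearEquiv.conj_apply_apply, he, hg _ _]
  rw [← he]; simp

theorem exists_J (hB : Symp B) : ∃ f, Is B f ∧ ∀ v, f (f v) = -v := by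
  obtain ⟨d, hd⟩ := (ni_top (f := 1) hB).nd.even hB
  obtain ⟨e, he⟩ := (symp_B0 d F).exists_equiv hB (by rw [finrank_V]; simp at hd; omega)
  refine ⟨_, is_conj he (is_toLin'.2 (SymplecticGroup.J_mem (Fin d) F)), fun v => ?_⟩
  simp [LinearEquiv.conj_apply_apply, Matrix.J_squared, Matrix.neg_mulVec]

theorem irr_sq_add_one (h : ¬ IsSquare (-1 : F)) : Irreducible (X ^ 2 - C (-1 : F)) :=
  X_pow_sub_C_irreducible_of_prime Nat.prime_two fun b hb => h ⟨b, by rw [← hb, pow_two]⟩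

theorem aeval_sq_add_one (h : ∀ v, f (f v) = -v) (v : V) : aeval f (X ^ 2 - C (-1 : F)) v = 0 := by
  rw [aeval_X_pow_sub_C]; simp [pow_two, h]

theorem even_of_J (h1 : ¬ IsSquare (-1 : F)) (h : ∀ v, f (f v) = -v) (hA : Iv f A) :
    Even (finrank F A) := by
  obtain ⟨s, hs, -⟩ := natDegree_dvd_finrank (monic_X_pow_sub_C _ two_ne_zero) (irr_sq_add_one h1) hA
    fun u _ => aeval_sq_add_one h u
  rw [hs, natDegree_X_pow_sub_C]
  simp

theorem po_J [Nontrivial V] (hB : Symp B) (hf : Is B f) (h2 : (2 : F) ≠ 0) (h : ∀ v, f (f v) = -v) :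
    PO 2 B f := by
  refine ⟨hf, ⟨-1, by ext v; simp [pow_two, h]⟩, fun c hc => ?_⟩
  obtain ⟨v, hv⟩ := exists_ne (0 : V)
  have := h v
  rcases Is.scalar hB (hc ▸ hf) with rfl | rfl <;>
  · simp only [hc, LinearMap.smul_apply, End.one_apply, one_smul, neg_smul, neg_neg,
      LinearMap.neg_apply] at this
    rw [eq_neg_iff_add_eq_zero, ← two_smul F] at this
    exact hv ((smul_eq_zero.1 this).resolve_left h2)

variable [Fintype F] {r : ℕ} [hr : Fact r.Prime]

local notation "q" => Fintype.card F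
local notation "ord" => orderOf ((Fintype.card F : ℕ) : ZMod r)

theorem ti_irr (hB : Symp B) (hf : Is B f) (hs : f.IsSemisimple) {π : F[X]} (h1 : π.Monic)
    (h2 : Irreducible π) (a : ℕ) (hA : NI B f A) (h : ∀ v ∈ A, aeval f π v = 0)
    (ha : 2 * (π.natDegree * a) ≤ finrank F A) : TI B f (π.natDegree * a) A := by
  induction a generalizing A with
  | zero => exact TI.zero
  | succ a ih =>
    rw [mul_add] at ha
    obtain ⟨U, b1, b2, b3, b4⟩ := exists_ti_irr hB hf hA.iv h1 h2 (by rw [kd_of_le h]; omega)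
    obtain ⟨W, c1, c2, c3, c4⟩ := exists_hypb hB (hf.pi hB) hs hA (b1.trans inf_le_left) b2 b3
    have d1 := c3.nd.finrank_compl hB c1
    have := TI.add hB c3.nd inf_le_right ⟨U, c2, b2, b3, b4⟩ (ih (c3.compl hB (hf.pi hB) hA c1)
      (fun v hv => h v hv.1) (by omega))
    rwa [c3.nd.sup_inf_perp hB c1, add_comm] at this

theorem sq_iff (h2 : (2 : F) ≠ 0) : IsSquare (-1 : F) ↔ q % 4 = 1 := by
  rw [FiniteField.isSquare_neg_one_iff]
  have := not_dvd_card (F := F) (r := 2) (by exact_mod_cast h2)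
  omega

theorem ti_two_iff (hB : Symp B) (h2 : (2 : F) ≠ 0) {m : ℕ} (hm : 1 ≤ m) (hmd : 2 * m ≤ finrank F V) :
    (∀ f, PO 2 B f → TI B f m ⊤) ↔ Even m ∨ q % 4 = 1 := by
  rw [← sq_iff h2]
  refine ⟨fun H => or_iff_not_imp_right.2 fun h1 => ?_, fun H f hf => ?_⟩
  · obtain ⟨f, k1, k2⟩ := exists_J hB
    have : Nontrivial V := finrank_pos_iff.1 (show 0 < finrank F V by omega)
    obtain ⟨U, -, -, k3, rfl⟩ := H f (po_J hB k1 h2 k2)
    exact even_of_J h1 k2 k3
  have key : ∀ c : F, (∀ v, f (f v) = (c * c) • v) → TI B f m ⊤ := fun c hc => by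
    obtain ⟨n, k1, k2⟩ := hf.os_two hB h2
    refine k1.ti_planes hB (by omega) fun W k3 k4 => ?_
    obtain ⟨v, a1, a2, a3 | a3⟩ := exists_eig_sq (fun v _ => hc v) k3.iv (by
      rintro rfl; simp at k4) <;> exact ti_line hB a1 a2 a3
  rcases hf.two hB with h1 | h1
  · exact key 1 (by simpa using h1)
  by_cases h3 : IsSquare (-1 : F)
  · obtain ⟨c, hc⟩ := h3
    exact key c (by simpa [← hc] using h1)
  obtain ⟨a, rfl⟩ := H.resolve_right h3
  have := ti_irr hB hf.is (ss_of_pow (r := 2) (c := -1) (by exact_mod_cast h2) (by simp)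
    (by ext v; simp [pow_two, h1])) (monic_X_pow_sub_C _ two_ne_zero) (irr_sq_add_one h3) a
    (ni_top hB) (fun v _ => aeval_sq_add_one h1 v) (by
      rw [natDegree_X_pow_sub_C, finrank_top]; omega)
  rwa [natDegree_X_pow_sub_C, two_mul] at this

theorem TI.pm {y : End F V} (h : f = y ∨ f = -y) {m : ℕ} (h1 : TI B y m A) : TI B f m A := by
  obtain ⟨U, a, b, c, d⟩ := h1
  exact ⟨U, a, b, (iv_pm h).2 c, d⟩

theorem SS.fx_ti (h : SS r B f) {U : Submodule F V} (hU : Ti B U) : 2 * fx f U ≤ fx f ⊤ :=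
  kd_le_of_ti h.hB (h.ni_fix (ni_top h.hB)).nd hU

theorem SS.dec_top (h : SS r B f) (h1 : f ≠ 1) : ∃ e s,
    OS B f (PcS ord f) (replicate e false + replicate s true) ⊤ ∧
      finrank F V = 2 * e + cv ord * s ∧ fx f ⊤ = 2 * e ∧ 1 ≤ s := by
  obtain ⟨e, s, k1, k2, k3⟩ := h.dec (ni_top h.hB)
  rw [finrank_top] at k2
  refine ⟨e, s, k1, k2, k3, Nat.pos_of_ne_zero ?_⟩
  rintro rfl
  rw [fx, kd_top] at k3
  have := Submodule.eq_top_of_finrank_eq (k3.trans (by omega))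
  exact h1 (LinearMap.ext fun v => by
    simpa using (mem_fix (c := (1 : F))).1 (this ▸ Submodule.mem_top (x := v)))

theorem exists_ss_max (hB : Symp B) (hr' : (r : F) ≠ 0) (hr2 : r ≠ 2) (hc : cv ord ≤ finrank F V) :
    ∃ f, SS r B f ∧ PO r B f ∧ fx f ⊤ = finrank F V % cv ord := by
  obtain ⟨f, h1, h2⟩ := exists_ss hB hr' hr2 (Nat.mod_add_div (finrank F V) (cv ord)).symm
  have := cv_pos (ord_pos hr')
  exact ⟨f, h1, h1.po (h2 ▸ (Nat.mod_lt _ (by omega)).trans_le hc), h2⟩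

theorem ti_arith {i t m e s n : ℕ} (hi : 0 < i) (h1 : n = 2 * e + cv i * s) (h2 : 2 * m ≤ n)
    (h3 : 2 * (m % i) ≤ n % cv i) (h4 : Odd i ∨ t + 2 * (m / i) ≤ n / i) :
    ∃ a b, m = b + i * a ∧ b ≤ e ∧ ((¬ Even i ∧ 2 * (i * a) + 2 * e ≤ n) ∨ a = 0 ∨
      2 * (i * a) + i * t + 2 * e ≤ n + i) := by
  have h5 := mod_le_of _ _ _ _ h1
  have h6 := Nat.mod_add_div m i
  have hex : ∃ a, m ≤ e + i * a := ⟨m / i, by omega⟩
  classical
  have h7 := Nat.find_spec hex
  have h8 := Nat.find_min' hex (m := m / i) (by omega)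
  have h9 := Nat.mul_le_mul_left i h8
  refine ⟨Nat.find hex, m - i * Nat.find hex, by omega, by omega, ?_⟩
  rcases h10 : Nat.find hex with _ | a
  · exact Or.inr (Or.inl rfl)
  have h11 := Nat.find_min hex (m := a) (by omega)
  rw [h10] at h8
  by_cases he : Even i
  · refine Or.inr (Or.inr ?_)
    have h4 := h4.resolve_left (Nat.not_odd_iff_even.2 he)
    rw [cv, if_pos he] at h1 h3
    obtain ⟨c, hc⟩ := Nat.exists_eq_add_of_le h8
    have h12 := Nat.mod_add_div n i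
    have h13 : n / i < s + 2 * (c + 1) := Nat.lt_of_mul_lt_mul_left (a := i) (by
      rw [hc] at h6; nlinarith)
    have : 2 * (a + 1) + t ≤ s + 1 := by omega
    nlinarith
  · refine Or.inl ⟨he, ?_⟩
    rw [cv, if_neg he] at h1
    have : a < s := Nat.lt_of_mul_lt_mul_left (a := i) (by nlinarith)
    nlinarith

theorem SS.card_le [DecidableEq F[X]] (h : SS r B f) (he : Even ord) {D : Multiset F[X]}
    (hD : D.Nodup) {π₀ : F[X]} {e u : ℕ} (h1 : Spl r f e (D + replicate (2 * u) π₀))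
    {U : Submodule F V} (hU : Ti B U) (hU' : Iv f U) : finrank F U ≤ fx f U + ord * u := by
  obtain ⟨ν, k1, k2, k3⟩ := h.exists_type hU'
  have : ν ≤ replicate u π₀ := le_iff_count.2 fun π => by
    by_cases hπ : π ∈ ν
    · obtain ⟨a, b, c⟩ := k1 π hπ
      have k4 := kd_le_of_ti h.hB (h.ni_irr he (ni_top h.hB) c).nd hU
      rw [k3 π a b c, kd_top, Spl.kd_irr h1 h.ne a b c, mul_left_comm,
        mul_le_mul_iff_right₀ (ord_pos h.ne), count_add, count_replicate] at k4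
      have := nodup_iff_count_le_one.1 hD π
      rw [count_replicate]
      split_ifs at k4 ⊢ <;> omega
    · simp [count_eq_zero_of_notMem hπ]
  have := card_le_card this
  rw [card_replicate] at this
  exact k2 ▸ Nat.add_le_add_left (Nat.mul_le_mul_left _ this) _

theorem ti_odd_iff (hB : Symp B) (hr' : (r : F) ≠ 0) (hr2 : r ≠ 2) {m j : ℕ}
    (hmd : 2 * m ≤ finrank F V) (hj : j < m) (h : r ∣ q ^ (finrank F V - 2 * j) - 1) :
    (∀ f, PO r B f → TI B f m ⊤) ↔ ord ≤ m ∧ 2 * (m % ord) ≤ finrank F V % cv ord ∧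
      (Odd ord ∨ (r - 1) / ord + 2 * (m / ord) ≤ finrank F V / ord) := by
  classical
  have hi := ord_pos hr'
  have hc := cv_pos hi
  obtain ⟨t, ht⟩ := ord_dvd hr'
  have ht' : (r - 1) / ord = t := by rw [ht, Nat.mul_div_cancel_left _ hi]
  rw [ht']
  refine ⟨fun H => ?_, fun ⟨h1, h2, h3⟩ f hf => ?_⟩
  swap
  · obtain ⟨y, k1, k2, k3⟩ := hf.ss hB hr' hr2
    obtain ⟨e, s, -, k4, k5, -⟩ := k1.dec_top k2
    obtain ⟨a, b, rfl, a1, a2⟩ := ti_arith hi k4 hmd h2 h3
    exact (k1.ti a b (ni_top hB) (by omega) (by rwa [k5, ht, finrank_top])).pm k3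
  obtain ⟨d, hd⟩ := (ni_top (f := 1) hB).nd.even hB
  rw [finrank_top] at hd
  have h1 : cv ord ∣ finrank F V - 2 * j := by
    rw [show finrank F V - 2 * j = 2 * (d - j) by omega] at h ⊢; exact cv_dvd_of h
  have h2 := le_of_dvd_aux (N := finrank F V) (c := 2 * m) (by omega) (by omega) (by omega) h1
  have h3 : cv ord ≤ finrank F V := (Nat.le_of_dvd (by omega) h1).trans (by omega)
  obtain ⟨f, k1, k2, k3⟩ := exists_ss_max hB hr' hr2 h3
  obtain ⟨U, -, a1, a2, rfl⟩ := H f k2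
  obtain ⟨ν, -, a3, -⟩ := k1.exists_type a2
  have a4 := k1.fx_ti a1
  have a5 := mod_le_of _ _ _ _ a3
  have a6 : ord ≤ finrank F U := by
    rcases Nat.eq_zero_or_pos (card ν) with h0 | h0
    · rw [h0] at a3; omega
    · nlinarith
  refine ⟨a6, by omega, or_iff_not_imp_left.2 fun he => not_lt.1 fun h4 => ?_⟩
  rw [Nat.not_odd_iff_even] at he
  rw [cv, if_pos he] at h3
  obtain ⟨D₀, b1, b2, b3⟩ := exists_nodup hr'
  obtain ⟨D, b4, b5⟩ := exists_le_card (A := D₀) (m := min (finrank F V / ord) t) (by omega)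
  obtain ⟨π₀, c1, c2, c3⟩ := exists_cyc_factor (F := F) (r := r)
  have b6 : ∀ g ∈ D + replicate (2 * ((finrank F V / ord - t) / 2)) π₀,
      g.Monic ∧ Irreducible g ∧ g ∣ cyclotomic r F := fun g hg =>
    (mem_add.1 hg).elim (fun hg => b2 g (mem_of_le b4 hg)) fun hg =>
      eq_of_mem_replicate hg ▸ ⟨c1, c2, c3⟩
  have b7 := Nat.mod_add_div (finrank F V) ord
  have b8 := Nat.mod_lt (finrank F V) hi
  have b9 := Nat.div_pos h3 hi
  have b10 := Nat.div_pos a6 hi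
  have b11 := Nat.mul_div_le (finrank F U) ord
  have ht0 : t ≠ 0 := by rintro rfl; have := hr.out.two_le; omega
  obtain ⟨i', hi'⟩ := he
  obtain ⟨δ, hδ, hδ'⟩ : ∃ δ ≤ 1, finrank F V / ord = card (D + replicate
      (2 * ((finrank F V / ord - t) / 2)) π₀) + δ :=
    ⟨_, by simp; omega, (Nat.add_sub_cancel' (by simp; omega)).symm⟩
  · generalize hν : D + replicate (2 * ((finrank F V / ord - t) / 2)) π₀ = ν' at b6 hδ'
    have b12 : 0 < card ν' := by rw [← hν]; simp; omega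
    rw [hδ', mul_add] at b7
    have b13 : ord * δ ≤ ord := by nlinarith
    have b14 : ord * card ν' = 2 * (i' * card ν') := by rw [hi']; ring
    obtain ⟨g, d1, d2⟩ := exists_spl_sp hB hr' hr2 (ν := ν') (by
      simpa using SM.bind (l := ν') (val := fun π => {π}) fun π hπ =>
        sm_irr hr' hr2 ⟨i', hi'⟩ (b6 π hπ).1 (b6 π hπ).2.1 (b6 π hπ).2.2) (fun g hg => (b6 g hg).2)
      (e := d - i' * card ν') (by omega)
    have d3 := Spl.fx_top d2 hr'
    obtain ⟨U', -, e1, e2, e3⟩ := H g (d1.po (by have := Nat.mul_pos hi b12; omega))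
    have e4 := d1.card_le ⟨i', hi'⟩ (nodup_of_le b4 b1) (hν ▸ d2) e1 e2
    have e5 := d1.fx_ti e1
    have e6 := Nat.mul_le_mul_left ord
      (show (finrank F V / ord - t) / 2 + 1 ≤ finrank F U / ord by omega)
    rw [mul_add] at e6
    omega

theorem nd_odd_iff (hB : Symp B) (hr' : (r : F) ≠ 0) (hr2 : r ≠ 2) {d m j : ℕ}
    (hd : finrank F V = 2 * d) (hm : 2 * m < d) (hj : d - m < j) (hj' : j ≤ d)
    (h : r ∣ q ^ (2 * j) - 1) :
    (∀ f, PO r B f → ∃ W, NI B f W ∧ finrank F W = 2 * m) ↔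
      cv ord ≤ 2 * m ∧ (2 * m) % cv ord ≤ (2 * d) % cv ord := by
  have hi := ord_pos hr'
  have hc := cv_pos hi
  have h1 := cv_dvd_of h
  have h2 := le_of_dvd_aux (N := 2 * d) (c := 2 * m) (by omega) (by omega) (by omega) h1
  refine ⟨fun H => ?_, fun ⟨h3, h4⟩ f hf => ?_⟩
  · obtain ⟨f, k1, k2, k3⟩ := exists_ss_max hB hr' hr2
      ((Nat.le_of_dvd (by omega) h1).trans (by omega))
    obtain ⟨W, a1, a2⟩ := H f k2
    obtain ⟨e, s, -, a3, a4⟩ := k1.dec a1
    have a5 : fx f W ≤ fx f ⊤ := kd_mono _ le_top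
    rw [a2] at a3
    have a6 := mod_le_of _ _ _ _ a3
    rw [hd] at k3
    refine ⟨?_, by omega⟩
    rcases Nat.eq_zero_or_pos s with rfl | h0
    · omega
    · nlinarith
  obtain ⟨y, k1, k2, k3⟩ := hf.ss hB hr' hr2
  obtain ⟨e, s, k4, k5, -, -⟩ := k1.dec_top k2
  rw [hd] at k5
  have h5 := mod_le_of _ _ _ _ k5
  have h6 := Nat.mod_add_div (2 * m) (cv ord)
  obtain ⟨c, hc'⟩ := cv_even ord
  obtain ⟨e', s', h7, h8, h9⟩ : ∃ e' s', e' ≤ e ∧ s' ≤ s ∧ 2 * m = 2 * e' + cv ord * s' := by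
    rcases le_total s (2 * m / cv ord) with h7 | h7
    · have := Nat.mul_le_mul_left (cv ord) h7
      have h8 : cv ord * s = 2 * (c * s) := by rw [hc']; ring
      exact ⟨m - c * s, s, by omega, le_rfl, by omega⟩
    · have h8 : cv ord * (2 * m / cv ord) = 2 * (c * (2 * m / cv ord)) := by
        conv_lhs => rw [hc']
        rw [← hc']; nth_rewrite 1 [hc']; ring
      exact ⟨m - c * (2 * m / cv ord), _, by omega, h7, by omega⟩
  obtain ⟨W, a1, a2⟩ := k4.sub_bool hB (fun _ h => h.1) (fun _ h => h.1) h7 h8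
  exact ⟨W, ⟨a1.nd, (iv_pm k3).2 a1.iv⟩, h9 ▸ a2⟩

end Cfsg.Agent.H9.Sp
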