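import Cfsg.Agent.H9.Sp.Re4
import Cfsg.Agent.H9.Sp.C8
import Cfsg.Agent.H6.El7

/-! Isometries permuting orthogonal decompositions and pairs of isotropic subspaces. -/

set_option autoImplicit false
set_option linter.unusedSimpArgs false
set_option linter.unusedSectionVars false
set_option linter.unusedVariables false

universe u

namespace Cfsg.Agent.H9.Sp

open Module Cfsg.Agent.H6 Cfsg.Agent.H6.El Polynomial
open Multiset hiding map_add map_zero le_iff_exists_add
open scoped Pointwise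

attribute [-simp] LinearEquiv.coe_inv Submodule.mem_map_equiv

variable {F : Type u} [Field F] [Fintype F] {V : Type u} [AddCommGroup V] [Module F V] [FiniteDimensional F V]
variable {B : V →ₗ[F] V →ₗ[F] F} {f : End F V} {A A' : Submodule F V} {a t t' : ℕ}

/-- `f` permutes an orthogonal decomposition of `A` -/
def Dc (B : V →ₗ[F] V →ₗ[F] F) (f : End F V) (a t : ℕ) (A : Submodule F V) : Prop :=
  ∃ (ι : Type) (_ : Fintype ι) (D : ι → Submodule F V) (σ : Equiv.Perm ι), Fintype.card ι = t ∧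
    (∀ j, finrank F (D j) = a) ∧ (∀ j, NdOn B (D j)) ∧ (∀ j j', j ≠ j' → D j' ≤ perp B (D j)) ∧
    iSup D = A ∧ ∀ j, ∀ w ∈ D j, f w ∈ D (σ j)

theorem dc_zero : Dc B f a 0 ⊥ :=
  ⟨Empty, inferInstance, fun i => i.elim, 1, rfl, fun i => i.elim, fun i => i.elim,
    fun i => i.elim, by simp, fun i => i.elim⟩

theorem dc_one (h : NI B f A) (h1 : finrank F A = a) : Dc B f a 1 A :=
  ⟨Unit, inferInstance, fun _ => A, 1, rfl, fun _ => h1, fun _ => h.nd, fun _ _ h => absurd rfl h,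
    by simp, fun _ => h.iv⟩

theorem dc_two (hB : Symp B) {P Q : Submodule F V} (h1 : NdOn B P) (h2 : NdOn B Q)
    (h3 : Q ≤ perp B P) (h4 : finrank F P = a) (h5 : finrank F Q = a) (h6 : ∀ w ∈ P, f w ∈ Q)
    (h7 : ∀ w ∈ Q, f w ∈ P) : Dc B f a 2 (P ⊔ Q) :=
  ⟨Bool, inferInstance, fun b => if b then P else Q, Equiv.swap true false, rfl,
    by rintro (_ | _) <;> assumption, by rintro (_ | _) <;> assumption, by
      rintro (_ | _) (_ | _) h
      exacts [absurd rfl h, le_perp_comm hB h3, h3, absurd rfl h],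
    by simp [iSup_bool_eq], by rintro (_ | _) <;> assumption⟩

theorem Dc.add (hB : Symp B) (h : Dc B f a t A) (h' : Dc B f a t' A') (hA : A' ≤ perp B A) :
    Dc B f a (t + t') (A ⊔ A') := by
  obtain ⟨ι, _, D, σ, rfl, h1, h2, h3, rfl, h4⟩ := h
  obtain ⟨ι', _, D', σ', rfl, k1, k2, k3, rfl, k4⟩ := h'
  have h5 : ∀ j j', D' j' ≤ perp B (D j) := fun j j' =>
    ((le_iSup D' j').trans hA).trans (perp_anti (le_iSup D j))
  refine ⟨ι ⊕ ι', inferInstance, Sum.elim D D', σ.sumCongr σ', by simp, ?_, ?_, ?_,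
    iSup_sum, ?_⟩
  · rintro (j | j); exacts [h1 j, k1 j]
  · rintro (j | j); exacts [h2 j, k2 j]
  · rintro (j | j) (j' | j') h
    exacts [h3 j j' (by simpa using h), h5 j j', le_perp_comm hB (h5 j' j),
      k3 j j' (by simpa using h)]
  · rintro (j | j); exacts [h4 j, k4 j]

theorem Dc.pm {y : End F V} (h : f = y ∨ f = -y) (h1 : Dc B y a t A) : Dc B f a t A := by
  rcases h with rfl | rfl
  · exact h1
  obtain ⟨ι, _, D, σ, k1, k2, k3, k4, k5, k6⟩ := h1
  exact ⟨ι, _, D, σ, k1, k2, k3, k4, k5, fun j w hw => neg_mem (k6 j w hw)⟩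

theorem Dc.fin (hf : Function.Injective f) (ha : 0 < a) (h : Dc B f a t ⊤) :
    ∃ D : Fin t → Submodule F V, ODec B a D ∧
      ∃ σ : Equiv.Perm (Fin t), ∀ j, (D j).map f = D (σ j) := by
  obtain ⟨ι, _, D, σ, rfl, h1, h2, h3, h4, h5⟩ := h
  let τ := Fintype.equivFin ι
  refine ⟨D ∘ τ.symm, ⟨ha, fun i => h1 _, (τ.symm.surjective.iSup_comp D).trans h4, fun i => h2 _,
    fun i j h u hu v hv => h3 _ _ (τ.symm.injective.ne h) hv u hu⟩, τ.symm.trans (σ.trans τ),
    fun j => Submodule.eq_of_le_of_finrank_eq ?_ ?_⟩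
  · rintro _ ⟨w, hw, rfl⟩
    simpa using h5 _ w hw
  · rw [Function.comp, Function.comp, h1, ← h1 (τ.symm j)]
    exact (Submodule.equivMapOfInjective f hf _).finrank_eq.symm

theorem ODec.indep (hB : Symp B) {ι : Type*} {D : ι → Submodule F V} (h : ODec B a D) :
    iSupIndep D := fun i => (h.nd i).disj hB (iSup₂_le fun j hj v hv u hu => h.orth i j hj.symm u hu v hv)

theorem OS.split_bool {Pc : Bool → Submodule F V → Prop} (hB : Symp B) {e s e' s' : ℕ}
    (h : OS B f Pc (replicate (e + e') false + replicate (s + s') true) A) : ∃ A₁ A₂,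
    OS B f Pc (replicate e false + replicate s true) A₁ ∧
    OS B f Pc (replicate e' false + replicate s' true) A₂ ∧ A₂ ≤ perp B A₁ ∧ A = A₁ ⊔ A₂ :=
  OS.split hB (by rwa [replicate_add, replicate_add, add_add_add_comm] at h)

theorem OS.dc {Pc : Bool → Submodule F V → Prop} (hB : Symp B) {e s c : ℕ}
    (h : OS B f Pc (replicate e false + replicate s true) A)
    (h1 : ∀ W, Pc false W → Module.finrank F W = 2) (h2 : ∀ W, Pc true W → Module.finrank F W = c)
    (ha : Even a) (hc : Even c) (h3 : 2 * e + c * s = a * t) (h4 : s ≤ t * (a / c)) :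
    Dc B f a t A := by
  induction t generalizing e s A with
  | zero =>
    obtain rfl : s = 0 := by omega
    obtain rfl : e = 0 := by omega
    exact h.zero ▸ dc_zero
  | succ t ih =>
    obtain ⟨s₂, hs⟩ := Nat.exists_eq_add_of_le (min_le_left s (a / c))
    have k1 := min_le_right s (a / c)
    have k5 : s₂ ≤ t * (a / c) := by rw [add_mul] at h4; omega
    generalize min s (a / c) = s₁ at hs k1
    subst hs
    have k2 := (Nat.mul_le_mul_left c k1).trans (Nat.mul_div_le a c)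
    have k3 : c * s₂ ≤ a * t := (Nat.mul_le_mul_left c k5).trans (by
      rw [mul_left_comm, mul_comm a]; exact Nat.mul_le_mul_left t (Nat.mul_div_le a c))
    obtain ⟨a', ha'⟩ := ha
    obtain ⟨c', hc'⟩ := hc.mul_right s₁
    rw [mul_add, mul_add] at h3
    obtain ⟨e₂, he⟩ := Nat.exists_eq_add_of_le (show a' - c' ≤ e by omega)
    obtain ⟨A₁, A₂, b1, b2, b3, rfl⟩ := (he ▸ h).split_bool hB
    exact add_comm 1 t ▸ (dc_one (b1.ni hB) (by rw [b1.finrank_bool hB h1 h2]; omega)).add hB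
      (ih b2 (by omega) k5) b3

theorem OS.to_bool {Pc : Unit → Submodule F V → Prop} {l : Multiset Unit} (h : OS B f Pc l A) :
    OS B f (fun (b : Bool) W => b = false ∧ Pc () W) (replicate (card l) false + replicate 0 true) A := by
  induction h with
  | nil => exact OS.nil
  | cons h1 h2 h3 h4 ih => exact (OS.cons h1 ⟨rfl, h2⟩ ih h4).congr (by simp [replicate_succ]) rfl

/-! involutions in characteristic two -/

/-- swapped pairs -/
def Sw (B : V →ₗ[F] V →ₗ[F] F) (f : End F V) (k : ℕ) (W : Submodule F V) : Prop :=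
  ∃ P Q, NdOn B P ∧ NdOn B Q ∧ Q ≤ perp B P ∧ finrank F P = k ∧ finrank F Q = k ∧
    (∀ w ∈ P, f w ∈ Q) ∧ (∀ w ∈ Q, f w ∈ P) ∧ W = P ⊔ Q

theorem Sw.finrank (hB : Symp B) {k : ℕ} (h : Sw B f k A) : finrank F A = 2 * k := by
  obtain ⟨P, Q, h1, h2, h3, h4, h5, -, -, rfl⟩ := h
  rw [finrank_sup_disj (h1.disj hB h3)]; omega

theorem Sw.dc (hB : Symp B) (h : Sw B f a A) : Dc B f a 2 A := by
  obtain ⟨P, Q, h1, h2, h3, h4, h5, h6, h7, rfl⟩ := h
  exact dc_two hB h1 h2 h3 h4 h5 h6 h7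

theorem Sw.add (hB : Symp B) {k k' : ℕ} (h : Sw B f k A) (h' : Sw B f k' A') (hA : A' ≤ perp B A) :
    Sw B f (k + k') (A ⊔ A') := by
  obtain ⟨P, Q, h1, h2, h3, rfl, h5, h6, h7, rfl⟩ := h
  obtain ⟨P', Q', k1, k2, k3, rfl, k5, k6, k7, rfl⟩ := h'
  have a1 := hA.trans (perp_anti le_sup_left)
  have a2 := hA.trans (perp_anti le_sup_right)
  have b : ∀ {X Y X' Y' : Submodule F V}, (∀ w ∈ X, f w ∈ Y) → (∀ w ∈ X', f w ∈ Y') →
      ∀ w ∈ X ⊔ X', f w ∈ Y ⊔ Y' := fun h h' w hw => by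
    obtain ⟨x, hx, y, hy, rfl⟩ := Submodule.mem_sup.1 hw
    exact map_add f x y ▸ Submodule.add_mem_sup (h x hx) (h' y hy)
  exact ⟨_, _, h1.sup hB k1 (le_sup_left.trans a1), h2.sup hB k2 (le_sup_right.trans a2),
    sup_le (perp_sup_ge h3 (le_perp_comm hB (le_sup_left.trans a2)))
      (perp_sup_ge (le_sup_right.trans a1) k3),
    finrank_sup_disj (h1.disj hB (le_sup_left.trans a1)),
    by rw [finrank_sup_disj (h2.disj hB (le_sup_right.trans a2)), h5, k5], b h6 k6, b h7 k7,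
    sup_sup_sup_comm _ _ _ _⟩

theorem sw_zero : Sw B f 0 ⊥ :=
  ⟨⊥, ⊥, (ni_bot (f := f)).nd, (ni_bot (f := f)).nd, bot_le, by simp, by simp, by simp, by simp,
    by simp⟩

/-- pieces of an involution in characteristic two -/
def PcT (B : V →ₗ[F] V →ₗ[F] F) (f : End F V) (b : Bool) (W : Submodule F V) : Prop :=
  if b then Sw B f 2 W else finrank F W = 2 ∧ ((∃ v, B v (f v) ≠ 0) ∨ ∀ w ∈ W, f w = w)

theorem os_char_two [CharP F 2] (hB : Symp B) (hf : Is B f) (h : ∀ v, f (f v) = v)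
    (hA : NI B f A) : ∃ e s, OS B f (PcT B f) (replicate e false + replicate s true) A := by
  obtain ⟨l, hl⟩ := OS.exists (Pc := PcT B f) hB (hf.pi hB) hA fun A' _ h1 h0 => by
    by_cases h2 : ∃ v ∈ A', B v (f v) ≠ 0
    · obtain ⟨v, hv, h7⟩ := h2
      exact ⟨false, _, pair_le hv (h1.iv v hv), (Submodule.ne_bot_iff _).2 ⟨v, left_mem_pair _ _, by
        rintro rfl; simp at h7⟩, ⟨ndOn_pair hB h7, iv_pair (right_mem_pair _ _)
          ((h v).symm ▸ left_mem_pair _ _)⟩, finrank_pair hB h7, Or.inl ⟨v, h7⟩⟩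
    by_cases h3 : ∀ w ∈ A', f w = w
    · obtain ⟨W, k1, k2, k3, k4⟩ := h1.nd.exists_plane hB h0
      exact ⟨false, W, k1, k2, ⟨k3, fun w hw => (h3 w (k1 hw)).symm ▸ hw⟩, k4,
        Or.inr fun w hw => h3 w (k1 hw)⟩
    push Not at h2 h3
    obtain ⟨v, hv, h3⟩ := h3
    obtain ⟨x, hx, h4⟩ := h1.nd _ (sub_mem (h1.iv v hv) hv) (sub_ne_zero.2 h3)
    obtain ⟨y, hy, h5, h6⟩ : ∃ y ∈ A', B x y ≠ 0 ∧ B x (f y) = 0 := by
      refine ⟨B x v • v - B x (f v) • f v, sub_mem (A'.smul_mem _ hv)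
        (A'.smul_mem _ (h1.iv v hv)), ?_, by simp [h, mul_comm]⟩
      have : B x (f v) - B x v ≠ 0 := fun e => h4 (hB.comm.1 (by rwa [map_sub]))
      convert mul_ne_zero this this using 1
      simp only [map_sub, map_smul, smul_eq_mul, CharTwo.sub_eq_add]
      linear_combination (-(B x v * B x (f v))) * (CharTwo.two_eq_zero (R := F))
    have h7 : B (f x) (f y) ≠ 0 := by rwa [hf]
    have h8 : B y (f x) = 0 := by rw [← hf, h]; exact hB.comm.1 h6
    have h9 : Submodule.span F {f x, f y} ≤ perp B (Submodule.span F {x, y}) := by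
      refine pair_le (fun k hk => ?_) fun k hk => ?_ <;>
      · obtain ⟨a, b, rfl⟩ := Submodule.mem_span_pair.1 hk
        simp [h2 x hx, h2 y hy, h6, h8]
    have h10 : ∀ {x y : V}, ∀ w ∈ Submodule.span F {x, y}, f w ∈ Submodule.span F {f x, f y} :=
      fun w hw => by
        obtain ⟨a, b, rfl⟩ := Submodule.mem_span_pair.1 hw
        exact Submodule.mem_span_pair.2 ⟨a, b, by simp⟩
    have h11 : ∀ w ∈ Submodule.span F {f x, f y}, f w ∈ Submodule.span F {x, y} := by
      simpa only [h] using @h10 (f x) (f y)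
    refine ⟨true, _, sup_le (pair_le hx hy) (pair_le (h1.iv x hx) (h1.iv y hy)),
      (Submodule.ne_bot_iff _).2 ⟨x, Submodule.mem_sup_left (left_mem_pair _ _), by
        rintro rfl; simp at h5⟩, ⟨(ndOn_pair hB h5).sup hB (ndOn_pair hB h7) h9, fun w hw => ?_⟩,
      _, _, ndOn_pair hB h5, ndOn_pair hB h7, h9, finrank_pair hB h5, finrank_pair hB h7, h10, h11,
      rfl⟩
    obtain ⟨a, ha, b, hb, rfl⟩ := Submodule.mem_sup.1 hw
    rw [map_add, add_comm]
    exact Submodule.add_mem_sup (h11 b hb) (h10 a ha)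
  exact ⟨_, _, eq_replicate_bool l ▸ hl⟩

theorem OS.dc_two (hB : Symp B) {e s b : ℕ}
    (h : OS B f (PcT B f) (replicate e false + replicate s true) A) (hb : 0 < b)
    (h3 : e + 2 * s = b * t) : Dc B f (2 * b) t A := by
  induction s using Nat.strong_induction_on generalizing t A with
  | _ s ih =>
  rcases lt_or_ge s b with hs | hs
  · refine h.dc hB (c := 4) (fun _ h => h.1) (fun _ h => Sw.finrank hB h) (by simp) (by decide)
      (by rw [mul_assoc]; omega) ?_
    rcases t with _ | _ | t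
    · omega
    · omega
    · rw [add_mul, add_mul]; omega
  obtain ⟨s, rfl⟩ := Nat.exists_eq_add_of_le hs
  obtain ⟨A₁, A₂, b1, b2, b3, rfl⟩ := OS.split_bool (e := 0) hB (by simpa using h)
  obtain ⟨t, rfl⟩ := Nat.exists_eq_add_of_le (show 2 ≤ t from
    Nat.le_of_mul_le_mul_left (c := b) (by omega) hb)
  refine (Sw.dc hB ?_).add hB (ih s (by omega) b2 (by rw [mul_add b] at h3; omega)) b3
  simpa [mul_comm] using b1.ind hB (Sw B f) (fun _ => 2) sw_zero
    (fun _ _ _ _ _ _ h3 h4 h5 => h4.add hB h5 h3) fun a ha W _ h => by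
      obtain rfl : a = true := eq_of_mem_replicate (by simpa using ha)
      exact h

theorem PO.sq_two [CharP F 2] (hB : Symp B) (h : PO 2 B f) (v : V) : f (f v) = v :=
  (h.two hB).elim (fun h => h v) fun h => by
    rw [h, ← neg_one_smul F, CharTwo.neg_eq, one_smul]

theorem PO.dc_two (hB : Symp B) (h : PO 2 B f) (ha : Even a) (h0 : 0 < a)
    (hn : finrank F V = a * t) : Dc B f a t ⊤ := by
  by_cases h2 : (2 : F) = 0
  · have : CharP F 2 := (CharP.charP_iff_prime_eq_zero Nat.prime_two).2 (by exact_mod_cast h2)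
    obtain ⟨e, s, h1⟩ := os_char_two hB h.is (h.sq_two hB) (ni_top hB)
    have h3 := h1.finrank_bool hB (fun _ h => h.1) fun _ h => Sw.finrank hB h
    obtain ⟨b, rfl⟩ := ha.two_dvd
    exact h1.dc_two hB (by omega) (by rw [finrank_top, hn, mul_assoc] at h3; omega)
  · obtain ⟨n, h1, h3⟩ := h.os_two hB h2
    exact h1.to_bool.dc hB (c := 0) (fun _ h => h.2) (by simp) ha (by simp)
      (by simp; omega) (by simp)

variable {r : ℕ} [hr : Fact r.Prime]

local notation "q" => Fintype.card F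
local notation "ord" => orderOf ((Fintype.card F : ℕ) : ZMod r)

theorem PO.dc_odd (hB : Symp B) (hr' : (r : F) ≠ 0) (hr2 : r ≠ 2) (hf : PO r B f) (ha : Even a)
    (hn : finrank F V = a * t) (h : a * t % cv ord = t * (a % cv ord)) : Dc B f a t ⊤ := by
  obtain ⟨y, k1, k2, k3⟩ := hf.ss hB hr' hr2
  obtain ⟨e, s, k4, k5, -, -⟩ := k1.dec_top k2
  rw [hn] at k5
  refine (k4.dc hB (fun _ h => h.1) (fun _ h => h.1) ha (cv_even _) k5.symm ?_).pm k3
  have h0 := cv_pos (ord_pos hr')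
  have h3 := mod_le_of _ _ _ _ k5
  have := Nat.mod_add_div a (cv ord)
  generalize cv ord = c at *
  refine Nat.le_of_mul_le_mul_left (c := c) ?_ (by omega)
  nlinarith

theorem ODec.os (hB : Symp B) {ι : Type} [Fintype ι] {D : ι → Submodule F V} (h : ODec B a D)
    (hf : ∀ i, Iv f (D i)) : OS B f (fun i W => W = D i) Finset.univ.val ⊤ := by
  classical
  have : ∀ s : Finset ι, OS B f (fun i W => W = D i) s.val (⨆ i ∈ s, D i) := fun s => by
    induction s using Finset.induction_on with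
    | empty => simpa using OS.nil
    | insert i s hi ih =>
      rw [Finset.insert_val_of_notMem hi, Finset.iSup_insert]
      exact OS.cons ⟨h.nd i, hf i⟩ rfl ih (iSup₂_le fun j hj v hv u hu =>
        h.orth i j (by rintro rfl; exact hi hj) u hu v hv)
  simpa [h.top] using this Finset.univ

theorem SS.mod_le (h : SS r B f) {D : Fin t → Submodule F V} (hD : ODec B a D)
    (hf : ∀ i, Iv f (D i)) : t * (a % cv ord) ≤ fx f ⊤ := by
  rw [fx, (hD.os h.hB hf).kd h.hB _ (fun i => fx f (D i)) (by rintro i - W - rfl; rfl)]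
  simpa [List.sum_ofFn] using Finset.card_nsmul_le_sum Finset.univ (fun i => fx f (D i)) (a % cv ord) fun i _ => by
    obtain ⟨e, s, -, h1, h2⟩ := h.dec ⟨hD.nd i, hf i⟩
    rw [hD.finrank_eq] at h1
    exact h2 ▸ mod_le_of _ _ _ _ h1

theorem ODec.trans (hB : Symp B) {D D' : Fin t → Submodule F V} (h : ODec B a D)
    (h' : ODec B a D') : ∃ g ∈ Sp B, g • D = D' := by
  obtain ⟨p, h1, h2, h3, h4, h5⟩ := h.exists_proj hB
  choose α k1 k2 using fun i => exists_isometry hB (h.nd i) (h'.nd i)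
    ((h.finrank_eq i).trans (h'.finrank_eq i).symm)
  obtain ⟨g, hg, hx⟩ := exists_Sp hB (∑ i, α i ∘ₗ p i) fun u v => by
    simp only [LinearMap.sum_apply, map_sum, LinearMap.comp_apply]
    conv_rhs => rw [← h5 v, map_sum]
    refine Finset.sum_congr rfl fun i _ => ?_
    rw [Finset.sum_eq_single i (fun j _ hj => h'.orth j i hj _ (k1 j _ (h1 j u)) _ (k1 i _ (h1 i v)))
      (by simp), k2 i _ (h1 i u) _ (h1 i v), h4 i u _ (h1 i v)]
  refine ⟨g, hg, funext fun i => smul_eq_of (fun u hu => ?_)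
    ((h.finrank_eq i).trans (h'.finrank_eq i).symm)⟩
  rw [hx, LinearMap.sum_apply, Finset.sum_eq_single i (fun j _ hj => by
    simp [h3 j u fun k hk => h.orth j i hj k hk u hu]) (by simp)]
  exact k1 i _ (h1 i u)

theorem card_odec_dvd (hB : Symp B) (S : (Fin t → Submodule F V) → Prop)
    (hS : ∀ D, S D ↔ ODec B a D) (ha : Even a) (h0 : 0 < a) (hn : finrank F V = a * t) :
    Nat.card {D // S D} / t.factorial ∣ Nat.card (Sp B) := by
  have := finite_linearEquiv (F := F) (V := V)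
  obtain rfl : S = ODec B a := funext fun D => propext (hS D)
  let Ω := {D : Fin t → Submodule F V // ODec B a D}
  have h1 : t.factorial ∣ Nat.card Ω := by
    let _ : MulAction (Equiv.Perm (Fin t)) Ω :=
      { smul := fun σ D => ⟨D.1 ∘ σ.symm, D.2.pos, fun i => D.2.finrank_eq _,
          (σ.symm.surjective.iSup_comp D.1).trans D.2.top, fun i => D.2.nd _,
          fun i j h => D.2.orth _ _ (σ.symm.injective.ne h)⟩
        one_smul := fun _ => rfl
        mul_smul := fun _ _ _ => rfl }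
    rw [Nat.card_congr (MulAction.selfEquivOrbitsQuotientProd (G := Equiv.Perm (Fin t))
      fun D => ?_), Nat.card_prod, Nat.card_perm]
    · simp
    · rw [eq_bot_iff]
      intro σ hσ
      have h3 : D.1 ∘ σ.symm = D.1 := congrArg Subtype.val hσ
      rw [Subgroup.mem_bot, ← inv_eq_one]
      refine Equiv.ext fun i => ?_
      obtain ⟨x, hx, hx0⟩ := D.2.exists_ne i
      exact D.2.eq_of_mem ((congrFun h3 i).ge hx) hx hx0
  obtain ⟨n, k1, k2⟩ := (ni_top (f := 1) hB).nd.os_planes hB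
  obtain ⟨D₀, hD₀, -⟩ := (k1.to_bool.dc (t := t) hB (c := 0) (fun _ h => h.2) (by simp) ha (by simp)
    (by simp at k2 ⊢; omega) (by simp)).fin (fun _ _ h => h) h0
  simpa using (Nat.div_dvd_of_dvd h1).trans (Dvd.intro _ rfl) |>.trans
    (card_mul_dvd (Sp B) (ODec B a) D₀ (fun D => ⟨fun hD => hD₀.trans hB hD, by
      rintro ⟨g, hg, rfl⟩
      refine ⟨h0, fun i => (LinearEquiv.finrank_map_eq g _).trans (hD₀.finrank_eq i), ?_,
        fun i => ndOn_smul hg (hD₀.nd i), ?_⟩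
      · exact (Submodule.map_iSup (g : V →ₗ[F] V) D₀).symm.trans (by rw [hD₀.top]; simp)
      · rintro i j h _ ⟨u, hu, rfl⟩ _ ⟨v, hv, rfl⟩
        exact (hg u v).trans (hD₀.orth i j h u hu v hv)⟩) ⊥ bot_le (by simp))

theorem cond_of_forall_odec {κ : Type} [Fintype κ] [DecidableEq κ]
    {B : (κ → F) →ₗ[F] (κ → F) →ₗ[F] F} (hB : Symp B) (hr' : (r : F) ≠ 0) (hr2 : r ≠ 2)
    (hn : finrank F (κ → F) = a * t) (ha : 2 ≤ a) (ht : 2 ≤ t) (hc : cv ord ≤ a * t)
    (H : ∀ f, PO r B f → ∃ D : Fin t → Submodule F (κ → F), ODec B a D ∧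
      ∃ σ : Equiv.Perm (Fin t), ∀ j, (D j).map f = D (σ j)) :
    cv ord ≤ a ∧ a * t % cv ord = t * (a % cv ord) := by
  have h0 := cv_pos (ord_pos hr')
  have : Nontrivial (Fin a → F) := finrank_pos_iff.1 (by simp; omega : 0 < finrank F _)
  have key : ∀ f, SS r B f → PO r B f → t * (a % cv ord) ≤ fx f ⊤ ∨
      (a ≤ fx f ⊤ ∧ (r - 1) * a + fx f ⊤ ≤ a * t) := fun f h1 h2 => by
    obtain ⟨D, hD, σ, hσ⟩ := H f h2
    by_cases h3 : ∀ i, σ i = i
    · exact Or.inl (h1.mod_le hD fun i w hw => by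
        have := hσ i; rw [h3] at this; exact this ▸ ⟨w, hw, rfl⟩)
    push Not at h3
    obtain ⟨i, h3⟩ := h3
    obtain ⟨e, he⟩ := exists_decomp_equiv (W := Fin a → F)
      (⟨ht, by omega, hD.finrank_eq, hD.indep hB, hD.top⟩ : Geo.IsMDecomposition a D) (by simp)
    have h4 : Mon (e.conj f) σ := fun i w j hj =>
      (he (σ i) _).1 (hσ i ▸ ⟨_, (he i _).2 fun l hl => by simp [hl], rfl⟩) j hj
    have h5 : e.conj f ^ r = 1 := (map_pow e.conjRingEquiv f r).symm.trans (by rw [h1.pow, map_one])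
    have h6 := ((sim_conj e f).aeval (X - C 1)).finrank_ker
    have h7 := h4.le_ker h5 h3
    have h8 := h4.rank_ge (r := r) one_ne_zero (by simpa using h5) h3
    have h9 := (e.conj f - 1).finrank_range_add_finrank_ker
    rw [← e.finrank_eq, hn] at h9
    rw [aeval_X_sub_C (e.conj f), one_smul, ← kd_top] at h6
    rw [finrank_fin_fun] at h7 h8
    exact Or.inr (by rw [fx, h6]; omega)
  have h1 : cv ord ≤ a := by
    by_contra! h1
    obtain ⟨f, k1, k2⟩ := exists_ss hB hr' hr2 (e := a * t - cv ord) (s := 1) (by omega)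
    have := cv_le hr' hr2
    rcases key f k1 (k1.po (by omega)) with k3 | ⟨-, k3⟩
    · rw [Nat.mod_eq_of_lt h1, mul_comm] at k3; omega
    · have := Nat.mul_le_mul_left (r - 1) ha
      omega
  obtain ⟨f, k1, k2, k3⟩ := exists_ss_max hB hr' hr2 (hn ▸ hc)
  have hk := Nat.mod_lt (a * t) (show 0 < cv ord by omega)
  rw [hn] at k3
  have k4 := (key f k1 k2).resolve_right fun h => by omega
  rw [k3] at k4
  exact ⟨h1, by rw [mul_comm, ← Nat.mul_mod_mod, Nat.mod_eq_of_lt (k4.trans_lt hk)]⟩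

theorem oDec_iff {d : ℕ} (ht : 2 ≤ t) (D : Fin t → Submodule F (Fin d ⊕ Fin d → F)) :
    (Geo.IsMDecomposition a D ∧ (∀ j, ∀ u ∈ D j, u ≠ 0 → ∃ v ∈ D j, sympForm d F u v ≠ 0) ∧
      (∀ j j', j ≠ j' → ∀ u ∈ D j, ∀ v ∈ D j', sympForm d F u v = 0)) ↔ ODec (B0 d F) a D :=
  ⟨fun h => ⟨h.1.pos, h.1.finrank_eq, h.1.iSup_eq_top, h.2.1, h.2.2⟩,
    fun h => ⟨⟨ht, h.pos, h.finrank_eq, h.indep (symp_B0 d F), h.top⟩, h.nd, h.orth⟩⟩

end Cfsg.Agent.H9.Sp
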