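import Cfsg.Agent.H9.Sp.Re5

/-! Isometries fixing pairs of complementary totally isotropic subspaces. -/

set_option autoImplicit false
set_option linter.unusedSimpArgs false
set_option linter.unusedSectionVars false
set_option linter.unusedVariables false

universe u

namespace Cfsg.Agent.H9.Sp

open Module Cfsg.Agent.H6 Cfsg.Agent.H6.El Polynomial
open Multiset hiding map_add map_zero le_iff_exists_add
open scoped Pointwise

attribute [-simp] LinearEquiv.coe_inv Submodule.mem_map_equiv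

variable {F : Type u} [Field F] [Fintype F] {V : Type u} [AddCommGroup V] [Module F V]
  [FiniteDimensional F V]
variable {B : V →ₗ[F] V →ₗ[F] F} {f : End F V} {A A' : Submodule F V}

/-- fixed or swapped pairs of totally isotropic subspaces -/
def Pr (B : V →ₗ[F] V →ₗ[F] F) (f : End F V) (s : Bool) (A : Submodule F V) : Prop :=
  ∃ D : Bool → Submodule F V, D true ⊔ D false = A ∧ (∀ b, Ti B (D b)) ∧
    ∀ b, ∀ w ∈ D b, f w ∈ D (xor s b)

theorem OS.pr {α : Type} {Pc : α → Submodule F V → Prop} {l : Multiset α} (hB : Symp B) {s : Bool}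
    (h : OS B f Pc l A) (h1 : ∀ a W, Pc a W → Pr B f s W) : Pr B f s A := by
  refine h.ind hB (β := Unit) (fun _ => Pr B f s) (fun _ => ()) ⟨fun _ => ⊥, by simp,
    by simp [Ti], by simp⟩ ?_ fun a _ W _ h => h1 a W h
  rintro - - _ _ - - h3 ⟨D, rfl, a1, a2⟩ ⟨D', rfl, b1, b2⟩
  have : ∀ {D : Bool → Submodule F V} (b), D b ≤ D true ⊔ D false := by
    rintro D (_ | _); exacts [le_sup_right, le_sup_left]
  refine ⟨fun b => D b ⊔ D' b, sup_sup_sup_comm _ _ _ _, fun b => (a1 b).sup hB (b1 b)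
    (((this b).trans h3).trans (perp_anti (this b))), fun b w hw => ?_⟩
  obtain ⟨x, hx, y, hy, rfl⟩ := Submodule.mem_sup.1 hw
  exact map_add f x y ▸ Submodule.add_mem_sup (a2 b x hx) (b2 b y hy)

theorem ti_span (hB : Symp B) (x : V) : Ti B (Submodule.span F {x}) := by
  intro a ha b hb
  obtain ⟨a, rfl⟩ := Submodule.mem_span_singleton.1 ha
  obtain ⟨b, rfl⟩ := Submodule.mem_span_singleton.1 hb
  simp [hB.alt]

theorem pr_pair (hB : Symp B) (s : Bool) (x : Bool → V)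
    (h : ∀ b, ∃ c : F, f (x b) = c • x (xor s b)) :
    Pr B f s (Submodule.span F {x true, x false}) :=
  ⟨fun b => Submodule.span F {x b}, (Submodule.span_insert _ _).symm, fun b => ti_span hB _,
    fun b w hw => by
      obtain ⟨a, rfl⟩ := Submodule.mem_span_singleton.1 hw
      obtain ⟨c, hc⟩ := h b
      rw [map_smul, hc]
      exact Submodule.smul_mem _ _ (Submodule.smul_mem _ _ (Submodule.mem_span_singleton_self _))⟩

theorem NdOn.exists_pair (hB : Symp B) (hA : NdOn B A) (h : finrank F A = 2) :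
    ∃ x y, B x y ≠ 0 ∧ A = Submodule.span F {x, y} := by
  obtain ⟨x, hx, hx0⟩ := exists_ne_zero_of_finrank (K := A) (by omega)
  obtain ⟨y, hy, h1⟩ := hA x hx hx0
  exact ⟨x, y, h1, (Submodule.eq_of_le_of_finrank_eq (pair_le hx hy)
    (by rw [finrank_pair hB h1, h])).symm⟩

theorem PO.pr (hB : Symp B) (h : PO 2 B f) (h2 : (2 : F) ≠ 0) : ∃ s, Pr B f s ⊤ := by
  rcases h.two hB with h1 | h1
  · obtain ⟨n, a, -⟩ := os_pos hB h.is h2 h1 (ni_top hB)
    refine ⟨false, (a.mono (Pc' := fun _ W => Pr B f false W) ?_).pr hB fun _ _ h => h⟩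
    rintro - - W k1 ⟨k2, c, -, k3⟩
    obtain ⟨x, y, -, rfl⟩ := k1.nd.exists_pair hB k2
    refine pr_pair hB false (fun b => if b then x else y) ?_
    rintro (_ | _)
    exacts [⟨c, k3 y (right_mem_pair _ _)⟩, ⟨c, k3 x (left_mem_pair _ _)⟩]
  · obtain ⟨n, a, -⟩ := os_neg hB h.is h2 h1 (ni_top hB)
    refine ⟨true, a.pr hB ?_⟩
    rintro - W ⟨-, v, -, rfl⟩
    refine pr_pair hB true (fun b => if b then v else f v) ?_
    rintro (_ | _)
    exacts [⟨-1, by simp [h1]⟩, ⟨1, by simp⟩]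

theorem Ti.two_mul_le (hB : Symp B) {U : Submodule F V} (h : Ti B U) :
    2 * finrank F U ≤ finrank F V := by
  simpa using (ni_top (f := 1) hB).nd.two_mul_le hB le_top h

theorem finrank_pair_ti (hB : Symp B) {U W : Submodule F V} (h : U ⊔ W = ⊤) (h1 : Ti B U)
    (h2 : Ti B W) : IsCompl U W ∧ 2 * finrank F U = finrank F V ∧ 2 * finrank F W = finrank F V := by
  have a := h1.two_mul_le hB
  have b := h2.two_mul_le hB
  have c := Submodule.finrank_sup_add_finrank_inf_eq U W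
  rw [h, finrank_top] at c
  exact ⟨⟨disjoint_iff.2 (Submodule.finrank_eq_zero.1 (by omega)), codisjoint_iff.2 h⟩, by omega,
    by omega⟩

theorem Pr.top (hB : Symp B) (hf : Function.Injective f) {s : Bool} (h : Pr B f s ⊤) :
    ∃ U W : Submodule F V, IsCompl U W ∧ Ti B U ∧ Ti B W ∧
      ((U.map f = U ∧ W.map f = W) ∨ (U.map f = W ∧ W.map f = U)) := by
  obtain ⟨D, h1, h2, h3⟩ := h
  obtain ⟨k1, k2, k3⟩ := finrank_pair_ti hB h1 (h2 _) (h2 _)
  have : ∀ b, (D b).map f = D (xor s b) := fun b => Submodule.eq_of_le_of_finrank_eq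
    (by rintro _ ⟨w, hw, rfl⟩; exact h3 b w hw) (by
      rw [← (Submodule.equivMapOfInjective f hf _).finrank_eq]
      have : ∀ b, 2 * finrank F (D b) = finrank F V := by rintro (_ | _) <;> assumption
      have a := this b
      have b := this (xor s b)
      omega)
  refine ⟨_, _, k1, h2 _, h2 _, ?_⟩
  cases s
  exacts [Or.inl ⟨this _, this _⟩, Or.inr ⟨this _, this _⟩]

theorem exists_hyp_equiv (hB : Symp B) (U₀ : Type u) [AddCommGroup U₀] [Module F U₀]
    [FiniteDimensional F U₀] (hd : 2 * finrank F U₀ = finrank F V) {U W : Submodule F V}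
    (h : IsCompl U W) (h1 : Ti B U) (h2 : Ti B W) : ∃ e : (U₀ × Dual F U₀) ≃ₗ[F] V,
      (∀ x y, B (e x) (e y) = hypF F U₀ x y) ∧ (∀ v, v ∈ U ↔ (e.symm v).2 = 0) ∧
      ∀ v, v ∈ W ↔ (e.symm v).1 = 0 := by
  obtain ⟨-, k2, k3⟩ := finrank_pair_ti hB h.sup_eq_top h1 h2
  let α := LinearEquiv.ofFinrankEq U₀ U (show finrank F U₀ = finrank F U by omega)
  let ψ : W →ₗ[F] Dual F U₀ := (B.compl₁₂ (U.subtype ∘ₗ α.toLinearMap) W.subtype).flip
  have hψ : Function.Injective ψ := by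
    rw [injective_iff_map_eq_zero]
    intro w hw
    refine Subtype.ext (hB.nd _ fun x => ?_)
    obtain ⟨a, ha, b, hb, rfl⟩ := Submodule.mem_sup.1 (h.sup_eq_top ▸ Submodule.mem_top (x := x))
    have := LinearMap.congr_fun hw (α.symm ⟨a, ha⟩)
    simp [ψ] at this
    simp [this, h2 b hb w w.2]
  let ψ' := LinearMap.linearEquivOfInjective ψ hψ (by rw [Subspace.dual_finrank_eq]; omega)
  have h3 : ∀ u φ, B (α u) (ψ'.symm φ) = φ u := fun u φ =>
    LinearMap.congr_fun (ψ'.apply_symm_apply φ) u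
  refine ⟨(α.prodCongr ψ'.symm).trans (Submodule.prodEquivOfIsCompl U W h), fun x y => ?_,
    fun v => by simp, fun v => by simp⟩
  simp [hypF_apply, h1 _ (α _).2 _ (α _).2, h2 _ (ψ'.symm _).2 _ (ψ'.symm _).2, h3, sub_eq_add_neg]
  rw [hB.skew, h3]

/-- the Levi factor -/
noncomputable def levi {U₀ : Type u} [AddCommGroup U₀] [Module F U₀]
    (e : (U₀ × Dual F U₀) ≃ₗ[F] V) : (U₀ ≃ₗ[F] U₀) →* (V ≃ₗ[F] V) :=
  MonoidHom.mk' (fun g => (e.symm.trans (g.prodCongr g.symm.dualMap)).trans e) fun g h =>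
    LinearEquiv.ext fun v => by simp; rfl

theorem qP_sq (a n : ℕ) : qP (a ^ 2) n = qP a n * ∏ j ∈ Finset.range n, (a ^ (j + 1) + 1) := by
  rw [qP, qP, ← Finset.prod_mul_distrib]
  refine Finset.prod_congr rfl fun j _ => ?_
  rw [← pow_mul, mul_comm 2, pow_mul, mul_comm, ← Nat.sq_sub_sq, one_pow]

variable {r : ℕ} [hr : Fact r.Prime]

local notation "q" => Fintype.card F
local notation "ord" => orderOf ((Fintype.card F : ℕ) : ZMod r)

theorem exists_of_dvd_pairs (hB : Symp B) (h0 : (r : F) ≠ 0) {d : ℕ} (hd : finrank F V = 2 * d)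
    (hd0 : 0 < d) (h : r ∣ Nat.card {P : Submodule F V × Submodule F V //
      IsCompl P.1 P.2 ∧ Ti B P.1 ∧ Ti B P.2} / 2) : ∃ j, 0 < j ∧ j ≤ d ∧ r ∣ q ^ j + 1 := by
  have := finite_linearEquiv (F := F) (V := V)
  have : Finite V := Module.finite_of_finite F
  let Ω := {P : Submodule F V × Submodule F V // IsCompl P.1 P.2 ∧ Ti B P.1 ∧ Ti B P.2}
  have h1 : 2 ∣ Nat.card Ω := by
    classical
    have := Fintype.ofFinite Ω
    let τ : Ω → Ω := fun P => ⟨P.1.swap, P.2.1.symm, P.2.2.2, P.2.2.1⟩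
    have h2 := Equiv.Perm.card_fixedPoints_modEq (p := 2) (n := 1) (f := τ) (funext fun _ => rfl)
    rw [(Fintype.card_eq_zero_iff (α := Function.fixedPoints τ)).2 ⟨fun P => ?_⟩] at h2
    · rw [Nat.card_eq_fintype_card]; exact (Nat.modEq_zero_iff_dvd).1 h2
    · have h3 : P.1.1.2 = P.1.1.1 := congrArg (fun P : Ω => P.1.1) P.2
      obtain ⟨k1, k2, k3⟩ := finrank_pair_ti hB P.1.2.1.sup_eq_top P.1.2.2.1 P.1.2.2.2
      rw [h3] at k1
      rw [disjoint_self.1 k1.disjoint, finrank_bot] at k2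
      omega
  have hU : 2 * finrank F (Fin d → F) = finrank F V := by simp [hd]
  obtain ⟨n, k1, -⟩ := (ni_top (f := 1) hB).nd.os_planes hB
  obtain ⟨U, W, a1, a2, a3, -⟩ := ((k1.mono (Pc' := fun _ W => Pr B 1 false W) (by
    rintro - - W k1 k2
    obtain ⟨x, y, -, rfl⟩ := k1.nd.exists_pair hB k2
    exact pr_pair hB false (fun b => if b then x else y) fun b => ⟨1, by simp⟩)).pr hB
      fun _ _ h => h).top hB fun _ _ h => h
  obtain ⟨e, b1, b2, b3⟩ := exists_hyp_equiv hB _ hU a1 a2 a3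
  have c := finrank_pair_ti hB a1.sup_eq_top a2 a3
  have h2 := card_mul_dvd (Sp B) (fun P : Submodule F V × Submodule F V =>
    IsCompl P.1 P.2 ∧ Ti B P.1 ∧ Ti B P.2) (U, W) (fun P => ⟨fun hP => by
      obtain ⟨e', c1, c2, c3⟩ := exists_hyp_equiv hB _ hU hP.1 hP.2.1 hP.2.2
      have c' := finrank_pair_ti hB hP.1.sup_eq_top hP.2.1 hP.2.2
      exact ⟨e.symm.trans e', fun u v => by simp [c1, ← b1], Prod.ext
        (smul_eq_of (fun u hu => by simpa [c2, b2] using hu) (by dsimp only; omega))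
        (smul_eq_of (fun u hu => by simpa [c3, b3] using hu) (by dsimp only; omega))⟩, by
      rintro ⟨g, hg, rfl⟩
      exact ⟨(Submodule.orderIsoMapComap g).isCompl a1, ti_smul hg a2, ti_smul hg a3⟩⟩)
    (levi e).range (by
      rintro _ ⟨g, rfl⟩ u v
      simp [levi, b1, hypF_apply]
      rw [← hypF_apply, ← b1]; simp) (by
      rintro _ ⟨g, rfl⟩
      exact Prod.ext (smul_eq_of (fun u hu => by simpa [levi, b2] using hu) rfl)
        (smul_eq_of (fun u hu => by simpa [levi, b3] using hu) rfl))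
  rw [← Nat.card_congr (MonoidHom.ofInjective (f := levi e) (by
    rw [injective_iff_map_eq_one]
    intro g hg
    ext1 u
    simpa [levi] using congrArg (fun x => (e.symm x).1) (LinearEquiv.congr_fun hg (e (u, 0))))).toEquiv,
    card_equiv, card_Sp hB hd, qP_sq, finrank_fin_fun, ← mul_assoc, mul_comm (qP q d), ← mul_assoc]
    at h2
  obtain ⟨j, h3, h4⟩ := (Prime.dvd_finsetProd_iff hr.out.prime _).1 ((hr.out.dvd_mul.1
    (((h.trans (Nat.div_dvd_of_dvd h1)).mul_right _).trans (Nat.dvd_of_mul_dvd_mul_right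
      (qP_pos Fintype.one_lt_card d) h2))).resolve_left
      fun h2 => not_dvd_card h0 (hr.out.dvd_of_dvd_pow h2))
  rw [Finset.mem_range] at h3
  exact ⟨j + 1, by omega, by omega, h4⟩

theorem even_of_dvd_add_one (hr2 : r ≠ 2) {j : ℕ} (h : r ∣ q ^ j + 1) : Even ord ∧ ord ∣ 2 * j := by
  have h1 : (q : ZMod r) ^ j = -1 := by
    rw [← ZMod.natCast_eq_zero_iff] at h
    exact eq_neg_of_add_eq_zero_left (by simpa using h)
  have h2 : ord ∣ 2 * j := orderOf_dvd_of_pow_eq_one (by rw [mul_comm, pow_mul, h1]; simp)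
  refine ⟨Nat.not_odd_iff_even.1 fun h3 => ?_, h2⟩
  have : Fact (2 < r) := ⟨by have := hr.out.two_le; omega⟩
  exact ZMod.neg_one_ne_one (h1.symm.trans (orderOf_dvd_iff_pow_eq_one.1
    ((Nat.coprime_two_right.2 h3).dvd_of_dvd_mul_left h2)))

theorem exists_single (hB : Symp B) (h0 : (r : F) ≠ 0) (hr2 : r ≠ 2) (he : Even ord)
    (hn : ord ≤ finrank F V) : ∃ f π, SS r B f ∧ PO r B f ∧ Spl r f (finrank F V - ord) {π} := by
  obtain ⟨π, c1, c2, c3⟩ := exists_cyc_factor (F := F) (r := r)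
  obtain ⟨d, hd⟩ := (ni_top (f := 1) hB).nd.even hB
  obtain ⟨i, hi⟩ := he
  rw [finrank_top] at hd
  obtain ⟨f, h1, h2⟩ := exists_spl_sp hB h0 hr2 (sm_irr h0 hr2 ⟨i, hi⟩ c1 c2 c3)
    (by simpa using ⟨c2, c3⟩) (e := d - i) (by simp; omega)
  have := ord_pos h0
  exact ⟨f, π, h1, h1.po (by rw [Spl.fx_top h2 h0]; omega), by convert h2; omega⟩

theorem exists_not_pair (hB : Symp B) (h0 : (r : F) ≠ 0) (hr2 : r ≠ 2) (he : Even ord)
    (hn : ord ≤ finrank F V) : ∃ f, PO r B f ∧ ¬ ∃ U W : Submodule F V, IsCompl U W ∧ Ti B U ∧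
      Ti B W ∧ ((U.map f = U ∧ W.map f = W) ∨ (U.map f = W ∧ W.map f = U)) := by
  classical
  obtain ⟨f, π, h1, h2, h3⟩ := exists_single hB h0 hr2 he hn
  refine ⟨f, h2, fun ⟨U, W, k1, k2, k3, k4⟩ => ?_⟩
  obtain ⟨-, a1, -⟩ := finrank_pair_ti hB k1.sup_eq_top k2 k3
  have := ord_pos h0
  rcases k4 with ⟨k4, -⟩ | ⟨k4, k5⟩
  · have a2 := h1.card_le he (nodup_singleton π) (π₀ := π) (u := 0) (by simpa using h3) k2
      (map_le_iff.1 k4.le)
    have a3 := h1.fx_ti k2
    rw [Spl.fx_top h3 h0] at a3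
    omega
  · obtain ⟨k, hk⟩ := hr.out.odd_of_ne_two hr2
    have a2 : Iv (f ^ 2) W := fun w hw => k4.le ⟨_, k5.le ⟨w, hw, rfl⟩, rfl⟩
    have a3 : U ≤ W := fun u hu => by
      have := a2.pow k _ (k4.le ⟨u, hu, rfl⟩)
      rwa [← pow_mul, ← End.mul_apply, ← pow_succ, ← hk, h1.pow] at this
    rw [k1.disjoint.eq_bot_of_le a3, finrank_bot] at a1
    omega

end Cfsg.Agent.H9.Sp
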