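import Cfsg.Agent.H9.Sp.Re5

/-! Unipotent isometries. -/

set_option autoImplicit false
set_option linter.unusedSimpArgs false
set_option linter.unusedSectionVars false
set_option linter.unusedVariables false

universe u

namespace Cfsg.Agent.H9.Sp

open Module Cfsg.Agent.H6 Cfsg.Agent.H6.El Polynomial
open Multiset hiding map_add map_zero le_iff_exists_add

attribute [-simp] LinearEquiv.coe_inv Submodule.mem_map_equiv

variable {F : Type u} [Field F] [Fintype F] {V : Type u} [AddCommGroup V] [Module F V]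
  [FiniteDimensional F V]
variable {B : V →ₗ[F] V →ₗ[F] F} {f : End F V} {A A' S : Submodule F V}

/-- the span of the first images of `S` -/
def gen (N : End F V) (S : Submodule F V) : ℕ → Submodule F V
  | 0 => ⊥
  | j + 1 => S ⊔ (gen N S j).map N

theorem gen_le {N : End F V} (hA : Iv N A) (hS : S ≤ A) (j : ℕ) : gen N S j ≤ A := by
  induction j with
  | zero => exact bot_le
  | succ j ih => exact sup_le hS ((Submodule.map_mono ih).trans (map_le_iff.2 hA))

theorem finrank_gen (N : End F V) (S : Submodule F V) (j : ℕ) :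
    finrank F (gen N S j) ≤ j * finrank F S := by
  induction j with
  | zero => exact (finrank_bot F V).trans_le (Nat.zero_le _)
  | succ j ih =>
    have h1 := Submodule.finrank_add_le_finrank_add_finrank S ((gen N S j).map N)
    have h2 := Submodule.finrank_map_le N (gen N S j)
    rw [add_mul]
    change finrank F ↥(S ⊔ _) ≤ _
    omega

theorem gen_succ_le (N : End F V) (S : Submodule F V) (j : ℕ) :
    gen N S (j + 1) ≤ gen N S j ⊔ S.map (N ^ j) := by
  induction j with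
  | zero => simp [gen, End.one_eq_id]
  | succ j ih =>
    refine sup_le (le_sup_left.trans le_sup_left) ((Submodule.map_mono ih).trans ?_)
    rw [Submodule.map_sup, ← Submodule.map_comp, ← End.mul_eq_comp, ← pow_succ']
    exact sup_le_sup_right le_sup_right _

theorem iv_gen {N : End F V} {k : ℕ} (h : ∀ s ∈ S, (N ^ k) s = 0) : Iv N (gen N S k) :=
  map_le_iff.1 (le_sup_right.trans ((gen_succ_le N S k).trans (sup_le le_rfl (by
    rintro _ ⟨s, hs, rfl⟩; rw [h s hs]; exact zero_mem _))))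

theorem iv_sub_one : Iv (f - 1) A ↔ Iv f A :=
  ⟨fun h w hw => by simpa using add_mem (h w hw) hw, fun h w hw => sub_mem (h w hw) hw⟩

theorem ni_gen (hB : Symp B) (hf : Is B f) (hA : Iv f A) (hS : S ≤ A) {k : ℕ}
    (h0 : ∀ v ∈ A, ((f - 1) ^ (k + 1)) v = 0)
    (h1 : ∀ s ∈ S, s ≠ 0 → ∃ t ∈ S, B (((f - 1) ^ k) s) t ≠ 0) :
    NI B f (gen (f - 1) S (k + 1)) := by
  have h2 := iv_sub_one.1 (iv_gen fun s hs => h0 s (hS hs))
  have key : ∀ j i, i + j = k + 1 → ∀ w ∈ gen (f - 1) S j, ((f - 1) ^ i) w ≠ 0 →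
      ((f - 1) ^ i) w ∉ perp B (gen (f - 1) S (k + 1)) := by
    intro j
    induction j with
    | zero => intro i _ w hw h; simp [show w = 0 from hw] at h
    | succ j ih =>
      intro i hi w hw h
      obtain ⟨s, hs, _, ⟨w, hw', rfl⟩, rfl⟩ := Submodule.mem_sup.1 hw
      by_cases h3 : s = 0
      · subst h3
        rw [zero_add, ← End.mul_apply, ← pow_succ] at h ⊢
        exact ih _ (by omega) w hw' h
      intro h4
      obtain ⟨t, ht, h5⟩ := h1 s hs h3
      have h6 := (iv_sub_one.2 (hf.pi hB _ h2)).pow j _ h4 t (Submodule.mem_sup_left ht)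
      rw [← End.mul_apply, ← pow_add, show j + i = k by omega, map_add, ← End.mul_apply,
        ← pow_succ, h0 w (gen_le (iv_sub_one.2 hA) hS j hw'), add_zero] at h6
      exact h5 (hB.comm.1 h6)
  refine ⟨fun w hw h => ?_, h2⟩
  by_contra! h3
  exact key (k + 1) 0 (by simp) w hw h fun x hx => hB.comm.1 (h3 x hx)

theorem aeval_unip (f : End F V) (k : ℕ) : aeval f ((X - C (1 : F)) ^ k) = (f - 1) ^ k := by simp

theorem eq_replicate_of {μ : Multiset ℕ} {k s : ℕ} (h1 : ∀ a ∈ μ, 0 < a) (h2 : ∀ a ∈ μ, a ≤ k + 1)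
    (h3 : μ.sum ≤ (k + 1) * s) (h4 : (μ.map (min k)).sum + s ≤ μ.sum) : μ = replicate s (k + 1) := by
  have h5 : μ.sum ≤ (μ.map (min k)).sum + μ.count (k + 1) := by
    clear * - h2
    induction μ using Multiset.induction_on with
    | empty => simp
    | cons b s ih =>
      have := ih fun c hc => h2 c (mem_cons_of_mem hc)
      have := h2 b (mem_cons_self _ _)
      simp only [map_cons, sum_cons, count_cons]
      split_ifs <;> omega
  obtain ⟨ν, rfl⟩ := Multiset.le_iff_exists_add.1 (le_count_iff_replicate_le.1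
    (show s ≤ μ.count (k + 1) by omega))
  rw [eq_zero_of_forall_notMem (s := ν) fun a ha => by
    have := h1 a (mem_add.2 (Or.inr ha))
    have := single_le_sum (fun _ _ => Nat.zero_le _) a ha
    simp [mul_comm] at h3
    omega, add_zero]

theorem jd_gen (hA : Iv f A) (hS : S ≤ A) {k : ℕ} (h0 : ∀ v ∈ A, ((f - 1) ^ (k + 1)) v = 0)
    (h1 : ∀ s ∈ S, ((f - 1) ^ k) s = 0 → s = 0) (h2 : Iv f (gen (f - 1) S (k + 1))) :
    Jd (f.restrict h2) 1 (replicate (finrank F S) (k + 1)) := by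
  have h3 : aeval (f.restrict h2) ((X - C (1 : F)) ^ (k + 1)) = 0 := LinearMap.ext fun w =>
    Subtype.ext (by rw [aeval_restrict, aeval_unip]; exact h0 _ (gen_le (iv_sub_one.2 hA) hS _ w.2))
  obtain ⟨μ, h4⟩ := exists_jd h3
  rwa [eq_replicate_of (s := finrank F S) h4.pos (h4.aeval_iff.1 h3)
    (h4.finrank ▸ finrank_gen _ _ _) (by
      rw [← h4.finrank_ker, ← h4.finrank, kd_restrict, aeval_unip, kd, ← finrank_sup_disj
        (Submodule.disjoint_def.2 fun x hx hx' => h1 x hx' (Submodule.mem_inf.1 hx).2)]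
      exact Submodule.finrank_mono (sup_le inf_le_left le_sup_left))] at h4

theorem adj_unip (hf : Is B f) (hA : Iv f A) {k : ℕ} (h0 : ∀ v ∈ A, ((f - 1) ^ (k + 1)) v = 0)
    {u v : V} (hu : u ∈ A) : B (((f - 1) ^ k) u) v = (-1) ^ k * B u (((f - 1) ^ k) v) := by
  have h1 : ∀ x y, B ((f - 1) x) (f y) = -B x ((f - 1) y) := fun x y => by simp [hf x y]
  have h2 : ∀ j u v, B (((f - 1) ^ j) u) ((f ^ j) v) = (-1) ^ j * B u (((f - 1) ^ j) v) := by
    intro j
    induction j with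
    | zero => simp
    | succ j ih =>
      intro u v
      have : (f - 1) ((f ^ j) v) = (f ^ j) ((f - 1) v) := by
        simp [← End.mul_apply, ← pow_succ, ← pow_succ']
      rw [pow_succ' (f - 1), pow_succ' f, End.mul_apply, End.mul_apply, h1, this, ih,
        ← End.mul_apply, ← pow_succ, ← pow_succ']
      ring
  rw [← h2]
  suffices ∀ i, B (((f - 1) ^ k) u) v = B (((f - 1) ^ k) u) ((f ^ i) v) from this k
  intro i
  induction i with
  | zero => rfl
  | succ i ih =>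
    have := h1 (((f - 1) ^ k) u) ((f ^ i) v)
    rw [← End.mul_apply, ← pow_succ', h0 u hu] at this
    simp only [map_zero, LinearMap.zero_apply, zero_eq_neg, LinearMap.sub_apply, map_sub,
      End.one_apply, sub_eq_zero] at this
    rw [pow_succ' f, End.mul_apply, this, ih]

/-- the Jordan type of an indecomposable piece -/
def jv (k : ℕ) : Multiset ℕ := replicate (if Even k then 1 else 2) k

/-- indecomposable unipotent pieces -/
def PcJ (f : End F V) (p k : ℕ) (W : Submodule F V) : Prop :=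
  0 < k ∧ k ≤ p ∧ ∃ h : Iv f W, Jd (f.restrict h) 1 (jv k)

theorem exists_pcJ (hB : Symp B) (hf : Is B f) (h2 : (2 : F) ≠ 0) (hA : NI B f A) {k p : ℕ}
    (hk : k < p) (h0 : ∀ v ∈ A, ((f - 1) ^ (k + 1)) v = 0) {u : V} (hu : u ∈ A)
    (h1 : ((f - 1) ^ k) u ≠ 0) : ∃ W ≤ A, W ≠ ⊥ ∧ NI B f W ∧ PcJ f p (k + 1) W := by
  obtain ⟨v, hv, h3⟩ := hA.nd _ ((iv_sub_one.2 hA.iv).pow k u hu) h1
  have h4 : ∀ x ∈ A, ∀ y, B (((f - 1) ^ k) x) y = (-1) ^ (k + 1) * B (((f - 1) ^ k) y) x :=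
    fun x hx y => by rw [adj_unip hf hA.iv h0 hx, hB.skew x]; ring
  obtain ⟨S, k1, k2, k3⟩ : ∃ S ≤ A, finrank F S = (if Even (k + 1) then 1 else 2) ∧
      ∀ s ∈ S, s ≠ 0 → ∃ t ∈ S, B (((f - 1) ^ k) s) t ≠ 0 := by
    split_ifs with he
    · obtain ⟨w, hw, h5⟩ : ∃ w ∈ A, B (((f - 1) ^ k) w) w ≠ 0 := by
        by_contra! h5
        have := h5 _ (add_mem hu hv)
        simp only [map_add, LinearMap.add_apply, h5 u hu, h5 v hv, h4 v hv u, he.neg_one_pow] at this
        exact h3 (mul_left_cancel₀ h2 (by linear_combination this))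
      refine ⟨_, (Submodule.span_singleton_le_iff_mem _ _).2 hw,
        finrank_span_singleton (by rintro rfl; simp at h5), fun s hs h => ?_⟩
      obtain ⟨c, rfl⟩ := Submodule.mem_span_singleton.1 hs
      exact ⟨w, Submodule.mem_span_singleton_self _, by
        simpa [h5] using (smul_ne_zero_iff.1 h).1⟩
    rw [Nat.not_even_iff_odd] at he
    have h5 : ∀ x ∈ A, B (((f - 1) ^ k) x) x = 0 := fun x hx => mul_left_cancel₀ h2 (by
      have := h4 x hx x
      rw [he.neg_one_pow] at this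
      linear_combination this)
    refine ⟨_, pair_le hu hv, ?_, fun s hs h => ?_⟩
    · rw [Submodule.span_insert, Submodule.finrank_sup_span_singleton,
        finrank_span_singleton (by rintro rfl; simp at h3)]
      intro h
      obtain ⟨c, rfl⟩ := Submodule.mem_span_singleton.1 h
      simp [h5 u hu] at h3
    · obtain ⟨a, b, rfl⟩ := Submodule.mem_span_pair.1 hs
      by_cases ha : a = 0
      · refine ⟨u, left_mem_pair _ _, ?_⟩
        simpa [ha, h4 v hv u, h3] using show b ≠ 0 by rintro rfl; simp [ha] at h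
      · exact ⟨v, right_mem_pair _ _, by simp [h5 v hv, ha, h3]⟩
  have k4 := ni_gen hB hf hA.iv k1 h0 k3
  refine ⟨_, gen_le (iv_sub_one.2 hA.iv) k1 _, fun h => ?_, k4, by omega, hk, k4.iv,
    jv.eq_1 _ ▸ k2 ▸ jd_gen hA.iv k1 h0 (fun s hs h => by
      by_contra h5
      obtain ⟨t, -, h6⟩ := k3 s hs h5
      simp [h] at h6) k4.iv⟩
  rw [eq_bot_iff.2 (le_sup_left.trans h.le : S ≤ ⊥), finrank_bot] at k2
  split_ifs at k2

theorem os_unip (hB : Symp B) (hf : Is B f) (h2 : (2 : F) ≠ 0) (hA : NI B f A) {p : ℕ}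
    (h0 : (f - 1) ^ p = 0) : ∃ l, OS B f (PcJ f p) l A := by
  classical
  refine OS.exists hB (hf.pi hB) hA fun A' _ h1 h3 => ?_
  have hex : ∃ k : ℕ, ∀ v ∈ A', ((f - 1) ^ k) v = 0 := ⟨p, by simp [h0]⟩
  have h4 := Nat.find_spec hex
  have h5 := Nat.find_min' hex (m := p) (by simp [h0])
  rcases h6 : Nat.find hex with _ | k
  · exact absurd ((Submodule.eq_bot_iff _).2 (by simpa [h6] using h4)) h3
  have h7 := Nat.find_min hex (m := k) (by omega)
  push Not at h7
  obtain ⟨u, hu, h7⟩ := h7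
  exact ⟨_, exists_pcJ hB hf h2 h1 (by omega) (h6 ▸ h4) hu h7⟩

theorem count_bind_jv (l : Multiset ℕ) (a : ℕ) :
    count a (l.bind jv) = (if Even a then 1 else 2) * count a l := by
  induction l using Multiset.induction_on with
  | empty => simp
  | cons b l ih =>
    rw [cons_bind, count_add, ih, count_cons, jv, count_replicate]
    by_cases h : a = b
    · simp [h, mul_add, add_comm]
    · simp [h, Ne.symm h]

theorem exists_bind_jv {μ : Multiset ℕ} (h : ∀ a, Odd a → Even (μ.count a)) :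
    ∃ l : Multiset ℕ, l.bind jv = μ := by
  refine ⟨∑ a ∈ μ.toFinset, replicate (μ.count a / if Even a then 1 else 2) a, ext.2 fun a => ?_⟩
  rw [count_bind_jv, count_sum', Finset.sum_eq_single a (fun b _ hb => by simp [count_replicate, hb])
    (fun ha => by simp [count_eq_zero_of_notMem (by simpa using ha : a ∉ μ)]), count_replicate_self]
  split_ifs with he
  · simp
  · exact Nat.mul_div_cancel' (h a (Nat.not_even_iff_odd.1 he)).two_dvd

theorem le_of_bind_jv {l l' : Multiset ℕ} (h : l.bind jv ≤ l'.bind jv) : l ≤ l' :=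
  le_iff_count.2 fun a => by
    have := le_iff_count.1 h a
    rw [count_bind_jv, count_bind_jv] at this
    split_ifs at this <;> omega

theorem mem_of_mem_bind_jv {l : Multiset ℕ} {a : ℕ} (h : a ∈ l.bind jv) : a ∈ l := by
  obtain ⟨b, h1, h2⟩ := mem_bind.1 h
  exact eq_of_mem_replicate h2 ▸ h1

theorem sum_map_bind (l : Multiset ℕ) (g : ℕ → ℕ) :
    (l.map fun k => ((jv k).map g).sum).sum = ((l.bind jv).map g).sum := by
  rw [map_bind, sum_bind]

theorem OS.finrank_jv (hB : Symp B) {p : ℕ} {l : Multiset ℕ} (h : OS B f (PcJ f p) l A) :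
    Module.finrank F A = (l.bind jv).sum := by
  rw [h.finrank hB (fun k => (jv k).sum) fun k _ W _ ⟨_, _, _, h⟩ => h.finrank, sum_bind]

theorem OS.kd_jv (hB : Symp B) {p : ℕ} {l : Multiset ℕ} (h : OS B f (PcJ f p) l A) (M : ℕ) :
    Sp.kd (aeval f ((X - C (1 : F)) ^ M)) A = ((l.bind jv).map (min M)).sum := by
  rw [h.kd hB _ (fun k => ((jv k).map (min M)).sum) fun k _ W _ ⟨_, h1, h2, h⟩ => by
    rw [← kd_restrict h2, h.finrank_ker], sum_map_bind]

theorem OS.mem {α : Type} {Pc : α → Submodule F V → Prop} {l : Multiset α} (hB : Symp B)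
    (h : OS B f Pc l A) {a : α} (ha : a ∈ l) : ∃ W, NI B f W ∧ Pc a W := by
  obtain ⟨l, rfl⟩ := exists_cons_of_mem ha
  obtain ⟨W, -, h1, h2, -⟩ := h.inv hB
  exact ⟨W, h1, h2⟩

theorem OS.eq_jv (hB : Symp B) {p : ℕ} {l μ : Multiset ℕ} (h : OS B f (PcJ f p) l ⊤)
    (h' : Jd f 1 μ) : l.bind jv = μ := by
  ext k
  rcases k with _ | k
  · rw [count_eq_zero.2 fun h1 => by
      obtain ⟨W, -, h2, -⟩ := h.mem hB (mem_of_mem_bind_jv h1); omega,
      count_eq_zero.2 fun h1 => by simpa using h'.pos _ h1]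
  · have h1 := sum_min_succ (l.bind jv) k
    have h2 := sum_min_succ μ k
    simp only [← h.kd_jv hB, kd_top] at h1
    simp only [← h'.finrank_ker] at h2
    omega

variable {p : ℕ} [hp : Fact p.Prime] [CharP F p]

theorem unip_iff : (f - 1) ^ p = 0 ↔ f ^ p = 1 := by
  rw [← aeval_unip, X_sub_C_pow_char, aeval_X_pow_sub_C, one_pow, one_smul, sub_eq_zero]

theorem two_ne_zero_of_char (h : p ≠ 2) : (2 : F) ≠ 0 := by
  exact_mod_cast cast_ne_zero_of_ne (F := F) (r := 2) h.symm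

theorem sm_jv (h2 : p ≠ 2) {k : ℕ} (h0 : 0 < k) (hk : k ≤ p) :
    SM ((jv k).map fun k => (X - C (1 : F)) ^ k) := by
  obtain ⟨k, rfl⟩ := Nat.exists_eq_succ_of_ne_zero h0.ne'
  obtain ⟨g, hg⟩ := exists_jd_model (V := Fin (k + 1) → F) (m := {k + 1}) (1 : F) (by simp) (by simp)
  have h1 := (hg.aeval_iff (N := k + 1)).2 (by simp)
  have h3 : g ^ p = 1 := unip_iff.1 (aeval_unip g p ▸ hg.aeval_iff.2 (by simpa using hk))
  have h4 : g ^ (p - 1) * g = 1 := by rw [← pow_succ, Nat.sub_add_cancel hp.out.one_le, h3]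
  obtain ⟨u, hu⟩ : ∃ u, aeval g ((X - C (1 : F)) ^ k) u ≠ 0 := by
    by_contra! h
    simpa using hg.aeval_iff.1 (LinearMap.ext h)
  obtain ⟨W, -, -, k1, -, -, k2, k3⟩ := exists_pcJ (symp_hypF F _) (is_hyp h4)
    (two_ne_zero_of_char h2) (ni_top (symp_hypF F _)) (k := k) (p := p) hk (fun v _ => by
      rw [← aeval_unip, aeval_prodMap, aeval_dualMap, h1, ← expand_aeval]
      obtain ⟨Q, hQ⟩ : (X - C 1 : F[X]) ^ (k + 1) ∣ expand F (p - 1) ((X - C 1) ^ (k + 1)) := by
        rw [map_pow]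
        exact pow_dvd_pow_of_dvd (by simpa using sub_dvd_pow_sub_pow (X : F[X]) 1 (p - 1)) _
      rw [hQ, map_mul, h1, zero_mul]
      ext <;> simp) (u := (u, 0)) trivial (by
      rw [← aeval_unip, aeval_prodMap]
      exact fun h => hu (congrArg Prod.fst h))
  exact sm_restrict (symp_hypF F _) (is_hyp h4) k1 k3.ty

theorem exists_unip (hB : Symp B) (h2 : p ≠ 2) {μ : Multiset ℕ} (h1 : ∀ a ∈ μ, 0 < a ∧ a ≤ p)
    (h3 : ∀ a, Odd a → Even (μ.count a)) (h4 : μ.sum = finrank F V) :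
    ∃ f, Is B f ∧ Jd f 1 μ ∧ f ^ p = 1 := by
  obtain ⟨l, rfl⟩ := exists_bind_jv h3
  obtain ⟨f, k1, k2⟩ := SM.transport (μ := (l.bind jv).map fun k => (X - C (1 : F)) ^ k) (by
    rw [map_bind]
    refine SM.bind fun a ha => ?_
    have := h1 a (mem_bind.2 ⟨a, ha, by simp [jv]; split_ifs <;> simp⟩)
    exact sm_jv h2 this.1 this.2) hB (by rw [sum_natDegree_jd, h4])
  have k3 : Jd f 1 _ := ⟨k2, fun a ha => (h1 a ha).1⟩
  exact ⟨f, k1, k3, unip_iff.1 (aeval_unip f p ▸ k3.aeval_iff.2 fun a ha => (h1 a ha).2)⟩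

theorem even_count_jv (l : Multiset ℕ) (a : ℕ) (ha : Odd a) : Even ((l.bind jv).count a) := by
  simp [count_bind_jv, Nat.not_even_iff_odd.2 ha]

theorem nd_char_iff (hB : Symp B) (h2 : p ≠ 2) {m : ℕ} (hm : 2 * m ≤ finrank F V) :
    (∀ f, PO p B f → ∃ W, NI B f W ∧ finrank F W = 2 * m) ↔
    ∀ μ : Multiset ℕ, (∀ a ∈ μ, 0 < a ∧ a ≤ p) → (∀ a, Odd a → Even (μ.count a)) →
      μ.sum = finrank F V → ∃ ν ≤ μ, ν.sum = 2 * m ∧ ∀ a, Odd a → Even (ν.count a) := by
  have h0 := two_ne_zero_of_char (F := F) h2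
  refine ⟨fun H μ h1 h3 h4 => ?_, fun H f hf => ?_⟩
  · obtain ⟨f, k1, k2, k3⟩ := exists_unip hB h2 h1 h3 h4
    obtain ⟨W, a1, a2⟩ : ∃ W, NI B f W ∧ finrank F W = 2 * m := by
      by_cases h5 : f = 1
      · subst h5
        obtain ⟨n, b1, b2⟩ := (ni_top (f := 1) hB).nd.os_planes hB
        obtain ⟨W, -, b3⟩ := b1.sub_unit hB (fun _ h => h) (m := m) (by simp at b2; omega)
        exact ⟨W, b3⟩
      · exact H f (po_of_odd hB k1 (hp.out.odd_of_ne_two h2) k3 h5)
    obtain ⟨l, b1⟩ := os_unip hB k1 h0 a1 (unip_iff.2 k3)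
    obtain ⟨l', b2⟩ := os_unip hB k1 h0 (a1.compl hB (k1.pi hB) (ni_top hB) le_top) (unip_iff.2 k3)
    have b3 := ((b1.add hB b2 inf_le_right).congr rfl (a1.nd.sup_inf_perp hB le_top)).eq_jv hB k2
    exact ⟨l.bind jv, by rw [← b3, add_bind]; exact le_add_right _ _,
      by rw [← b1.finrank_jv hB, a2], even_count_jv l⟩
  obtain ⟨y, k1, k2, -, k3⟩ := hf.odd hB (hp.out.odd_of_ne_two h2)
  obtain ⟨l, b1⟩ := os_unip hB k1 h0 (ni_top hB) (unip_iff.2 k2)
  obtain ⟨ν, a1, a2, a3⟩ := H (l.bind jv) (fun a ha => by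
    obtain ⟨W, -, h2, h3, -⟩ := b1.mem hB (mem_of_mem_bind_jv ha)
    exact ⟨h2, h3⟩) (even_count_jv l) (by rw [← b1.finrank_jv hB, finrank_top])
  obtain ⟨l', rfl⟩ := exists_bind_jv a3
  obtain ⟨W, -, b2⟩ := b1.sub hB (le_of_bind_jv a1)
  exact ⟨W, ⟨(b2.ni hB).nd, (iv_pm k3).2 (b2.ni hB).iv⟩, by rw [b2.finrank_jv hB, a2]⟩

theorem exists_swap (hB : Symp B) {e : ℕ} (hn : finrank F V = 4 * e) : ∃ f, Is B f ∧
    (∀ v, f (f v) = v) ∧ (∀ v, B v (f v) = 0) ∧ fx f ⊤ = 2 * e := by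
  have h0 := (symp_B0 e F).oplus (symp_B0 e F)
  obtain ⟨E, hE⟩ := h0.exists_equiv hB (by rw [finrank_prod, finrank_V]; omega)
  let g := (LinearEquiv.prodComm F (Fin e ⊕ Fin e → F) (Fin e ⊕ Fin e → F)).toLinearMap
  refine ⟨E.conj g, is_conj hE fun u v => add_comm _ _, fun v => by simp [g], fun v => ?_, ?_⟩
  · obtain ⟨v, rfl⟩ := E.surjective v
    rw [LinearEquiv.conj_apply_apply, hE, E.symm_apply_apply, oplus_apply,
      (symp_B0 e F).skew v.2]
    exact add_neg_cancel _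
  · rw [fx, kd_top, ← ((sim_conj E g).aeval _).finrank_ker, ← finrank_V (F := F),
      ← LinearMap.finrank_range_of_inj (M := Fin e ⊕ Fin e → F)
        (f := LinearMap.id.prod LinearMap.id)
        fun _ _ h => congrArg Prod.fst h]
    refine congrArg (fun K : Submodule F ((Fin e ⊕ Fin e → F) × (Fin e ⊕ Fin e → F)) =>
      finrank F K) (Submodule.ext fun v => ?_)
    rw [mem_fix, one_smul]
    exact ⟨fun h => ⟨v.1, Prod.ext rfl (congrArg Prod.snd h :)⟩, by rintro ⟨w, rfl⟩; rfl⟩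

theorem Sw.fx (hB : Symp B) {k : ℕ} (h : Sw B f k A) (hf : ∀ v, f (f v) = v) : k ≤ fx f A := by
  obtain ⟨P, Q, h1, h2, h3, rfl, -, h4, -, rfl⟩ := h
  refine LinearMap.finrank_le_finrank_of_injective (f := LinearMap.codRestrict _
    ((1 + f) ∘ₗ P.subtype) fun w => ⟨Submodule.add_mem_sup w.2 (h4 _ w.2),
      mem_fix.2 (by simp [hf, add_comm])⟩) ?_
  rw [injective_iff_map_eq_zero]
  intro w hw
  have : w.1 + f w = 0 := congrArg Subtype.val hw
  exact Subtype.ext (Submodule.disjoint_def.1 (h1.disj hB h3) _ w.2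
    (eq_neg_of_add_eq_zero_left this ▸ neg_mem (h4 _ w.2)))

theorem OS.fx_swap (hB : Symp B) {e s : ℕ}
    (h : OS B f (PcT B f) (replicate e false + replicate s true) A) (h1 : ∀ v, f (f v) = v)
    (h2 : ∀ v, B v (f v) = 0) : 2 * e + 2 * s ≤ fx f A := by
  simpa [mul_comm] using h.ind hB (fun n A => n ≤ fx f A) (fun _ => 2) (Nat.zero_le _)
    (fun b b' W A h1 h2 h3 h4 h5 => by
      rw [fx, kd_sup (h1.nd.disj hB h3) (h1.iv.aeval _) (h2.iv.aeval _)]
      exact add_le_add h4 h5) (by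
    rintro (_ | _) - W - h
    · exact (h.1.symm.trans (kd_of_le fun w hw => mem_fix.2 (by
        simp [h.2.resolve_left (by simp [h2]) w hw])).symm).le
    · exact Sw.fx hB h h1)

theorem nd_two_iff [CharP F 2] (hB : Symp B) {d m : ℕ} (hd : finrank F V = 2 * d) (hm : 2 * m < d) :
    (∀ f, PO 2 B f → ∃ W, NI B f W ∧ finrank F W = 2 * m) ↔ Odd d ∨ Even m := by
  refine ⟨fun H => or_iff_not_imp_left.2 fun h => ?_, fun H f hf => ?_⟩
  · obtain ⟨e, rfl⟩ := Nat.not_odd_iff_even.1 h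
    obtain ⟨f, h1, h2, h3, h4⟩ := exists_swap hB (e := e) (by omega)
    obtain ⟨W, a1, a2⟩ := H f ⟨h1, ⟨1, by ext; simp [pow_two, h2]⟩, fun c hc => by
      have : Nontrivial V := finrank_pos_iff.1 (show 0 < finrank F V by omega)
      have h5 : c = 1 := (Is.scalar hB (hc ▸ h1)).elim id fun h => by rw [h, CharTwo.neg_eq]
      rw [fx, kd_of_le fun w _ => mem_fix.2 (by simp [hc, h5]), finrank_top] at h4
      omega⟩
    obtain ⟨e₁, s₁, b1⟩ := os_char_two hB h1 h2 a1
    obtain ⟨e₂, s₂, b2⟩ := os_char_two hB h1 h2 (a1.compl hB (h1.pi hB) (ni_top hB) le_top)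
    have b3 := (b1.add hB b2 inf_le_right).congr (by
      rw [add_add_add_comm, ← replicate_add, ← replicate_add]) (a1.nd.sup_inf_perp hB le_top)
    have c1 := b1.finrank_bool hB (fun _ h => h.1) fun _ h => Sw.finrank hB h
    have c2 := b3.finrank_bool hB (fun _ h => h.1) fun _ h => Sw.finrank hB h
    have c3 := b3.fx_swap hB h2 h3
    rw [finrank_top] at c2
    exact ⟨s₁, by omega⟩
  obtain ⟨e, s, b1⟩ := os_char_two hB hf.is (hf.sq_two hB) (ni_top hB)
  have c1 := b1.finrank_bool hB (fun _ h => h.1) fun _ h => Sw.finrank hB h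
  rw [finrank_top] at c1
  rw [Nat.odd_iff, Nat.even_iff] at H
  obtain ⟨W, a1, a2⟩ := b1.sub_bool hB (fun _ h => h.1) (fun _ h => Sw.finrank hB h)
    (e' := m - 2 * min s (m / 2)) (s' := min s (m / 2)) (by omega) (by omega)
  exact ⟨W, a1, by omega⟩

end Cfsg.Agent.H9.Sp
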