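import Cfsg.Agent.H9.Sp.Re6
import Cfsg.Agent.H9.Sp.Re7

/-! Elements of prime order fixing cosets; quadratic forms in characteristic two. -/

set_option autoImplicit false
set_option linter.unusedSimpArgs false
set_option linter.unusedSectionVars false
set_option linter.unusedVariables false

universe u

namespace Cfsg.Agent.H9.Sp

open Module Cfsg.Agent.H6 Cfsg.Agent.H6.El Polynomial
open Multiset hiding map_add map_zero le_iff_exists_add

attribute [-simp] LinearEquiv.coe_inv Submodule.mem_map_equiv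

theorem relIndex_eq_card {G X : Type*} [Group G] [MulAction G X] (K H : Subgroup G) (x₀ : X)
    (h : ∀ g ∈ K, g ∈ H ↔ g • x₀ = x₀) : H.relIndex K = {x | ∃ g ∈ K, g • x₀ = x}.ncard := by
  rw [Subgroup.relIndex, show H.subgroupOf K = MulAction.stabilizer K x₀ from
    Subgroup.ext fun g => h g g.2, MulAction.index_stabilizer]
  exact congrArg _ (Set.ext fun x => ⟨fun ⟨g, e⟩ => ⟨g, g.2, e⟩, fun ⟨g, hg, e⟩ => ⟨⟨g, hg⟩, e⟩⟩)

theorem not_conj_of_unique {G : Type*} [Group G] [Finite G] {K H : Subgroup G} {y : G} {r : ℕ}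
    [hr : Fact r.Prime] (hy : y ∈ K) (h1 : y ^ r = 1) (h2 : r ∣ H.relIndex K)
    (h3 : ∀ g ∈ K, ∀ g' ∈ K, g⁻¹ * y * g ∈ H → g'⁻¹ * y * g' ∈ H → g⁻¹ * g' ∈ H) :
    ¬ ∃ g ∈ K, g⁻¹ * y * g ∈ H := by
  classical
  rintro ⟨g, hg, h4⟩
  have := Fintype.ofFinite (K ⧸ H.subgroupOf K)
  let τ : Function.End (K ⧸ H.subgroupOf K) := MulAction.toEndHom (⟨y, hy⟩ : K)
  have h5 := Equiv.Perm.card_fixedPoints_modEq (p := r) (n := 1) (f := τ) (by
    rw [pow_one, ← map_pow, show (⟨y, hy⟩ : K) ^ r = 1 from Subtype.ext h1, map_one])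
  have h6 : ∀ k : K, τ (k : K ⧸ H.subgroupOf K) = k ↔ k.1⁻¹ * y * k ∈ H := fun k => by
    rw [eq_comm]
    exact QuotientGroup.eq.trans (by rw [mul_assoc]; rfl)
  rw [Fintype.card_eq_nat_card, Fintype.card_eq_nat_card, (Nat.card_eq_one_iff_exists
    (α := Function.fixedPoints τ)).2 ⟨⟨_, (h6 ⟨g, hg⟩).2 h4⟩, by
    rintro ⟨x, hx⟩
    obtain ⟨k, rfl⟩ := QuotientGroup.mk_surjective x
    exact Subtype.ext (QuotientGroup.eq.2 (h3 _ k.2 _ hg ((h6 k).1 hx) h4))⟩] at h5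
  exact hr.out.one_lt.ne' (Nat.dvd_one.1 ((h5.dvd_iff dvd_rfl).1 h2))

variable {F : Type u} [Field F] [Fintype F] {V : Type u} [AddCommGroup V] [Module F V]
  [FiniteDimensional F V]
variable {B : V →ₗ[F] V →ₗ[F] F} {f : End F V} {r : ℕ}

/-- every element of order `r` is conjugate into `H` -/
def EL (r : ℕ) (B : V →ₗ[F] V →ₗ[F] F) (H : Subgroup (V ≃ₗ[F] V)) : Prop :=
  ∀ x : V ≃ₗ[F] V, PO r B x → ∃ g ∈ Sp B, g⁻¹ * x * g ∈ H

theorem el_iff {d : ℕ} {H : Subgroup (GL (Fin d ⊕ Fin d) F)}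
    {H' : Subgroup ((Fin d ⊕ Fin d → F) ≃ₗ[F] (Fin d ⊕ Fin d → F))}
    (h : ∀ g ∈ spGL d F, g ∈ H ↔ gl0 g ∈ H') :
    ((∀ x ∈ spGL d F, (∃ z : F, ((x ^ r : GL (Fin d ⊕ Fin d) F) : Matrix (Fin d ⊕ Fin d) (Fin d ⊕ Fin d) F) = z • (1 : Matrix (Fin d ⊕ Fin d) (Fin d ⊕ Fin d) F)) →
      (∀ z : F, (x : Matrix (Fin d ⊕ Fin d) (Fin d ⊕ Fin d) F) ≠ z • (1 : Matrix (Fin d ⊕ Fin d) (Fin d ⊕ Fin d) F)) →
      ∃ g ∈ spGL d F, g⁻¹ * x * g ∈ H) ↔ EL r (B0 d F) H') ∧
    H.relIndex (spGL d F) = H'.relIndex (Sp (B0 d F)) := by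
  constructor
  · rw [forall_spGL_iff, EL, gl0.surjective.forall]
    refine forall₂_congr fun x hx => ?_
    rw [gl0.surjective.exists]
    refine exists_congr fun g => and_congr_right fun hg => ?_
    rw [h _ (mul_mem (mul_mem (inv_mem hg) hx.is) hg), map_mul, map_mul, map_inv]
  · have h1 : (spGL d F).map gl0.toMonoidHom = Sp (B0 d F) := by
      ext g
      obtain ⟨g, rfl⟩ := gl0.surjective g
      exact Subgroup.mem_map_iff_mem gl0.injective
    rw [← h1, ← Subgroup.relIndex_comap, Subgroup.relIndex, Subgroup.relIndex]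
    exact congrArg _ (Subgroup.ext fun g => h g g.2)

theorem is_of_mem {g : V ≃ₗ[F] V} (hg : g ∈ Sp B) : Is B g := hg

theorem equiv_pow_eq_one {g : V ≃ₗ[F] V} (h : (g : End F V) ^ r = 1) : g ^ r = 1 :=
  LinearEquiv.toLinearMap_injective ((map_pow LinearEquiv.automorphismGroup.toLinearMapMonoidHom g r).trans h)

theorem PO.exists_equiv (hB : Symp B) (h : PO r B f) : ∃ x : V ≃ₗ[F] V, x ∈ Sp B ∧ (x : End F V) = f :=
  ⟨mkSp hB f h.is, h.is, rfl⟩

section Two

variable [CharP F 2] {Q Q' : V → F}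

variable (F) in
/-- the Artin-Schreier subgroup -/
def wp : AddSubgroup F :=
  (AddMonoidHom.mk' (fun a : F => a ^ 2 + a) fun a b => by rw [CharTwo.add_sq]; ring).range

theorem index_wp : (wp F).index = 2 := by
  let φ := AddMonoidHom.mk' (fun a : F => a ^ 2 + a) fun a b => by rw [CharTwo.add_sq]; ring
  have h1 : Nat.card φ.ker = 2 := by
    rw [← Set.ncard_pair (zero_ne_one' F), ← Nat.card_coe_set_eq]
    refine Nat.card_congr (Equiv.subtypeEquivRight fun a => ?_)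
    change a ^ 2 + a = 0 ↔ a = 0 ∨ a = 1
    rw [← CharTwo.sub_eq_add, show a ^ 2 - a = a * (a - 1) by ring, mul_eq_zero, sub_eq_zero]
  have h2 := φ.ker.card_mul_index
  rw [h1, AddSubgroup.index_ker, ← φ.range.card_mul_index, mul_comm] at h2
  exact (Nat.eq_of_mul_eq_mul_left Nat.card_pos h2).symm

open Classical in
/-- the sign character -/
noncomputable def ψ (a : F) : ℤ := if a ∈ wp F then 1 else -1

theorem ψ_add (a b : F) : ψ (a + b) = ψ a * ψ b := by
  have := AddSubgroup.add_mem_iff_of_index_two index_wp (a := a) (b := b)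
  by_cases ha : a ∈ wp F <;> by_cases hb : b ∈ wp F <;> simp [ψ, this, ha, hb]

theorem ψ_of_mem {a : F} (h : a ∈ wp F) : ψ a = 1 := if_pos h

theorem ψ_of_not_mem {a : F} (h : a ∉ wp F) : ψ a = -1 := if_neg h

theorem ψ_sq (a : F) : ψ (a ^ 2) = ψ a := by
  rw [show a ^ 2 = a ^ 2 + a + a by rw [add_assoc, CharTwo.add_self_eq_zero, add_zero], ψ_add,
    ψ_of_mem (a := a ^ 2 + a) ⟨a, rfl⟩, one_mul]

theorem ψ_mul_self (a : F) : ψ a * ψ a = 1 := by
  rw [← ψ_add, CharTwo.add_self_eq_zero, ψ_of_mem (zero_mem _)]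

theorem exists_not_mem_wp : ∃ a : F, a ∉ wp F := by
  by_contra! h
  simpa [(AddSubgroup.eq_top_iff' _).2 h] using index_wp (F := F)

theorem exists_sq (a : F) : ∃ b, a = b ^ 2 := by
  obtain ⟨b, hb⟩ := surjective_frobenius F 2 a
  exact ⟨b, hb.symm⟩

open Classical in
theorem sum_ψ [Fintype V] (U : Submodule F V) (φ : Dual F V) {w : V} (hw : w ∈ U) (h : φ w ≠ 0) :
    ∑ u with u ∈ U, ψ (φ u) = 0 := by
  obtain ⟨a, ha⟩ := exists_not_mem_wp (F := F)
  have h1 := U.smul_mem (a / φ w) hw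
  have := Finset.sum_equiv (Equiv.addRight ((a / φ w) • w)) (s := {u | u ∈ U}) (t := {u | u ∈ U})
    (f := fun u => -ψ (φ u)) (g := fun u => ψ (φ u)) (by simp [U.add_mem_iff_left h1])
    fun u _ => by simp [h, ψ_add, ψ_of_not_mem ha]
  rw [Finset.sum_neg_distrib] at this
  omega

theorem QF.sum_sq [Fintype V] (hB : Symp B) (hQ : QF B Q) :
    (∑ v, ψ (Q v)) ^ 2 = Fintype.card V := by
  classical
  rw [pow_two, Finset.sum_mul_sum, Finset.sum_congr rfl fun v _ =>
    (Equiv.sum_comp (Equiv.addLeft v) _).symm, Finset.sum_comm, Finset.sum_eq_single 0 (fun w _ hw => ?_)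
    (by simp)]
  · simp [ψ_mul_self]
  obtain ⟨x, hx⟩ := hB.exists_ne hw
  have := sum_ψ ⊤ (B.flip w) (w := x) trivial (hB.ne_comm hx)
  simp only [Equiv.coe_addLeft, hQ.add, ψ_add, ← mul_assoc, ψ_mul_self, one_mul, ← Finset.mul_sum]
  simpa using Or.inr this

theorem QF.sum_shift [Fintype V] (hQ : QF B Q) (u : V) :
    ∑ v, ψ (Q v + B v u ^ 2) = ψ (Q u) * ∑ v, ψ (Q v) := by
  rw [← Equiv.sum_comp (Equiv.addRight u) fun v => ψ (Q v), Finset.mul_sum]
  refine Finset.sum_congr rfl fun v _ => ?_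
  simp only [Equiv.coe_addRight, hQ.add, ψ_add, ψ_sq]
  linear_combination (-ψ (Q v) * ψ (B v u)) * ψ_mul_self (Q u)

theorem QF.ti (hQ : QF B Q) {U : Submodule F V} (h : ∀ u ∈ U, Q u = 0) : Ti B U := fun u hu v hv => by
  simpa [h u hu, h v hv, h _ (add_mem hu hv)] using (hQ.add u v).symm

theorem QF.sum_pos [Fintype V] (hB : Symp B) (hQ : QF B Q) {U : Submodule F V}
    (h : ∀ u ∈ U, Q u = 0) (hU : 2 * finrank F U = finrank F V) : 0 < ∑ v, ψ (Q v) := by
  classical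
  have h1 : U = perp B U := Submodule.eq_of_le_of_finrank_eq (fun u hu v hv => hQ.ti h v hv u hu)
    (by have := hB.finrank_perp U; omega)
  have h2 : ∑ u with u ∈ U, ∑ v, ψ (Q v) = ∑ u with u ∈ U, ∑ v with v ∈ U, 1 := by
    rw [Finset.sum_congr rfl fun u _ => (Equiv.sum_comp (Equiv.addRight u) _).symm, Finset.sum_comm,
      ← Finset.sum_filter_of_ne (p := (· ∈ U)) fun v _ hv => ?_]
    · refine Finset.sum_congr rfl fun v hv => Finset.sum_congr rfl fun u hu => ?_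
      rw [Finset.mem_filter_univ] at hu hv
      exact ψ_of_mem (by simp [h _ (add_mem hv hu)])
    by_contra h3
    rw [h1] at h3
    obtain ⟨w, h3⟩ := not_forall.1 h3
    obtain ⟨hw, h3⟩ := Classical.not_imp.1 h3
    refine hv ?_
    rw [← mul_zero (ψ (Q v)), ← sum_ψ U (B v) hw (hB.ne_comm h3), Finset.mul_sum]
    refine Finset.sum_congr rfl fun u hu => ?_
    rw [Finset.mem_filter_univ] at hu
    simp [hQ.add, h u hu, ψ_add]
  have h3 : 0 < Finset.card ({u | u ∈ U} : Finset V) := Finset.card_pos.2 ⟨0, by simp⟩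
  simp only [Finset.sum_const, nsmul_eq_mul, mul_one] at h2
  rw [mul_left_cancel₀ (by exact_mod_cast h3.ne') h2]
  exact_mod_cast h3

theorem QF.shift (hQ : QF B Q) (u : V) : QF B fun v => Q v + B v u ^ 2 :=
  ⟨fun c v => by simp [hQ.smul]; ring, fun v w => by simp [hQ.add, CharTwo.add_sq]; ring⟩

theorem QF.comp (hQ : QF B Q) (hf : Is B f) : QF B fun v => Q (f v) :=
  ⟨fun c v => by simp [hQ.smul], fun v w => by simp [hQ.add, hf v w]⟩

theorem QF.exists_shift (hB : Symp B) (hQ : QF B Q) (hQ' : QF B Q') :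
    ∃ u, ∀ v, Q' v = Q v + B v u ^ 2 := by
  choose φ hφ using fun v => exists_sq (Q' v - Q v)
  have h := (frobenius_inj F 2)
  obtain ⟨u, hu⟩ := hB.exists_dual
    { toFun := φ
      map_add' := fun v w => h (by
        simp only [frobenius_def, CharTwo.add_sq, ← hφ, hQ.add, hQ'.add]; ring)
      map_smul' := fun c v => h (by
        simp only [frobenius_def, mul_pow, ← hφ, hQ.smul, hQ'.smul, RingHom.id_apply, smul_eq_mul]
        ring) }
  exact ⟨u, fun v => by rw [hu]; exact eq_add_of_sub_eq' (hφ v)⟩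

theorem shift_inj (hB : Symp B) {u u' : V} (h : ∀ v, B v u ^ 2 = B v u' ^ 2) : u = u' :=
  hB.ext fun v => frobenius_inj F 2 (h v)

theorem QF.mem_orbit (hB : Symp B) (hQ : QF B Q) (u : V) :
    (∃ g ∈ Sp B, ∀ v, Q (g v) = Q v + B v u ^ 2) ↔ Q u ∈ wp F := by
  have : Finite V := Module.finite_of_finite F
  have := Fintype.ofFinite V
  refine ⟨fun ⟨g, hg, h⟩ => ?_, fun ⟨a, ha⟩ => ?_⟩
  · have h1 := hQ.sum_shift u
    simp only [← h] at h1
    replace h1 := (Equiv.sum_comp g.toEquiv fun v => ψ (Q v)).symm.trans h1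
    have h2 := hQ.sum_sq hB
    by_contra h3
    rw [ψ_of_not_mem h3] at h1
    rw [show ∑ v, ψ (Q v) = 0 by omega] at h2
    exact Fintype.card_ne_zero (α := V) (by exact_mod_cast h2.symm)
  have h2 := CharTwo.two_eq_zero (R := F)
  replace ha : a ^ 2 + a = Q u := ha
  obtain ⟨c, hc⟩ : ∃ c, c + c ^ 2 * Q u = 1 := by
    by_cases h : Q u = 0
    · exact ⟨1, by simp [h]⟩
    · exact ⟨a / Q u, by field_simp; linear_combination ha⟩
  refine ⟨_, tvE_mem hB u c, fun v => ?_⟩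
  simp only [tvE_apply, hQ.add, hQ.smul, map_smul, smul_eq_mul]
  linear_combination B v u ^ 2 * hc

theorem QF.relIndex (hB : Symp B) (hQ : QF B Q) :
    (OQ Q).relIndex (Sp B) = {u | Q u ∈ wp F}.ncard := by
  let _ : MulAction (V ≃ₗ[F] V) (V → F) := arrowAction
  rw [relIndex_eq_card (Sp B) (OQ Q) Q fun g _ => (inv_mem_iff.symm.trans funext_iff.symm),
    ← Set.ncard_image_of_injective _ (f := fun u v => Q v + B v u ^ 2) fun u u' h =>
      shift_inj hB fun v => add_left_cancel (congrFun h v)]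
  congr 1
  ext Q'
  constructor
  · rintro ⟨g, hg, rfl⟩
    obtain ⟨u, hu⟩ := hQ.exists_shift hB (hQ.comp (is_of_mem (inv_mem hg)))
    exact ⟨u, (hQ.mem_orbit hB u).1 ⟨_, inv_mem hg, hu⟩, funext fun v => (hu v).symm⟩
  · rintro ⟨u, hu, rfl⟩
    obtain ⟨g, hg, h⟩ := (hQ.mem_orbit hB u).2 hu
    exact ⟨g⁻¹, inv_mem hg, funext h⟩

theorem QF.dvd_of_relIndex [hr : Fact r.Prime] (hB : Symp B) (hQ : QF B Q) (hr' : (r : F) ≠ 0)
    (h : r ∣ (OQ Q).relIndex (Sp B)) : r ∣ Fintype.card F ^ finrank F V - 1 := by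
  classical
  have : Finite V := Module.finite_of_finite F
  have := Fintype.ofFinite V
  have h1 := hQ.sum_sq hB
  rw [hQ.relIndex hB, Set.ncard_eq_toFinset_card', Set.toFinset_ofPred] at h
  have h2 := Finset.card_filter_add_card_filter_not (s := Finset.univ) fun u => Q u ∈ wp F
  simp only [ψ, Finset.sum_ite, Finset.sum_const, nsmul_eq_mul] at h1
  rw [Finset.card_univ] at h2
  obtain ⟨c, hc⟩ := h
  rw [← Module.card_eq_pow_finrank]
  refine (hr.out.dvd_mul.1 (?_ : r ∣ Fintype.card V * _)).resolve_left fun h3 =>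
    not_dvd_card hr' (hr.out.dvd_of_dvd_pow (Module.card_eq_pow_finrank (K := F) (V := V) ▸ h3))
  rw [← Int.natCast_dvd_natCast, Nat.cast_mul, Nat.cast_pred Fintype.card_pos]
  rw [hc] at h1 h2
  generalize Finset.card _ = N at h1 h2
  generalize Fintype.card V = M at h1 h2
  subst h2
  push_cast at h1 ⊢
  exact ⟨4 * c * N, by linear_combination h1⟩

theorem QF.not_el [hr : Fact r.Prime] (hB : Symp B) (hQ : QF B Q) (hr2 : r ≠ 2) [Nontrivial V]
    (h : r ∣ (OQ Q).relIndex (Sp B)) : ¬ EL r B (OQ Q) := fun H => by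
  have := finite_linearEquiv (F := F) (V := V)
  have hr' := cast_ne_zero_of_ne (F := F) hr2
  have h1 := hQ.dvd_of_relIndex hB hr' h
  obtain ⟨d, hd⟩ := ((ni_top (f := 1) hB).nd.even hB).two_dvd
  rw [finrank_top] at hd
  obtain ⟨s, hs⟩ := cv_dvd_of (hd ▸ h1)
  obtain ⟨f, k1, k2⟩ := exists_ss hB hr' hr2 (e := 0) (s := s) (by omega)
  have k3 := k1.po (k2 ▸ finrank_pos)
  obtain ⟨x, hx, rfl⟩ := k3.exists_equiv hB
  refine not_conj_of_unique hx (equiv_pow_eq_one k1.pow) h (fun g hg g' hg' a1 a2 v => ?_) (H x k3)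
  have b : ∀ g : V ≃ₗ[F] V, g⁻¹ * x * g ∈ OQ Q → ∀ v, Q (g⁻¹ (x v)) = Q (g⁻¹ v) :=
    fun g h v => by simpa using h (g⁻¹ v)
  obtain ⟨u, hu⟩ := (hQ.comp (is_of_mem (inv_mem hg))).exists_shift hB
    (hQ.comp (is_of_mem (inv_mem hg')))
  simp only [LinearEquiv.coe_coe] at hu
  obtain rfl : u = 0 := eq_zero_of_fx k2 trivial (shift_inj hB fun v => by
    obtain ⟨v, rfl⟩ := x.surjective v
    have := hu (x v)
    rw [b g a1, b g' a2, hu, add_right_inj] at this
    exact (congrArg (· ^ 2) (hx v u)).trans this)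
  simpa using (hu (g' v)).symm

theorem range_eq_perp (hB : Symp B) (hf : Is B f) :
    LinearMap.range (f - 1) = perp B (LinearMap.ker (f - 1)) := by
  refine Submodule.eq_of_le_of_finrank_eq ?_ (by
    have := hB.finrank_perp (LinearMap.ker (f - 1))
    have := (f - 1).finrank_range_add_finrank_ker
    omega)
  rintro _ ⟨v, rfl⟩ k hk
  have : f k = k := by simpa [sub_eq_zero] using hk
  simp [show B k (f v) = B k v by rw [← hf k v, this]]

theorem fx_top_eq (f : End F V) : fx f ⊤ = finrank F (LinearMap.ker (f - 1)) := by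
  rw [fx, kd_top, aeval_X_sub_C, one_smul]

theorem QF.el_two_iff (hB : Symp B) (hQ : QF B Q) {d : ℕ} (hd : finrank F V = 2 * d) (h0 : 0 < d) :
    EL 2 B (OQ Q) ↔ (∃ U : Submodule F V, (∀ u ∈ U, Q u = 0) ∧ 2 * finrank F U = finrank F V) ∨
      Odd d := by
  have h2 := CharTwo.two_eq_zero (R := F)
  refine ⟨fun H => or_iff_not_imp_right.2 fun h => ?_, fun H x hx => ?_⟩
  · obtain ⟨e, rfl⟩ := Nat.not_odd_iff_even.1 h
    obtain ⟨f, h1, h2, h3, h4⟩ := exists_swap hB (e := e) (by omega)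
    obtain ⟨x, hx, rfl⟩ : ∃ x : V ≃ₗ[F] V, x ∈ Sp B ∧ (x : End F V) = f := ⟨mkSp hB f h1, h1, rfl⟩
    obtain ⟨g, hg, h5⟩ := H x ⟨h1, ⟨1, by ext; simpa [pow_two] using h2 _⟩, fun c hc => by
      have : Nontrivial V := finrank_pos_iff.1 (show 0 < finrank F V by omega)
      have h5 : c = 1 := (Is.scalar hB (hc ▸ h1)).elim id fun h => by rw [h, CharTwo.neg_eq]
      rw [fx, kd_of_le fun w _ => mem_fix.2 (by simp [hc, h5]), finrank_top] at h4
      omega⟩
    refine ⟨(LinearMap.range ((x : End F V) - 1)).map (g⁻¹).toLinearMap, ?_, ?_⟩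
    · rintro _ ⟨_, ⟨v, rfl⟩, rfl⟩
      have h6 : Q (g⁻¹ (x v)) = Q (g⁻¹ v) := by simpa using h5 (g⁻¹ v)
      change Q (g⁻¹ (x v - v)) = 0
      rw [sub_eq_add_neg, ← neg_one_smul F v, CharTwo.neg_eq, one_smul, map_add, hQ.add, h6,
        inv_mem hg, CharTwo.add_self_eq_zero, zero_add]
      exact hB.comm.1 (h3 v)
    · have := ((x : End F V) - 1).finrank_range_add_finrank_ker
      rw [LinearEquiv.finrank_map_eq, ← fx_top_eq] at *
      omega
  have h1 := hx.sq_two hB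
  obtain ⟨u₀, k1⟩ := hQ.exists_shift hB (hQ.comp hx.is)
  obtain ⟨u, hu⟩ : u₀ ∈ LinearMap.range ((x : End F V) - 1) := range_eq_perp hB hx.is ▸
    fun k hk => by
      have : (x : End F V) k = k := by simpa [sub_eq_zero] using hk
      simpa [this] using k1 k
  have key : ∀ w, (x : End F V) w = w → ∀ v, Q ((x : End F V) v) + B ((x : End F V) v) (u + w) ^ 2 =
      Q v + B v (u + w) ^ 2 := fun w hw v => by
    rw [k1, ← hu, ← hx.is ((x : End F V) v), h1]
    simp only [map_add, hw, LinearMap.sub_apply, End.one_apply, map_sub, CharTwo.add_sq,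
      CharTwo.sub_eq_add]
    linear_combination B v (x u) ^ 2 * h2
  suffices ∃ w, (x : End F V) w = w ∧ Q (u + w) ∈ wp F by
    obtain ⟨w, a1, a2⟩ := this
    obtain ⟨g, hg, a3⟩ := (hQ.mem_orbit hB _).2 a2
    exact ⟨g⁻¹, inv_mem hg, fun v => by
      simpa using (a3 _).trans ((key w a1 (g⁻¹ v)).trans (a3 _).symm)⟩
  by_contra! h3
  have h4 : Q u ∉ wp F := by simpa using h3 0 (by simp)
  have h5 : ∀ w ∈ LinearMap.ker ((x : End F V) - 1), Q w + B w u ^ 2 = 0 := fun w hw => by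
    by_contra h5
    obtain ⟨c, hc⟩ := exists_sq (Q u / (Q w + B w u ^ 2))
    refine h3 (c • w) (by rw [map_smul]; exact congrArg _ (by simpa [sub_eq_zero] using hw))
      ⟨c * B w u, ?_⟩
    simp only [AddMonoidHom.mk'_apply, hQ.add, hQ.smul, map_smul, smul_eq_mul, hB.skew u w]
    field_simp at hc
    linear_combination hc + (c * B w u + (c * B w u) ^ 2 - Q u) * h2
  have h6 := Ti.two_mul_le hB ((hQ.shift u).ti h5)
  obtain ⟨e, s, b1⟩ := os_char_two hB hx.is h1 (ni_top hB)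
  have b2 := b1.finrank_bool hB (fun _ h => h.1) fun _ h => Sw.finrank hB h
  have b3 := b1.fx_swap hB h1 fun v => by
    have := h5 (v + x v) (by simp [sub_eq_zero, add_comm, show x (x v) = v from h1 v])
    have k := key 0 (by simp) v
    simp only [hQ.add, map_add, LinearMap.add_apply, CharTwo.add_sq, add_zero,
      LinearEquiv.coe_coe] at this k ⊢
    linear_combination this - k - (Q v + B v u ^ 2) * h2
  rw [fx_top_eq] at b3
  rw [finrank_top] at b2
  obtain ⟨U, a1, a2⟩ := H.resolve_right (by rw [Nat.odd_iff]; omega)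
  have : Finite V := Module.finite_of_finite F
  have := Fintype.ofFinite V
  have c1 := hQ.sum_pos hB a1 a2
  have c2 := (hQ.shift u).sum_pos hB h5 (by omega)
  rw [hQ.sum_shift, ψ_of_not_mem h4] at c2
  omega

end Two

end Cfsg.Agent.H9.Sp
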