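import Cfsg.Agent.H9.Sp.Unit

/-! Matrix forms of the maximality of `GL_m.2` and `GU_m.2` in `Sp_2m`. -/

set_option autoImplicit false
set_option linter.unusedSimpArgs false
set_option linter.unusedSectionVars false
set_option linter.unusedVariables false

namespace Cfsg.Agent.H9.Sp

open Module Cfsg.Agent.H6 Matrix

theorem two_ne_zero_of_odd {F : Type*} [Field F] [Fintype F] (h : Odd (Fintype.card F)) :
    (2 : F) ≠ 0 := by
  apply Ring.two_ne_zero
  intro h2
  have := FiniteField.even_card_of_char_two h2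
  rw [Nat.odd_iff] at h; omega

section Core

variable {F : Type*} [Field F] {V : Type*} [AddCommGroup V] [Module F V] [FiniteDimensional F V]
variable {B : V →ₗ[F] V →ₗ[F] F}

theorem exists_swap_ti (hB : Symp B) {A C : Submodule F V} (hA : ∀ u ∈ A, ∀ v ∈ A, B u v = 0)
    (hC : ∀ u ∈ C, ∀ v ∈ C, B u v = 0) (hAC : IsCompl A C) (hd : finrank F A = finrank F C) :
    ∃ σ ∈ Sp B, (∀ x ∈ A, σ x ∈ C) ∧ ∀ x ∈ C, σ x ∈ A := by
  obtain ⟨p, hp1, hp2, hp3⟩ := exists_proj hAC.disjoint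
  have hp4 : ∀ x, x - p x ∈ C := by
    intro x
    have : x ∈ A ⊔ C := by rw [hAC.sup_eq_top]; trivial
    obtain ⟨a, ha, c, hc, rfl⟩ := Submodule.mem_sup.1 this
    simpa [hp1 a ha, hp2 c hc] using hc
  let e : A ≃ₗ[F] C := LinearEquiv.ofFinrankEq _ _ hd
  obtain ⟨α, hα⟩ := LinearMap.exists_extend (C.subtype ∘ₗ (e : A →ₗ[F] C))
  have hα' : ∀ a (ha : a ∈ A), α a = e ⟨a, ha⟩ := fun a ha => LinearMap.congr_fun hα ⟨a, ha⟩
  obtain ⟨g, hg, hgx⟩ := witt hB A α (fun u hu h => by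
    rw [hα' u hu] at h
    simpa using h) (fun u hu v hv => by
      rw [hα' u hu, hα' v hv, hA u hu v hv, hC _ (e _).2 _ (e _).2])
  have hgA : ∀ a ∈ A, g a ∈ C := fun a ha => by rw [hgx a ha, hα' a ha]; exact (e _).2
  have hk : ∀ c ∈ C, ∀ y, B c (p y) = B c y := fun c hc y => by
    have := hC c hc _ (hp4 y)
    rw [map_sub] at this; linear_combination -this
  obtain ⟨σ, hσ, hσx⟩ := exists_Sp hB ((g : V →ₗ[F] V) ∘ₗ p +
    p ∘ₗ (g : V →ₗ[F] V) ∘ₗ (LinearMap.id - p)) (by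
      intro x y
      simp only [LinearMap.add_apply, LinearMap.comp_apply, LinearEquiv.coe_coe,
        LinearMap.sub_apply, LinearMap.id_apply]
      rw [map_add, map_add, LinearMap.add_apply, LinearMap.add_apply, hg, hA _ (hp3 x) _ (hp3 y),
        hk _ (hgA _ (hp3 x)), hB.skew (p _) (g (p y)), hk _ (hgA _ (hp3 y)), hg, hg,
        hA _ (hp3 _) _ (hp3 _)]
      have := hC _ (hp4 x) _ (hp4 y)
      have h2 := hA _ (hp3 x) _ (hp3 y)
      simp only [map_sub, LinearMap.sub_apply, hB.skew (p y) x, hB.skew (p y) (p x)] at this ⊢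
      linear_combination -this - h2)
  refine ⟨σ, hσ, fun x hx => ?_, fun x hx => ?_⟩
  · simpa [hσx, hp1 x hx] using hgA x hx
  · simpa [hσx, hp2 x hx] using hp3 _

theorem ti_core [Finite F] (hB : Symp B) (h2 : (2 : F) ≠ 0) {D : Fin 2 → Submodule F V}
    (hD : ∀ i, ∀ u ∈ D i, ∀ v ∈ D i, B u v = 0) (hc : IsCompl (D 0) (D 1))
    (hd : finrank F (D 0) = finrank F (D 1)) : ∃ J : V →ₗ[F] V, JS B J 1 ∧
      (∀ g, PermD D g ↔ PJ J g) ∧ ∃ σ ∈ Sp B, ∀ x, σ (J x) = -J (σ x) := by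
  obtain ⟨J, h0, h1⟩ := exists_glue hc.disjoint (LinearMap.id : V →ₗ[F] V) (-LinearMap.id)
  simp only [LinearMap.id_apply, LinearMap.neg_apply] at h0 h1
  have dec : ∀ x, ∃ a ∈ D 0, ∃ b ∈ D 1, x = a + b := by
    intro x
    have : x ∈ D 0 ⊔ D 1 := by rw [hc.sup_eq_top]; trivial
    obtain ⟨a, ha, c, hc, rfl⟩ := Submodule.mem_sup.1 this
    exact ⟨a, ha, c, hc, rfl⟩
  have m0 : ∀ x, J x = x → x ∈ D 0 := by
    intro x hx
    obtain ⟨a, ha, b, hb, rfl⟩ := dec x
    rw [map_add, h0 a ha, h1 b hb] at hx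
    have : (2 : F) • b = 0 := by linear_combination (norm := module) -hx
    simpa [(smul_eq_zero.1 this).resolve_left h2] using ha
  have m1 : ∀ x, J x = -x → x ∈ D 1 := by
    intro x hx
    obtain ⟨a, ha, b, hb, rfl⟩ := dec x
    rw [map_add, h0 a ha, h1 b hb] at hx
    have : (2 : F) • a = 0 := by linear_combination (norm := module) hx
    simpa [(smul_eq_zero.1 this).resolve_left h2] using hb
  have c0 : ∀ g : V ≃ₗ[F] V, (∀ x ∈ D 0, g x ∈ D 0) → (∀ x ∈ D 1, g x ∈ D 1) → C0 J g := by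
    intro g k0 k1 x
    obtain ⟨a, ha, b, hb, rfl⟩ := dec x
    simp [h0 a ha, h1 b hb, h0 _ (k0 a ha), h1 _ (k1 b hb)]
  have c1 : ∀ g : V ≃ₗ[F] V, (∀ x ∈ D 0, g x ∈ D 1) → (∀ x ∈ D 1, g x ∈ D 0) →
      ∀ x, g (J x) = -J (g x) := by
    intro g k0 k1 x
    obtain ⟨a, ha, b, hb, rfl⟩ := dec x
    simp [h0 a ha, h1 b hb, h1 _ (k0 a ha), h0 _ (k1 b hb), add_comm]
  have mp : ∀ (g : V ≃ₗ[F] V) i j, (∀ x ∈ D i, g x ∈ D j) → (D i).map (g : V →ₗ[F] V) = D j := by
    intro g i j h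
    apply Submodule.eq_of_le_of_finrank_eq
    · rintro _ ⟨x, hx, rfl⟩; exact h x hx
    · rw [LinearEquiv.finrank_map_eq]
      fin_cases i <;> fin_cases j <;> simp [hd]
  refine ⟨J, ⟨hB, fun x => ?_, one_ne_zero, fun x y => ?_, h2⟩, fun g => ⟨?_, ?_⟩, ?_⟩
  · obtain ⟨a, ha, b, hb, rfl⟩ := dec x
    simp [h0 a ha, h1 b hb]
  · obtain ⟨a, ha, b, hb, rfl⟩ := dec x
    obtain ⟨c, hc, d, hd, rfl⟩ := dec y
    simp [h0 a ha, h1 b hb, h0 c hc, h1 d hd, hD 0 a ha c hc, hD 1 b hb d hd, add_comm]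
  · rintro ⟨σ, hσ⟩
    have k : ∀ i, ∀ x ∈ D i, g x ∈ D (σ i) := fun i x hx => hσ i ▸ ⟨x, hx, rfl⟩
    have hne : σ 0 ≠ σ 1 := σ.injective.ne (by decide)
    have k0 := k 0
    have k1 := k 1
    generalize σ 0 = i at *
    generalize σ 1 = j at *
    fin_cases i <;> fin_cases j
    · exact absurd rfl hne
    · exact Or.inl (c0 g k0 k1)
    · exact Or.inr (c1 g k0 k1)
    · exact absurd rfl hne
  · rintro (h | h)
    · refine ⟨1, fun i => mp g _ _ fun x hx => ?_⟩
      fin_cases i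
      · exact m0 _ (by rw [← h, h0 x hx])
      · exact m1 _ (by rw [← h, h1 x hx, map_neg])
    · refine ⟨Equiv.swap 0 1, fun i => mp g _ _ fun x hx => ?_⟩
      fin_cases i
      · exact m1 _ (by rw [← neg_neg (J _), ← h, h0 x hx])
      · exact m0 _ (by rw [← neg_neg (J _), ← h, h1 x hx, map_neg, neg_neg])
  · obtain ⟨σ, hσ, k0, k1⟩ := exists_swap_ti hB (hD 0) (hD 1) hc hd
    exact ⟨σ, hσ, c1 σ k0 k1⟩

end Core

variable {F : Type*} [Field F] [Fintype F] {m : ℕ}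

theorem ti_maximal (hm : 3 ≤ m) (hodd : Odd (Fintype.card F))
    (D : Fin 2 → Submodule F (Fin m ⊕ Fin m → F)) (hD : Geo.IsMDecomposition m D)
    (hts : ∀ i, Geo.IsTotallySingularFor (sympForm m F) (D i)) :
    Geo.IsMaximalIn (spGL m F) (Geo.decompositionStabilizer D ⊓ spGL m F) := by
  obtain ⟨J, hJ, h1, h2⟩ := ti_core (symp_B0 m F) (two_ne_zero_of_odd hodd) (D := D) hts (by
    constructor
    · exact hD.indep.pairwiseDisjoint (by decide : (0 : Fin 2) ≠ 1)
    · rw [codisjoint_iff, ← hD.iSup_eq_top]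
      apply le_antisymm (sup_le (le_iSup D 0) (le_iSup D 1))
      refine iSup_le fun i => ?_
      fin_cases i
      · exact le_sup_left
      · exact le_sup_right) (by rw [hD.finrank_eq, hD.finrank_eq])
  refine isMaximalIn_transport gl0 _ _ (Sp (B0 m F)) (PJ J) mem_spGL
    (fun g _ => (mem_decompositionStabilizer g).trans (h1 _))
    (hJ.proper (by rw [finrank_V]; omega))
    fun M hM h3 h4 => hJ.core (by rw [finrank_V]; omega) hM h3 (fun _ _ => h2) h4

theorem unitary_maximal (hm : 3 ≤ m) (hodd : Odd (Fintype.card F))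
    (K : Subalgebra F (Matrix (Fin m ⊕ Fin m) (Fin m ⊕ Fin m) F)) (hK : Geo.IsFieldSubalgebra 2 K)
    (hac : Geo.IsAdjointClosedFor (sympForm m F) K)
    (hnsa : ¬ Geo.IsSelfAdjointFor (sympForm m F) K) :
    Geo.IsMaximalIn (spGL m F) (Geo.subalgebraNormalizer K ⊓ spGL m F) := by
  have hB := symp_B0 m F
  have h2 := two_ne_zero_of_odd hodd
  have hn : finrank F (Fin m ⊕ Fin m → F) = 2 * m := finrank_V
  have hext : ∀ A C : Matrix (Fin m ⊕ Fin m) (Fin m ⊕ Fin m) F,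
      (∀ u v, B0 m F u (A *ᵥ v) = B0 m F u (C *ᵥ v)) → A = C := fun A C h =>
    Matrix.toLin'.injective (LinearMap.ext fun v => hB.ext fun u => h u v)
  obtain ⟨j, hjK, hj0, hj⟩ : ∃ j ∈ K, j ≠ 0 ∧ ∀ u v, B0 m F (j *ᵥ u) v = -B0 m F u (j *ᵥ v) := by
    simp only [Geo.IsSelfAdjointFor, not_forall] at hnsa
    obtain ⟨k, hk, u, v, huv⟩ := hnsa
    obtain ⟨k', hk', h⟩ := hac k hk
    have h' : ∀ u v, B0 m F (k *ᵥ u) v = B0 m F u (k' *ᵥ v) := h
    refine ⟨k - k', K.sub_mem hk hk', fun h0 => huv ?_, fun u v => ?_⟩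
    · rw [sub_eq_zero] at h0
      rw [h, h0]
    · simp only [Matrix.sub_mulVec, map_sub, LinearMap.sub_apply, h']
      rw [hB.skew (k' *ᵥ u) v, ← h' v u, hB.skew u (k *ᵥ v)]
      ring
  have anti : ∀ a b : F, (∀ u v, B0 m F ((a • (1 : Matrix _ _ F) + b • j) *ᵥ u) v =
      -B0 m F u ((a • (1 : Matrix _ _ F) + b • j) *ᵥ v)) → a = 0 := by
    intro a b h
    obtain ⟨x, -, hx⟩ := exists_ne_zero_of_finrank (K := (⊤ : Submodule F (Fin m ⊕ Fin m → F)))
      (by rw [finrank_top]; omega)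
    obtain ⟨y, hy⟩ := hB.exists_one hx
    have := h x y
    simp only [Matrix.add_mulVec, Matrix.smul_mulVec, Matrix.one_mulVec, map_add, map_smul,
      LinearMap.add_apply, LinearMap.smul_apply, smul_eq_mul, hj, hy] at this
    apply mul_left_cancel₀ h2; linear_combination this
  have hj1 : j ∉ Submodule.span F {(1 : Matrix (Fin m ⊕ Fin m) (Fin m ⊕ Fin m) F)} := by
    intro h
    obtain ⟨a, ha⟩ := Submodule.mem_span_singleton.1 h
    have := anti a 0 (by simpa [ha] using hj)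
    exact hj0 (by rw [← ha, this, zero_smul])
  have : Nonempty (Fin m ⊕ Fin m) := ⟨.inl ⟨0, by omega⟩⟩
  have hKs : ∀ k, k ∈ K ↔ ∃ a b : F, a • (1 : Matrix _ _ F) + b • j = k := by
    intro k
    have : Submodule.span F {1, j} = Subalgebra.toSubmodule K := by
      apply Submodule.eq_of_le_of_finrank_eq
      · rw [Submodule.span_le]
        rintro x (rfl | rfl)
        · exact K.one_mem
        · exact hjK
      · rw [Submodule.span_insert, Submodule.finrank_sup_span_singleton hj1,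
          finrank_span_singleton one_ne_zero]
        exact hK.finrank_eq.symm
    rw [← Submodule.mem_span_pair, this, Subalgebra.mem_toSubmodule]
  obtain ⟨δ, hδ⟩ : ∃ δ : F, j * j = δ • (1 : Matrix _ _ F) := by
    obtain ⟨a, b, hab⟩ := (hKs _).1 (K.mul_mem hjK hjK)
    refine ⟨a, ?_⟩
    have : (2 * b) • j = 0 := by
      apply hext
      intro u v
      have h1 : B0 m F ((j * j) *ᵥ u) v = B0 m F u ((j * j) *ᵥ v) := by
        rw [← Matrix.mulVec_mulVec, ← Matrix.mulVec_mulVec, hj, hj, neg_neg]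
      rw [← hab] at h1
      simp only [Matrix.add_mulVec, Matrix.smul_mulVec, Matrix.one_mulVec, map_add, map_smul,
        LinearMap.add_apply, LinearMap.smul_apply, smul_eq_mul, hj, Matrix.zero_mulVec,
        map_zero] at h1 ⊢
      linear_combination -h1
    have hb : b = 0 := by simpa [h2, hj0] using this
    rw [← hab, hb, zero_smul, add_zero]
  have hdom : ∀ x ∈ K, ∀ y, x * y = 0 → x = 0 ∨ y = 0 := by
    intro x hx y hxy
    by_cases hx0 : x = 0
    · exact Or.inl hx0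
    obtain ⟨z, hz, hxz⟩ := hK.inv x hx hx0
    right
    rw [hK.comm x hx z hz] at hxz
    rw [← one_mul y, ← hxz, mul_assoc, hxy, mul_zero]
  have hns : ∀ l : F, l ^ 2 ≠ δ := by
    intro l hl
    have : (j - l • 1) * (j + l • 1) = 0 := by
      simp only [sub_mul, mul_add, hδ, ← hl, mul_smul_comm, smul_mul_assoc, mul_one, one_mul,
        smul_smul]
      module
    rcases hdom _ (K.sub_mem hjK (K.smul_mem K.one_mem l)) _ this with h | h
    · exact hj1 (Submodule.mem_span_singleton.2 ⟨l, (sub_eq_zero.1 h).symm⟩)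
    · exact hj1 (Submodule.mem_span_singleton.2 ⟨-l, by rw [eq_neg_of_add_eq_zero_left h]; simp⟩)
  have hJ : JS (B0 m F) (Matrix.toLin' j) δ :=
    ⟨hB, fun x => by simp [hδ, Matrix.smul_mulVec], fun h => hns 0 (by simp [h]), hj, h2⟩
  refine isMaximalIn_transport gl0 _ _ (Sp (B0 m F)) (PJ (Matrix.toLin' j)) mem_spGL
    (fun g hg => ?_) (hJ.proper (by omega))
    fun M hM h3 h4 => hJ.core (by omega) hM h3 (fun l hl => absurd hl (hns l)) h4
  have hg' : ∀ u v, B0 m F ((g : Matrix _ _ F) *ᵥ u) ((g : Matrix _ _ F) *ᵥ v) = B0 m F u v := hg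
  have hgi : ∀ u v, B0 m F ((g : Matrix _ _ F) *ᵥ u) v =
      B0 m F u (((g⁻¹ : GL _ F) : Matrix _ _ F) *ᵥ v) := fun u v => by
    rw [← hg' u, Matrix.mulVec_mulVec, Units.mul_inv, Matrix.one_mulVec]
  have hPJ : PJ (Matrix.toLin' j) (gl0 g) ↔ ∃ s : F, s ^ 2 = 1 ∧
      (g : Matrix _ _ F) * j * ((g⁻¹ : GL _ F) : Matrix _ _ F) = s • j := by
    have : ∀ s : F, (g : Matrix _ _ F) * j * ((g⁻¹ : GL _ F) : Matrix _ _ F) = s • j ↔
        ∀ x, gl0 g (Matrix.toLin' j x) = s • Matrix.toLin' j (gl0 g x) := by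
      intro s
      rw [Units.mul_inv_eq_iff_eq_mul, ← Matrix.toLin'.injective.eq_iff, LinearMap.ext_iff]
      simp [gl0_apply, Matrix.smul_mulVec]
    simp only [this, PJ, C0]
    constructor
    · rintro (h | h)
      · exact ⟨1, by simp, by simpa using h⟩
      · exact ⟨-1, by simp, by simpa using h⟩
    · rintro ⟨s, hs, h⟩
      rcases sq_eq_one_iff.1 hs with rfl | rfl
      · left; simpa using h
      · right; simpa using h
  rw [hPJ]
  constructor
  · intro h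
    obtain ⟨a, b, hab⟩ := (hKs _).1 ((h j).1 hjK)
    have ha := anti a b (fun u v => by
      rw [hab, ← Matrix.mulVec_mulVec, ← Matrix.mulVec_mulVec, ← Matrix.mulVec_mulVec,
        ← Matrix.mulVec_mulVec, hgi, hj, hB.skew u, hgi, hB.skew (j *ᵥ _)]; ring)
    rw [ha, zero_smul, zero_add] at hab
    refine ⟨b, ?_, hab.symm⟩
    have h1 : (b • j) * (b • j) = δ • (1 : Matrix _ _ F) := by
      rw [hab]
      calc _ = (g : Matrix _ _ F) * (j * (((g⁻¹ : GL _ F) : Matrix _ _ F) * (g : Matrix _ _ F)) * j) *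
          ((g⁻¹ : GL _ F) : Matrix _ _ F) := by simp only [mul_assoc]
        _ = _ := by rw [Units.inv_mul, mul_one, hδ]; simp
    rw [smul_mul_smul_comm, hδ, smul_smul, ← sub_eq_zero, ← sub_smul] at h1
    have := (smul_eq_zero.1 h1).resolve_right one_ne_zero
    apply mul_right_cancel₀ hJ.ne; linear_combination this
  · rintro ⟨s, hs, h⟩ k
    have h' : ∀ a b : F, (g : Matrix _ _ F) * (a • (1 : Matrix _ _ F) + b • j) *
        ((g⁻¹ : GL _ F) : Matrix _ _ F) = a • (1 : Matrix _ _ F) + (b * s) • j := by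
      intro a b
      simp only [mul_add, add_mul, mul_smul_comm, smul_mul_assoc, mul_one, Units.mul_inv, h,
        smul_smul]
    simp only [hKs]
    constructor
    · rintro ⟨a, b, rfl⟩
      exact ⟨a, b * s, (h' a b).symm⟩
    · rintro ⟨a, b, hab⟩
      refine ⟨a, b * s, ?_⟩
      have := h' a (b * s)
      rw [mul_assoc b, ← sq, hs, mul_one, hab] at this
      rwa [Units.mul_left_inj, Units.mul_right_inj] at this

end Cfsg.Agent.H9.Sp
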