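import Cfsg.Agent.H9.Sp.Re8
import Cfsg.Agent.H9.Sp.UnitFin
import Cfsg.Agent.H6.El14

/-! Elements of prime order normalising a unitary structure. -/

set_option autoImplicit false
set_option linter.unusedSimpArgs false
set_option linter.unusedSectionVars false
set_option linter.unusedVariables false

universe u

namespace Cfsg.Agent.H9.Sp

open Module Cfsg.Agent.H6 Cfsg.Agent.H6.El Polynomial
open Multiset hiding map_add map_zero le_iff_exists_add

attribute [-simp] LinearEquiv.coe_inv Submodule.mem_map_equiv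

variable {F : Type u} [Field F] [Fintype F] {V : Type u} [AddCommGroup V] [Module F V]
  [FiniteDimensional F V]
variable {B : V →ₗ[F] V →ₗ[F] F} {f J J' : End F V} {δ : F} {A : Submodule F V}

/-- the normaliser of `F[J]` -/
def PJG (J : End F V) : Subgroup (V ≃ₗ[F] V) where
  carrier := {g | PJ J g}
  one_mem' := Or.inl fun _ => rfl
  mul_mem' := by
    rintro a b (ha | ha) (hb | hb)
    exacts [Or.inl fun x => by simp [hb x, ha _], Or.inr fun x => by simp [hb x, ha _],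
      Or.inr fun x => by simp [hb x, ha _], Or.inl fun x => by simp [hb x, ha _]]
  inv_mem' := by
    rintro a (ha | ha)
    exacts [Or.inl fun x => a.injective (by simp [ha _]), Or.inr fun x => a.injective (by simp [ha _])]

theorem JS.os (hJ : JS B J δ) : ∃ n, OS B J (fun (_ : Unit) W => finrank F W = 2 ∧
    ∃ v, B v (J v) = 1 ∧ W = Submodule.span F {v, J v}) (replicate n ()) ⊤ ∧ finrank F V = 2 * n := by
  have hB := hJ.symp
  obtain ⟨l, hl⟩ := OS.exists (f := J) (Pc := fun (_ : Unit) W => finrank F W = 2 ∧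
      ∃ v, B v (J v) = 1 ∧ W = Submodule.span F {v, J v}) hB (fun W hW s hs k hk => by
      have := hJ.adj k s
      rwa [hs _ (hW k hk), zero_eq_neg] at this) (ni_top hB) fun A' _ h1 h0 => by
    obtain ⟨x, hx, hx0⟩ := Submodule.exists_mem_ne_zero_of_ne_bot h0
    obtain ⟨y, hy, h2⟩ := h1.nd x hx hx0
    obtain ⟨w, hw, h3⟩ := hJ.exists_noniso hx (h1.iv y hy) (by simp [hJ.sq, hJ.ne, h2])
    obtain ⟨a, b, h4⟩ := hJ.univ h3 1
    have h5 := add_mem (A'.smul_mem a hw) (A'.smul_mem b (h1.iv w hw))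
    generalize a • w + b • J w = v at h4 h5
    have h7 : B v (J v) ≠ 0 := by simp [h4]
    exact ⟨(), _, pair_le h5 (h1.iv v h5), (Submodule.ne_bot_iff _).2 ⟨v, left_mem_pair _ _, by
      rintro rfl; simp at h7⟩, ⟨ndOn_pair hB h7, iv_pair (right_mem_pair _ _)
        (hJ.sq v ▸ Submodule.smul_mem _ _ (left_mem_pair _ _))⟩, finrank_pair hB h7, v, h4, rfl⟩
  exact ⟨_, by simpa using hl.planes hB fun _ h => h.1⟩

theorem JS.conj (hJ : JS B J δ) (hJ' : JS B J' δ) : ∃ g ∈ Sp B, ∀ w, g (J w) = J' (g w) := by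
  have hB := hJ.symp
  obtain ⟨n, h1, h2⟩ := hJ.os
  obtain ⟨n', k1, k2⟩ := hJ'.os
  obtain rfl : n = n' := by omega
  refine h1.conj_top hB k1 ?_
  rintro - - _ _ - - ⟨-, v, a1, rfl⟩ ⟨-, v', a2, rfl⟩
  have a3 : B (J v) v = -1 := by rw [hB.skew, a1]
  have a4 : B (J' v') v' = -1 := by rw [hB.skew, a2]
  refine ⟨(B.flip (J v)).smulRight v' - (B.flip v).smulRight (J' v'), fun w _ =>
    sub_mem (Submodule.smul_mem _ _ (left_mem_pair _ _)) (Submodule.smul_mem _ _ (right_mem_pair _ _)),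
    fun u hu w hw => ?_, fun w hw => ?_⟩
  · obtain ⟨a, b, rfl⟩ := Submodule.mem_span_pair.1 hu
    obtain ⟨c, d, rfl⟩ := Submodule.mem_span_pair.1 hw
    simp [hB.alt, a1, a2, a3, a4]
  · obtain ⟨a, b, rfl⟩ := Submodule.mem_span_pair.1 hw
    simp [hB.alt, a1, a2, a3, a4, hJ.sq, hJ'.sq]
    module

/-- partial structure maps -/
def JP (B : V →ₗ[F] V →ₗ[F] F) (f : End F V) (δ s : F) (A : Submodule F V) : Prop :=
  ∃ J : End F V, Iv J A ∧ (∀ v ∈ A, J (J v) = δ • v) ∧ (∀ u ∈ A, ∀ v ∈ A, B (J u) v = -B u (J v)) ∧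
    ∀ v ∈ A, f (J v) = s • J (f v)

theorem OS.jp {α : Type} {Pc : α → Submodule F V → Prop} {l : Multiset α} (hB : Symp B) {s : F}
    (h : OS B f Pc l A) (h1 : ∀ a W, NI B f W → Pc a W → JP B f δ s W) : JP B f δ s A := by
  refine h.ind hB (β := Unit) (fun _ => JP B f δ s) (fun _ => ()) ⟨0, by simp [Iv], by simp, by simp,
    by simp⟩ ?_ fun a _ W h h' => h1 a W h h'
  rintro - - W A k1 k2 h3 ⟨J, a1, a2, a3, a4⟩ ⟨J', b1, b2, b3, b4⟩
  obtain ⟨γ, c1, c2⟩ := exists_glue (k1.nd.disj hB h3) J J'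
  refine ⟨γ, fun w hw => ?_, fun w hw => ?_, fun u hu w hw => ?_, fun w hw => ?_⟩ <;>
    obtain ⟨x, hx, y, hy, rfl⟩ := Submodule.mem_sup.1 hw
  · rw [map_add, c1 x hx, c2 y hy]
    exact Submodule.add_mem_sup (a1 x hx) (b1 y hy)
  · simp [c1 x hx, c2 y hy, c1 _ (a1 x hx), c2 _ (b1 y hy), a2 x hx, b2 y hy]
  · obtain ⟨x', hx', y', hy', rfl⟩ := Submodule.mem_sup.1 hu
    simp [c1 x hx, c2 y hy, c1 x' hx', c2 y' hy', a3 x' hx' x hx, b3 y' hy' y hy,
      h3 hy _ (a1 x' hx'), h3 (b1 y hy) _ hx', hB.comm.1 (h3 (b1 y' hy') _ hx),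
      hB.comm.1 (h3 hy' _ (a1 x hx)), add_comm]
  · simp [c1 x hx, c2 y hy, c1 _ (k1.iv x hx), c2 _ (k2.iv y hy), a4 x hx, b4 y hy]

theorem jp_pair (hB : Symp B) {x y : V} (h : B x y ≠ 0) {a b c s : F} (h1 : a ^ 2 + b * c = δ)
    (h2 : ∀ J : End F V, J x = a • x + b • y → J y = c • x - a • y →
      f (J x) = s • J (f x) ∧ f (J y) = s • J (f y)) : JP B f δ s (Submodule.span F {x, y}) := by
  obtain ⟨J, k1, k2⟩ : ∃ J : End F V, J x = a • x + b • y ∧ J y = c • x - a • y :=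
    ⟨(B.flip y).smulRight ((B x y)⁻¹ • (a • x + b • y)) -
      (B.flip x).smulRight ((B x y)⁻¹ • (c • x - a • y)), by simp [hB.alt, smul_smul, h],
      by simp [hB.alt, smul_smul, h, hB.skew y x]⟩
  obtain ⟨k3, k4⟩ := h2 J k1 k2
  refine ⟨J, iv_pair (Submodule.mem_span_pair.2 ⟨a, b, k1.symm⟩) (Submodule.mem_span_pair.2
    ⟨c, -a, by rw [k2]; module⟩), fun w hw => ?_, fun u hu w hw => ?_, fun w hw => ?_⟩ <;>
    obtain ⟨α, β, rfl⟩ := Submodule.mem_span_pair.1 hw
  · simp only [map_add, map_smul, map_sub, k1, k2, ← h1]; module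
  · obtain ⟨α', β', rfl⟩ := Submodule.mem_span_pair.1 hu
    simp [k1, k2, hB.alt, hB.skew y x]; ring
  · simp only [map_add, map_smul, k3, k4]; module

theorem JS.el_two (hJ : JS B J δ) : EL 2 B (PJG J) := fun x hx => by
  have hB := hJ.symp
  obtain ⟨s, hs, J', h1, h2, h3, h4⟩ : ∃ s : F, (s = 1 ∨ s = -1) ∧ JP B x δ s ⊤ := by
    rcases hx.two hB with h1 | h1
    · obtain ⟨n, a, -⟩ := os_pos hB hx.is hJ.two h1 (ni_top hB)
      refine ⟨1, Or.inl rfl, a.jp hB ?_⟩
      rintro - W k1 ⟨k2, c, -, k3⟩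
      obtain ⟨u, v, k4, rfl⟩ := k1.nd.exists_pair hB k2
      refine jp_pair hB k4 (a := 0) (b := 1) (c := δ) (by simp) fun J a b => ?_
      simp only [a, b, k3 u (left_mem_pair _ _), k3 v (right_mem_pair _ _), map_add, map_smul,
        map_sub]
      constructor <;> module
    · obtain ⟨n, a, -⟩ := os_neg hB hx.is hJ.two h1 (ni_top hB)
      refine ⟨-1, Or.inr rfl, a.jp hB ?_⟩
      rintro - W - ⟨-, v, k4, rfl⟩
      obtain ⟨a, b, hab⟩ := exists_sq_add_sq F 1 1 (-δ) one_ne_zero one_ne_zero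
      refine jp_pair hB k4 (a := a) (b := b) (c := b) (by linear_combination hab) fun J a b => ?_
      simp only [a, b, h1, map_add, map_smul, map_sub, map_neg]
      constructor <;> module
  obtain ⟨g, hg, h5⟩ := hJ.conj ⟨hB, fun v => h2 v trivial, hJ.ne,
    fun u v => h3 u trivial v trivial, hJ.two⟩
  have h6 : ∀ v, (g⁻¹ * x * g) (J v) = s • J ((g⁻¹ * x * g) v) := fun v => g.injective (by
    simpa [h5] using h4 (g v) trivial)
  refine ⟨g, hg, ?_⟩
  rcases hs with rfl | rfl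
  exacts [Or.inl fun v => by simpa using h6 v, Or.inr fun v => by simpa using h6 v]

theorem JS.even (hJ : JS B J δ) (hδ : ∀ l, l ^ 2 ≠ δ) (hA : Iv J A) : Even (finrank F A) := by
  obtain ⟨s, hs, -⟩ := natDegree_dvd_finrank (monic_X_pow_sub_C _ two_ne_zero)
    (X_pow_sub_C_irreducible_of_prime Nat.prime_two hδ) hA fun u _ => by
      rw [aeval_X_pow_sub_C]; simp [pow_two, hJ.sq]
  rw [hs, natDegree_X_pow_sub_C]
  simp

theorem JS.exists_comm (hJ : JS B J δ) {r : ℕ} (hr : Odd r) (H : EL r B (PJG J)) (hf : PO r B f)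
    (h1 : f ^ r = 1) : ∃ J', JS B J' δ ∧ ∀ v, J' (f v) = f (J' v) := by
  obtain ⟨x, hx, rfl⟩ := hf.exists_equiv hJ.symp
  obtain ⟨g, hg, h2⟩ := H x hf
  have h3 : C0 J (g⁻¹ * x * g) := h2.resolve_right fun h2 => by
    have h3 : (g⁻¹ * x * g) ^ r = 1 := by
      simpa [equiv_pow_eq_one h1] using conj_pow (a := g⁻¹) (b := x) (i := r)
    generalize g⁻¹ * x * g = y at h2 h3
    have h4 : ∀ n v, (y ^ n) (J v) = (-1 : F) ^ n • J ((y ^ n) v) := fun n => by
      induction n with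
      | zero => simp
      | succ n ih => intro v; simp [pow_succ, h2, ih]
    have := hf.nontrivial
    obtain ⟨v, hv⟩ := exists_ne (0 : V)
    have h5 := h4 r v
    rw [h3, hr.neg_one_pow, neg_one_smul, eq_neg_iff_add_eq_zero, LinearEquiv.coe_one, id, id,
      ← two_smul F] at h5
    exact smul_ne_zero hJ.two (hJ.J_ne hv) h5
  refine ⟨g.conj J, ⟨hJ.symp, fun v => by simp [hJ.sq], hJ.ne, fun u v => ?_, hJ.two⟩, fun v => ?_⟩
  · obtain ⟨u, rfl⟩ := g.surjective u
    obtain ⟨v, rfl⟩ := g.surjective v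
    simp [hg _ _, hJ.adj]
  · obtain ⟨v, rfl⟩ := g.surjective v
    simpa [LinearEquiv.coe_inv] using (congrArg g (h3 v)).symm

theorem iv_ker_of_comm (h : ∀ v, J (f v) = f (J v)) (P : F[X]) :
    Iv J (LinearMap.ker (aeval f P)) := iv_ker fun v => (apply_aeval_of h P v).symm

theorem exists_aeval_of_mem_cy {v w : V} {k : ℕ} (h : w ∈ cy f v k) : ∃ P : F[X], w = aeval f P v := by
  induction h using Submodule.span_induction with
  | mem x hx => obtain ⟨j, rfl⟩ := hx; exact ⟨X ^ (j : ℕ), by simp⟩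
  | zero => exact ⟨0, by simp⟩
  | add x y _ _ hx hy =>
    obtain ⟨P, rfl⟩ := hx
    obtain ⟨Q, rfl⟩ := hy
    exact ⟨P + Q, by simp⟩
  | smul a x _ hx => obtain ⟨P, rfl⟩ := hx; exact ⟨a • P, by simp⟩

theorem exists_aeval_of_comm {π : F[X]} (h1 : π.Monic) (h2 : Irreducible π)
    (h3 : finrank F (LinearMap.ker (aeval f π)) = π.natDegree) (h : ∀ v, J (f v) = f (J v)) :
    ∃ P : F[X], ∀ w ∈ LinearMap.ker (aeval f π), J w = aeval f P w := by
  obtain ⟨v, hv, h0⟩ := exists_ne_zero_of_finrank (K := LinearMap.ker (aeval f π))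
    (h3 ▸ h2.natDegree_pos)
  have h4 : cy f v π.natDegree = LinearMap.ker (aeval f π) := Submodule.eq_of_le_of_finrank_eq
    (cy_le (iv_ker_aeval f π) hv) (by rw [finrank_cy_irr h1 h2 h0 hv, h3])
  obtain ⟨P, hP⟩ := exists_aeval_of_mem_cy (h4 ▸ iv_ker_of_comm h π v hv)
  refine ⟨P, fun w hw => ?_⟩
  obtain ⟨Q, rfl⟩ := exists_aeval_of_mem_cy (h4 ▸ hw)
  rw [apply_aeval_of h, hP, ← End.mul_apply, ← End.mul_apply, ← map_mul, ← map_mul, mul_comm]

theorem exists_tv (hB : Symp B) [Nontrivial V] {p : ℕ} [CharP F p] (hp : Odd p) :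
    ∃ f, PO p B f ∧ f ^ p = 1 ∧ fx f ⊤ + 1 = finrank F V := by
  obtain ⟨v, hv⟩ := exists_ne (0 : V)
  obtain ⟨w, hw⟩ := hB.exists_ne hv
  have h1 : ∀ n : ℕ, ∀ x, ((tvE hB v 1 : End F V) ^ n) x = x + (n * B x v) • v := fun n x => by
    induction n with
    | zero => simp
    | succ n ih => rw [pow_succ', End.mul_apply, ih]; simp [hB.alt]; module
  have h2 : (tvE hB v 1 : End F V) ^ p = 1 := by ext x; simp [h1]
  refine ⟨_, po_of_odd hB (tvE_mem hB v 1) hp h2 fun h => ?_, h2, ?_⟩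
  · simpa [hv, hB.ne_comm hw] using LinearMap.congr_fun h w
  have h3 := hB.finrank_perp (Submodule.span F {v})
  rw [finrank_span_singleton hv] at h3
  rw [fx, kd_top, aeval_X_sub_C, one_smul, ← h3, add_comm]
  refine congrArg (fun K : Submodule F V => 1 + finrank F K) (Submodule.ext fun x => ?_)
  simp [hv, mem_perp, Submodule.mem_span_singleton, hB.comm (x := x)]
  exact ⟨fun h => by simp [h], fun h => by simpa using h 1⟩

variable {r : ℕ} [hr : Fact r.Prime]

local notation "q" => Fintype.card F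
local notation "ord" => orderOf ((Fintype.card F : ℕ) : ZMod r)

theorem exists_single_odd (hB : Symp B) (h0 : (r : F) ≠ 0) (hr2 : r ≠ 2) (he : ¬ Even ord)
    (hn : cv ord ≤ finrank F V) : ∃ f, SS r B f ∧ PO r B f ∧ ∃ π : F[X],
      finrank F (LinearMap.ker (aeval f π)) = ord := by
  classical
  obtain ⟨f, k1, k2⟩ := exists_ss hB h0 hr2 (e := finrank F V - cv ord) (s := 1) (by omega)
  have h1 := ord_pos h0
  have h2 := cv_pos h1
  obtain ⟨A₀, A₁, a1, a2, a3, a4, a5, a6, a7, a8⟩ := k1.split (ni_top hB)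
  obtain ⟨ν, b1, b2, b3⟩ := k1.exists_type a2.iv
  rw [finrank_top] at a8
  obtain ⟨π, hπ⟩ := exists_mem_of_ne_zero (s := ν) (by rintro rfl; simp at b2; omega)
  obtain ⟨c1, c2, c3⟩ := b1 π hπ
  refine ⟨f, k1, k1.po (by omega), π, ?_⟩
  have d1 := kd_sup (a1.nd.disj hB a3) (a1.iv.aeval π) (a2.iv.aeval π)
  rw [← a4, kd_of_inj fun w hw h4 => k1.eq_zero c2 c3 h4 (a5 w hw), zero_add, kd_top] at d1
  have d2 := a2.nd.two_mul_le hB (inf_le_left (b := LinearMap.ker (aeval f π)))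
    fun u hu v hv => k1.ti_odd he c1 c2 c3 u hu.2 v hv.2
  have d3 := Nat.mul_le_mul_left ord (count_pos.2 hπ)
  rw [← b3 π c1 c2 c3] at d3
  rw [cv, if_neg he] at hn k2
  change 2 * kd _ _ ≤ _ at d2
  omega

theorem JS.exists_dvd (hJ : JS B J δ) (hδ : ∀ l, l ^ 2 ≠ δ) {d : ℕ} (hd : finrank F V = 2 * d)
    (h0 : (r : F) ≠ 0) (h : r ∣ (PJG J).relIndex (Sp B)) :
    ∃ j, 0 < j ∧ j ≤ d ∧ (-q : ZMod r) ^ j = -1 := by
  have : Fact (∀ r : F, r ^ 2 ≠ δ + 0 * r) := ⟨by simpa using hδ⟩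
  let L := QuadraticAlgebra F δ 0
  let _ : Module L V :=
    { smul := fun z v => z.re • v + z.im • J v
      one_smul := fun v => show (1 : F) • v + (0 : F) • J v = v by simp
      mul_smul := fun a b v => show _ • v + _ • J v = _ • (_ • v + _ • J v) + _ • J (_ • v + _ • J v) by
        simp only [L, QuadraticAlgebra.re_mul, QuadraticAlgebra.im_mul, map_add, map_smul, hJ.sq]
        module
      smul_zero := fun a => show _ • (0 : V) + _ • J 0 = 0 by simp
      smul_add := fun a v w => show _ • (v + w) + _ • J (v + w) = _ • v + _ • J v + (_ • w + _ • J w) by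
        rw [map_add]; module
      add_smul := fun a b v => show _ • v + _ • J v = _ • v + _ • J v + (_ • v + _ • J v) by
        simp only [L, QuadraticAlgebra.re_add, QuadraticAlgebra.im_add]; module
      zero_smul := fun v => show (0 : F) • v + (0 : F) • J v = 0 by simp }
  have hsm : ∀ (z : L) (v : V), z • v = z.re • v + z.im • J v := fun _ _ => rfl
  have : IsScalarTower F L V := ⟨fun a z v => by simp [hsm, L, smul_smul]⟩
  have : Finite L := Module.finite_of_finite F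
  have := Fintype.ofFinite L
  have : Module.Finite L V := Module.Finite.of_restrictScalars_finite F L V
  have h1 : finrank F L = 2 := QuadraticAlgebra.finrank_eq_two δ 0
  have h2 : finrank L V = d := by have := finrank_mul_finrank F L V; rw [h1] at this; omega
  have h3 : ∀ x : L, starRingEnd L x = x ^ q := by
    let φ := FiniteField.frobeniusAlgHom F L
    have h3 : φ QuadraticAlgebra.omega = -QuadraticAlgebra.omega := by
      refine (mul_self_eq_mul_self_iff.1 ?_).resolve_left fun h3 => ?_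
      · rw [← map_mul, QuadraticAlgebra.omega_mul_omega_eq_algebraMap, map_zero, zero_mul, add_zero,
          φ.commutes]
      · obtain ⟨a, ha⟩ := (mem_range_iff_pow (K := F)).2 h3
        simpa [L] using congrArg QuadraticAlgebra.im ha
    intro x
    change _ = φ x
    rw [← x.mk_eta, QuadraticAlgebra.mk_eq_add_smul_omega, map_add φ, φ.commutes, map_smul, h3]
    ext <;> simp [L, starRingEnd_apply]
  let h : V →ₗ[L] V →ₛₗ[starRingEnd L] L := LinearMap.mk₂'ₛₗ _ _
    (fun x y => ⟨B x (J y), -B x y⟩) (fun _ _ _ => by ext <;> simp [L, add_comm])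
    (fun z x y => by ext <;> simp [L, hsm, hJ.JJ, hJ.adj, hJ.sq]; all_goals ring)
    (fun _ _ _ => by ext <;> simp [L, add_comm])
    (fun z x y => by ext <;> simp [L, hsm, hJ.JJ, hJ.adj, hJ.sq, starRingEnd_apply]; all_goals ring)
  have h4 : Fm 1 h := ⟨star_star, fun u v => by
    ext <;> simp [h, L, hJ.symm u v, hJ.symp.skew u v, starRingEnd_apply], fun v hv => hJ.symp.nd v fun u => by
      simpa [h] using congrArg QuadraticAlgebra.im (hv u)⟩
  have h5 := (card_gu (q₀ := q) (by rw [Module.card_eq_pow_finrank (K := F), h1]) h3 h4 h2).2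
  have := finite_linearEquiv (F := F) (V := V)
  have h6 := relIndex_dvd_of (H := PJG J) (K := Sp B) (MonoidHom.mk' (fun g : isoG h => rs F g.1)
    fun _ _ => rfl) (fun a b e => Subtype.ext (LinearEquiv.ext fun v => LinearEquiv.congr_fun e v))
    (fun g => Or.inl fun v => show g.1 (J v) = J (g.1 v) by
      simpa [hsm] using g.1.map_smul QuadraticAlgebra.omega v) (fun g u v =>
      show B (g.1 u) (g.1 v) = B u v by simpa [h] using congrArg QuadraticAlgebra.im (g.2 u v))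
    (c := q ^ d ^ 2 * (∏ j ∈ Finset.range d, ((q : ℤ) ^ (j + 1) + (-1) ^ (j + 1))).natAbs) (by
      rw [card_Sp hJ.symp hd, ← Int.natCast_dvd_natCast, Nat.cast_mul, Nat.cast_mul, Nat.cast_mul,
        h5, mul_assoc, mul_left_comm _ ((q ^ d ^ 2 : ℕ) : ℤ)]
      refine Dvd.dvd.mul_left (mul_dvd_mul_left _ ((dvd_of_eq ?_).trans (mul_dvd_mul_left _
        (Int.dvd_natAbs.2 dvd_rfl)))) _
      rw [qP, Nat.cast_prod, ← Finset.prod_mul_distrib]
      refine Finset.prod_congr rfl fun j _ => ?_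
      rw [Nat.cast_pred (by have := Fintype.card_pos (α := F); positivity)]
      push_cast
      linear_combination (Even.neg_one_pow (α := ℤ) (even_two_mul (j + 1))))
  obtain ⟨j, h7, h8⟩ := (Prime.dvd_finsetProd_iff (Nat.prime_iff_prime_int.1 hr.out) _).1
    (Int.natCast_dvd.2 ((hr.out.dvd_mul.1 (‹r ∣ _›.trans h6)).resolve_left
      fun h2 => not_dvd_card h0 (hr.out.dvd_of_dvd_pow h2)))
  rw [Finset.mem_range] at h7
  refine ⟨j + 1, by omega, by omega, ?_⟩
  rw [← ZMod.intCast_zmod_eq_zero_iff_dvd] at h8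
  push_cast at h8
  rw [neg_pow, eq_neg_of_add_eq_zero_left h8, mul_neg, ← mul_pow]
  simp

theorem JS.not_el (hJ : JS B J δ) (hδ : ∀ l, l ^ 2 ≠ δ) {d : ℕ} (hd : finrank F V = 2 * d)
    (hd0 : 0 < d) (hr2 : r ≠ 2) (h : r ∣ (PJG J).relIndex (Sp B)) : ¬ EL r B (PJG J) := fun H => by
  classical
  have hB := hJ.symp
  have ho := hr.out.odd_of_ne_two hr2
  by_cases h0 : (r : F) = 0
  · have : CharP F r := (CharP.charP_iff_prime_eq_zero hr.out).2 h0
    have : Nontrivial V := finrank_pos_iff.1 (show 0 < finrank F V by omega)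
    obtain ⟨f, h1, h2, h3⟩ := exists_tv hB ho
    obtain ⟨J', k1, k2⟩ := hJ.exists_comm ho H h1 h2
    obtain ⟨c, hc⟩ := k1.even hδ (iv_ker_of_comm k2 (X - C 1))
    rw [fx, kd_top] at h3
    omega
  obtain ⟨j, h1, h2, h3⟩ := hJ.exists_dvd hδ hd h0 h
  have h4 : cv ord ≤ finrank F V := (Nat.le_of_dvd (by omega) (cv_dvd (j := j)
    (orderOf_dvd_of_pow_eq_one (by
      rw [← (even_two_mul j).neg_pow, mul_comm, pow_mul, h3]; simp)))).trans (by omega)
  by_cases he : Even ord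
  swap
  · obtain ⟨f, k1, k2, π, k3⟩ := exists_single_odd hB h0 hr2 he h4
    obtain ⟨J', a1, a2⟩ := hJ.exists_comm ho H k2 k1.pow
    exact he (k3 ▸ a1.even hδ (iv_ker_of_comm a2 π))
  obtain ⟨k, hk⟩ := he.two_dvd
  rcases Nat.even_or_odd k with ⟨k, rfl⟩ | hko
  swap
  · have : Fact (2 < r) := ⟨by have := hr.out.two_le; omega⟩
    have h5 : (-q : ZMod r) ^ k = 1 := by rw [hko.neg_pow, pow_half h0 hk, neg_neg]
    apply ZMod.neg_one_ne_one (n := r)
    rw [← hko.neg_one_pow, ← h3, ← pow_mul, mul_comm, pow_mul, h5, one_pow]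
  rw [cv, if_pos he] at h4
  obtain ⟨f, π, k1, k2, k3⟩ := exists_single hB h0 hr2 he h4
  obtain ⟨J', a1, a2⟩ := hJ.exists_comm ho H k2 k1.pow
  have c1 := k3.ty.monic π (by simp)
  have c2 := k3.irr π (by simp)
  have c3 := k3.dvd π (by simp)
  have c4 := Spl.kd_irr k3 h0 c1 c2 c3
  rw [count_singleton_self, mul_one] at c4
  obtain ⟨P, hP⟩ := exists_aeval_of_comm c1 c2 (c4.trans (natDegree_eq_ord h0 c2 c3).symm) a2
  have c5 := iv_ker_of_comm a2 π
  obtain ⟨w, hw, hw0⟩ := exists_ne_zero_of_finrank (K := LinearMap.ker (aeval f π))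
    (c4 ▸ ord_pos h0)
  obtain ⟨u, hu, c6⟩ := (k1.ni_irr he (ni_top hB) c3).nd _ ⟨trivial, c5 w hw⟩ (a1.J_ne hw0)
  have c7 : ∀ m, (aeval f P ^ (2 * m + 1)) w = δ ^ m • J' w := fun m => by
    induction m with
    | zero => simp [hP w hw]
    | succ m ih =>
      rw [show 2 * (m + 1) + 1 = 1 + 1 + (2 * m + 1) by ring, pow_add, End.mul_apply, ih, map_smul,
        pow_succ, pow_one, End.mul_apply, ← hP _ (c5 w hw), ← hP _ (c5 _ (c5 w hw)), a1.sq, pow_succ,
        mul_smul]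
  obtain ⟨m, hm⟩ : Odd (q ^ k) := Odd.pow (Nat.not_even_iff_odd.1 fun h =>
    not_dvd_card (F := F) (r := 2) (by exact_mod_cast hJ.two) h.two_dvd)
  have c8 := adj_aeval k1.adj P u w
  rw [← hP u hu.2, a1.adj, k1.inv_eq hk, aeval_pow_card, show q ^ (k + k) = 2 * (2 * m * (m + 1)) + 1
    by rw [pow_add, hm]; ring, c7, pow_mul, show δ ^ (2 * m) = 1 from
      mul_right_cancel₀ hJ.ne (by rw [← pow_succ, ← hm, FiniteField.pow_card_pow, one_mul]),
    one_pow, one_smul] at c8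
  exact hB.ne_comm c6 (mul_left_cancel₀ hJ.two (by linear_combination -c8))

open Matrix

theorem unitary_bridge {m : ℕ} (hm : 1 ≤ m) (hodd : Odd (Fintype.card F))
    (K : Subalgebra F (Matrix (Fin m ⊕ Fin m) (Fin m ⊕ Fin m) F)) (hK : Geo.IsFieldSubalgebra 2 K)
    (hac : Geo.IsAdjointClosedFor (sympForm m F) K)
    (hnsa : ¬ Geo.IsSelfAdjointFor (sympForm m F) K) : ∃ J δ, JS (B0 m F) J δ ∧ (∀ l, l ^ 2 ≠ δ) ∧
    ∀ g ∈ spGL m F, g ∈ Geo.subalgebraNormalizer K ↔ gl0 g ∈ PJG J := by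
  have hB := symp_B0 m F
  have h2 := two_ne_zero_of_odd hodd
  have hn : finrank F (Fin m ⊕ Fin m → F) = 2 * m := finrank_V
  have hext : ∀ A C : Matrix (Fin m ⊕ Fin m) (Fin m ⊕ Fin m) F,
      (∀ u v, B0 m F u (A *ᵥ v) = B0 m F u (C *ᵥ v)) → A = C := fun A C h =>
    Matrix.toLin'.injective (LinearMap.ext fun v => hB.ext fun u => h u v)
  obtain ⟨j, hjK, hj0, hj⟩ : ∃ j ∈ K, j ≠ 0 ∧ ∀ u v, B0 m F (j *ᵥ u) v = -B0 m F u (j *ᵥ v) := by
    simp only [Geo.IsSelfAdjointFor, not_forall] at hnsa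
    obtain ⟨k, hk, u, v, huv⟩ := hnsa
    obtain ⟨k', hk', h⟩ := hac k hk
    have h' : ∀ u v, B0 m F (k *ᵥ u) v = B0 m F u (k' *ᵥ v) := h
    refine ⟨k - k', K.sub_mem hk hk', fun h0 => huv ?_, fun u v => ?_⟩
    · rw [sub_eq_zero] at h0
      rw [h, h0]
    · simp only [Matrix.sub_mulVec, map_sub, LinearMap.sub_apply, h']
      rw [hB.skew (k' *ᵥ u) v, ← h' v u, hB.skew u (k *ᵥ v)]
      ring
  have anti : ∀ a b : F, (∀ u v, B0 m F ((a • (1 : Matrix _ _ F) + b • j) *ᵥ u) v =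
      -B0 m F u ((a • (1 : Matrix _ _ F) + b • j) *ᵥ v)) → a = 0 := by
    intro a b h
    obtain ⟨x, -, hx⟩ := exists_ne_zero_of_finrank (K := (⊤ : Submodule F (Fin m ⊕ Fin m → F)))
      (by rw [finrank_top]; omega)
    obtain ⟨y, hy⟩ := hB.exists_one hx
    have := h x y
    simp only [Matrix.add_mulVec, Matrix.smul_mulVec, Matrix.one_mulVec, map_add, map_smul,
      LinearMap.add_apply, LinearMap.smul_apply, smul_eq_mul, hj, hy] at this
    apply mul_left_cancel₀ h2; linear_combination this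
  have hj1 : j ∉ Submodule.span F {(1 : Matrix (Fin m ⊕ Fin m) (Fin m ⊕ Fin m) F)} := by
    intro h
    obtain ⟨a, ha⟩ := Submodule.mem_span_singleton.1 h
    have := anti a 0 (by simpa [ha] using hj)
    exact hj0 (by rw [← ha, this, zero_smul])
  have : Nonempty (Fin m ⊕ Fin m) := ⟨.inl ⟨0, by omega⟩⟩
  have hKs : ∀ k, k ∈ K ↔ ∃ a b : F, a • (1 : Matrix _ _ F) + b • j = k := by
    intro k
    have : Submodule.span F {1, j} = Subalgebra.toSubmodule K := by
      apply Submodule.eq_of_le_of_finrank_eq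
      · rw [Submodule.span_le]
        rintro x (rfl | rfl)
        · exact K.one_mem
        · exact hjK
      · rw [Submodule.span_insert, Submodule.finrank_sup_span_singleton hj1,
          finrank_span_singleton one_ne_zero]
        exact hK.finrank_eq.symm
    rw [← Submodule.mem_span_pair, this, Subalgebra.mem_toSubmodule]
  obtain ⟨δ, hδ⟩ : ∃ δ : F, j * j = δ • (1 : Matrix _ _ F) := by
    obtain ⟨a, b, hab⟩ := (hKs _).1 (K.mul_mem hjK hjK)
    refine ⟨a, ?_⟩
    have : (2 * b) • j = 0 := by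
      apply hext
      intro u v
      have h1 : B0 m F ((j * j) *ᵥ u) v = B0 m F u ((j * j) *ᵥ v) := by
        rw [← Matrix.mulVec_mulVec, ← Matrix.mulVec_mulVec, hj, hj, neg_neg]
      rw [← hab] at h1
      simp only [Matrix.add_mulVec, Matrix.smul_mulVec, Matrix.one_mulVec, map_add, map_smul,
        LinearMap.add_apply, LinearMap.smul_apply, smul_eq_mul, hj, Matrix.zero_mulVec,
        map_zero] at h1 ⊢
      linear_combination -h1
    have hb : b = 0 := by simpa [h2, hj0] using this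
    rw [← hab, hb, zero_smul, add_zero]
  have hdom : ∀ x ∈ K, ∀ y, x * y = 0 → x = 0 ∨ y = 0 := by
    intro x hx y hxy
    by_cases hx0 : x = 0
    · exact Or.inl hx0
    obtain ⟨z, hz, hxz⟩ := hK.inv x hx hx0
    right
    rw [hK.comm x hx z hz] at hxz
    rw [← one_mul y, ← hxz, mul_assoc, hxy, mul_zero]
  have hns : ∀ l : F, l ^ 2 ≠ δ := by
    intro l hl
    have : (j - l • 1) * (j + l • 1) = 0 := by
      simp only [sub_mul, mul_add, hδ, ← hl, mul_smul_comm, smul_mul_assoc, mul_one, one_mul,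
        smul_smul]
      module
    rcases hdom _ (K.sub_mem hjK (K.smul_mem K.one_mem l)) _ this with h | h
    · exact hj1 (Submodule.mem_span_singleton.2 ⟨l, (sub_eq_zero.1 h).symm⟩)
    · exact hj1 (Submodule.mem_span_singleton.2 ⟨-l, by rw [eq_neg_of_add_eq_zero_left h]; simp⟩)
  have hJ : JS (B0 m F) (Matrix.toLin' j) δ :=
    ⟨hB, fun x => by simp [hδ, Matrix.smul_mulVec], fun h => hns 0 (by simp [h]), hj, h2⟩
  refine ⟨_, δ, hJ, hns, fun g hg => ?_⟩
  have hg' : ∀ u v, B0 m F ((g : Matrix _ _ F) *ᵥ u) ((g : Matrix _ _ F) *ᵥ v) = B0 m F u v := hg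
  have hgi : ∀ u v, B0 m F ((g : Matrix _ _ F) *ᵥ u) v =
      B0 m F u (((g⁻¹ : GL _ F) : Matrix _ _ F) *ᵥ v) := fun u v => by
    rw [← hg' u, Matrix.mulVec_mulVec, Units.mul_inv, Matrix.one_mulVec]
  have hPJ : PJ (Matrix.toLin' j) (gl0 g) ↔ ∃ s : F, s ^ 2 = 1 ∧
      (g : Matrix _ _ F) * j * ((g⁻¹ : GL _ F) : Matrix _ _ F) = s • j := by
    have : ∀ s : F, (g : Matrix _ _ F) * j * ((g⁻¹ : GL _ F) : Matrix _ _ F) = s • j ↔
        ∀ x, gl0 g (Matrix.toLin' j x) = s • Matrix.toLin' j (gl0 g x) := by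
      intro s
      rw [Units.mul_inv_eq_iff_eq_mul, ← Matrix.toLin'.injective.eq_iff, LinearMap.ext_iff]
      simp [gl0_apply, Matrix.smul_mulVec]
    simp only [this, PJ, C0]
    constructor
    · rintro (h | h)
      · exact ⟨1, by simp, by simpa using h⟩
      · exact ⟨-1, by simp, by simpa using h⟩
    · rintro ⟨s, hs, h⟩
      rcases sq_eq_one_iff.1 hs with rfl | rfl
      · left; simpa using h
      · right; simpa using h
  refine Iff.trans ?_ hPJ.symm
  constructor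
  · intro h
    obtain ⟨a, b, hab⟩ := (hKs _).1 ((h j).1 hjK)
    have ha := anti a b (fun u v => by
      rw [hab, ← Matrix.mulVec_mulVec, ← Matrix.mulVec_mulVec, ← Matrix.mulVec_mulVec,
        ← Matrix.mulVec_mulVec, hgi, hj, hB.skew u, hgi, hB.skew (j *ᵥ _)]; ring)
    rw [ha, zero_smul, zero_add] at hab
    refine ⟨b, ?_, hab.symm⟩
    have h1 : (b • j) * (b • j) = δ • (1 : Matrix _ _ F) := by
      rw [hab]
      calc _ = (g : Matrix _ _ F) * (j * (((g⁻¹ : GL _ F) : Matrix _ _ F) * (g : Matrix _ _ F)) * j) *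
          ((g⁻¹ : GL _ F) : Matrix _ _ F) := by simp only [mul_assoc]
        _ = _ := by rw [Units.inv_mul, mul_one, hδ]; simp
    rw [smul_mul_smul_comm, hδ, smul_smul, ← sub_eq_zero, ← sub_smul] at h1
    have := (smul_eq_zero.1 h1).resolve_right one_ne_zero
    apply mul_right_cancel₀ hJ.ne; linear_combination this
  · rintro ⟨s, hs, h⟩ k
    have h' : ∀ a b : F, (g : Matrix _ _ F) * (a • (1 : Matrix _ _ F) + b • j) *
        ((g⁻¹ : GL _ F) : Matrix _ _ F) = a • (1 : Matrix _ _ F) + (b * s) • j := by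
      intro a b
      simp only [mul_add, add_mul, mul_smul_comm, smul_mul_assoc, mul_one, Units.mul_inv, h,
        smul_smul]
    simp only [hKs]
    constructor
    · rintro ⟨a, b, rfl⟩
      exact ⟨a, b * s, (h' a b).symm⟩
    · rintro ⟨a, b, hab⟩
      refine ⟨a, b * s, ?_⟩
      have := h' a (b * s)
      rw [mul_assoc b, ← sq, hs, mul_one, hab] at this
      rwa [Units.mul_left_inj, Units.mul_right_inj] at this

end Cfsg.Agent.H9.Sp
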