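import Cfsg.Agent.H9.Sp.Sub2
import Cfsg.Agent.H9.Sp.UnitFin
import Cfsg.Agent.H1.OSub3

/-! Subfield subgroups of the symplectic group in odd characteristic. -/

set_option autoImplicit false
set_option linter.unusedSimpArgs false
set_option linter.unusedSectionVars false
set_option linter.unusedVariables false

namespace Cfsg.Agent.H9.Sp

open Module Cfsg.Agent.H6

section Core

variable {k : Type*} [Field k] {K : Type*} [Field K] [Algebra k K] [Finite K]
  {V₀ : Type*} [AddCommGroup V₀] [Module k V₀] [FiniteDimensional k V₀]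
  {V : Type*} [AddCommGroup V] [Module K V] [Module k V] [IsScalarTower k K V]
  [FiniteDimensional K V]
variable {B₀ : V₀ →ₗ[k] V₀ →ₗ[k] k} {B : V →ₗ[K] V →ₗ[K] K} {j : V₀ →ₗ[k] V}
  {M : Subgroup (V ≃ₗ[K] V)}

theorem not_five_dvd (hr : Odd (finrank k K)) (hk : Nat.card k < 4) :
    ¬ 5 ∣ Nat.card (GL (Fin 2) K) := by
  have := Fintype.ofFinite K
  have : Finite k := Finite.of_injective _ (algebraMap k K).injective
  have h1 := Module.natCard_eq_pow_finrank (K := k) (V := K)
  have h2 : 1 < Nat.card k := Finite.one_lt_card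
  have h3 : ((Fintype.card K : ℕ) : ZMod 5) ^ 2 = -1 := by
    rw [← Nat.card_eq_fintype_card, h1, Nat.cast_pow, ← pow_mul, mul_comm, pow_mul]
    have : ((Nat.card k : ℕ) : ZMod 5) ^ 2 = -1 := by
      obtain h | h : Nat.card k = 2 ∨ Nat.card k = 3 := by omega
      all_goals rw [h]; decide
    rw [this, hr.neg_one_pow]
  rw [Matrix.card_GL_field, Fin.prod_univ_two, ← ZMod.natCast_eq_zero_iff]
  have h4 : 1 ≤ Fintype.card K := Fintype.card_pos
  simp only [Fin.val_zero, pow_zero, Fin.val_one, pow_one, Nat.cast_mul]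
  rw [Nat.cast_sub (Nat.one_le_pow _ _ h4), Nat.cast_sub (by nlinarith), Nat.cast_pow, Nat.cast_one]
  generalize ((Fintype.card K : ℕ) : ZMod 5) = q at *
  revert q
  decide

theorem sub_core_odd (h : RS B₀ B j) (hM : M ≤ Sp B) (hr : (finrank k K).Prime)
    (hn : 3 ≤ finrank k V₀) (h2K : (2 : K) ≠ 0)
    (hH : ∀ g ∈ Sp B, PH K j g → g ∈ M) (hg : ∃ g ∈ M, ¬ PH K j g) : Sp B ≤ M := by
  have hB := h.s
  have hB₀ := h.s0
  have hT : ∀ v (c : k), T B M (j v) (algebraMap k K c) := fun v c =>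
    (T_iff hB).2 (hH _ (tvE_mem _ _ _) (h.tvE_PH v c))
  by_contra hne
  have hL : ∀ l, Lam B₀ B j M l → ∃ a : k, algebraMap k K a = l :=
    fun l hl => h.lam_rat hM hT hr hn hne hl
  obtain ⟨g, hgM, hg⟩ := hg
  have gen : ∀ e u : V₀, e ≠ 0 → u ≠ 0 → B (j e) (g (j u)) ≠ 0 :=
    fun e u he hu h' => hg (h.block hM hT hn hL hgM he hu h')
  obtain ⟨e, f, hef⟩ := exists_hyp hB₀ (by omega)
  obtain ⟨w, w', hw, h1, h2, h3, h4⟩ := exists_hyp_perp hB₀ hn (e := e) (f := f) (by simp [hef])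
  have he0 : e ≠ 0 := by rintro rfl; simp at hef
  have hr3 : 3 ≤ finrank k K := by
    refine hn.trans (LinearMap.finrank_le_finrank_of_injective
      (f := (B.flip (g (j e))).restrictScalars k ∘ₗ j) ?_)
    rw [injective_iff_map_eq_zero]
    intro x hx
    by_contra h0
    exact gen x e h0 he0 hx
  have hk : ∀ x c, x ≠ 0 → T B M (j x) c → c ∈ (algebraMap k K).fieldRange := fun x c hx hc => by
    obtain ⟨c', h5⟩ := (h.R_rat hM hT h1).conjT hB hM (h.T_all hM hT hx hc w')
      (by simp [h.form, h2]) (by simp [h.form, h1])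
    obtain ⟨a, ha⟩ := hL _ (h.lam_of hM hT he0 h2 (by rintro a rfl; simp [hB₀.comm.1 h1] at hw) h5)
    rw [h.form, hw, map_one, mul_one] at ha
    exact ⟨a, ha⟩
  obtain ⟨y, hy⟩ := h.rat_of_val (v := g (j e)) fun x => by
    by_cases hx : x = 0
    · exact ⟨0, by simp [hx]⟩
    have h5 := hB.ne_comm (gen x e hx he0)
    have h6 : T B M (g (j e)) 1 := by simpa using (hT e 1).conj hM hgM
    generalize g (j e) = b at h5 h6
    have h7 := mul_ne_zero h5 h5
    have := H1.dickson_lemma h2K (H1.plGL M (j x) (B (j x) b • b) 0 0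
      fun v => B v (j x) = 0 ∧ B v b = 0) (algebraMap k K).fieldRange h7
      (fun s => ⟨?_, fun ⟨a, hs⟩ => ?_⟩) ?_ (by
        rw [← Nat.card_congr (algebraMap k K).rangeRestrictFieldEquiv.toEquiv]
        by_cases c : Nat.card k < 4
        exacts [Or.inr (not_five_dvd (hr.odd_of_ne_two (by omega)) c), Or.inl (by omega)])
    · obtain ⟨a, ha⟩ := this
      obtain ⟨a, ha⟩ := mem_bot_of_sq hr hr3 ha.symm
      exact ⟨a, ha.symm⟩
    · rintro ⟨t, ht, g1, g2, -, -, g3⟩
      simp only [H8.mat00, H8.mat01, H8.mat10, H8.mat11, one_smul, zero_smul, add_zero,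
        map_smul] at g1 g2
      refine neg_mem_iff.1 (hk x _ hx ⟨t, ht, fun v => ?_⟩)
      have g4 := g3 (v - (B b (j x))⁻¹ • (B v (j x) • b - B v b • j x))
        ⟨by simp [hB.alt]; field_simp; ring, by simp [hB.alt, hB.skew (j x) b]; field_simp; ring⟩
      have g5 : t b = b - (s / B b (j x)) • j x := smul_right_injective V h5 (by
        rw [hB.skew (j x)] at g2
        simp only [smul_sub, smul_smul, mul_div_cancel₀ _ h5]
        linear_combination (norm := module) -g2)
      simp only [map_sub, map_smul, g1, g5] at g4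
      rw [eq_add_of_sub_eq g4]
      match_scalars <;> field_simp <;> ring
    · obtain ⟨t, ht, e⟩ := hT x (-a)
      refine ⟨t, ht, by simp [e, hB.alt], ?_, by simp, by simp, fun v hv => by simp [e, hv.1]⟩
      simp only [e, H8.mat01, H8.mat11, map_smul, hB.skew (j x) b, map_neg, hs,
        LinearMap.smul_apply, smul_eq_mul]
      match_scalars <;> field_simp
    · obtain ⟨t, ht, e⟩ := h6
      exact ⟨t, ht, by simp [e], by simp [e, hB.alt], by simp, by simp, fun v hv => by simp [e, hv.2]⟩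
  refine gen y e ?_ he0 (by rw [hy, hB.alt])
  rintro rfl
  exact h.j_ne he0 (by simpa using hy)

end Core

open Matrix

theorem subfield_maximal_odd {F : Type*} [Field F] [Fintype F] {m : ℕ}
    (hm2 : 2 ≤ m) (hodd : Odd (Fintype.card F)) (F₀ : Subfield F) (r : ℕ) (hr : r.Prime)
    (hcard : Fintype.card F = Nat.card F₀ ^ r) (P : GL (Fin m ⊕ Fin m) F) (ζ : F) (hζ : ζ ≠ 0)
    (hP : Geo.IsFormRationalStructure (sympForm m F) F₀ ζ P) :
    Geo.IsMaximalIn (spGL m F) (Geo.subfieldSubgroup F₀ P ⊓ spGL m F) := by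
  have : Nonempty (Fin m ⊕ Fin m) := ⟨.inl ⟨0, by omega⟩⟩
  have hr' : finrank F₀ F = r := by
    have h1 := Module.natCard_eq_pow_finrank (K := F₀) (V := F)
    rw [Nat.card_eq_fintype_card, hcard] at h1
    exact (Nat.pow_right_injective (Finite.one_lt_card (α := F₀)) h1).symm
  let j : (Fin m ⊕ Fin m → F₀) →ₗ[F₀] (Fin m ⊕ Fin m → F) :=
    { toFun := fun x => (P : Matrix _ _ F) *ᵥ fun i => (x i : F)
      map_add' := fun x y => by rw [← Matrix.mulVec_add]; rfl
      map_smul' := fun a x => by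
        change _ = (a : F) • ((P : Matrix (Fin m ⊕ Fin m) (Fin m ⊕ Fin m) F) *ᵥ fun i => (x i : F))
        rw [← Matrix.mulVec_smul]; rfl }
  have hj : ∀ x, j x = (P : Matrix _ _ F) *ᵥ fun i => (x i : F) := fun _ => rfl
  let B := ζ • B0 m F
  let B₀ : (Fin m ⊕ Fin m → F₀) →ₗ[F₀] (Fin m ⊕ Fin m → F₀) →ₗ[F₀] F₀ :=
    LinearMap.mk₂ F₀ (fun x y => ⟨B (j x) (j y), hP _ _ (fun i => (x i).2) fun i => (y i).2⟩)
      (fun x y z => Subtype.ext (by simp)) (fun a x y => Subtype.ext (by
        simp [j_smul (K := F)]; rfl))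
      (fun x y z => Subtype.ext (by simp)) (fun a x y => Subtype.ext (by
        simp [j_smul (K := F)]; rfl))
  have hB : Symp B := ⟨fun v => by simp [B, (symp_B0 m F).alt], fun z hz =>
    (symp_B0 m F).nd z fun x => by simpa [B, hζ] using hz x⟩
  have hspan : Submodule.span F (Set.range j) = ⊤ := by
    rw [eq_top_iff]
    intro v _
    obtain ⟨v, rfl⟩ := (gl0 P).surjective v
    rw [pi_eq_sum_univ v, map_sum]
    refine Submodule.sum_mem _ fun i _ => ?_
    rw [map_smul]
    refine Submodule.smul_mem _ _ (Submodule.subset_span ⟨fun l => if i = l then 1 else 0, ?_⟩)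
    rw [hj, gl0_apply]
    congr 1
    ext l; split_ifs <;> rfl
  have hRS : RS B₀ B j := ⟨⟨fun v => Subtype.ext (hB.alt _), fun z hz => by
    have : j z = 0 := hB.nd _ fun x => by
      have : Submodule.span F (Set.range j) ≤ LinearMap.ker (B.flip (j z)) :=
        Submodule.span_le.2 (by rintro _ ⟨y, rfl⟩; exact congrArg Subtype.val (hz y))
      exact this (hspan ▸ trivial)
    have h2 : (fun i => (z i : F)) = 0 := (gl0 P).injective (by rw [map_zero]; exact this)
    ext i; exact congrFun h2 i⟩, hB, fun _ _ => rfl, hspan⟩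
  have hn : 3 ≤ finrank F₀ (Fin m ⊕ Fin m → F₀) := by rw [finrank_V]; omega
  refine isMaximalIn_transport gl0 _ _ (Sp B) (PH F j) (fun g => ?_) (fun g _ => ?_)
    (sub_proper hRS (hr' ▸ hr) hn) fun M hM h1 h2 =>
      sub_core_odd hRS hM (hr' ▸ hr) hn (two_ne_zero_of_odd hodd) h1 h2
  · rw [mem_spGL, mem_Sp, mem_Sp]
    simp [B, hζ]
  · rw [H7.mem_subfieldSubgroup_iff]
    have key : ∀ (c : F) (x : Fin m ⊕ Fin m → F₀), c • gl0 g (j x) =
        (P : Matrix _ _ F) *ᵥ ((c • H7.cj P⁻¹ g) *ᵥ fun i => (x i : F)) := by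
      intro c x
      rw [hj, gl0_apply, Matrix.smul_mulVec, Matrix.mulVec_smul, H7.cj_apply, inv_inv]
      simp only [Matrix.mulVec_mulVec, ← mul_assoc, Units.mul_inv, one_mul]
    refine exists_congr fun c => and_congr_right fun hc => ⟨fun h x => ?_, fun h a b => ?_⟩
    · refine ⟨fun a => ⟨((c • H7.cj P⁻¹ g) *ᵥ fun i => (x i : F)) a, ?_⟩, key c x⟩
      change ∑ b, c * H7.cj P⁻¹ g a b * (x b : F) ∈ F₀
      exact F₀.sum_mem fun b _ => F₀.mul_mem (h a b) (x b).2
    · obtain ⟨y, hy⟩ := h (Pi.single b 1)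
      rw [key, hj] at hy
      have h2 : ((c • H7.cj P⁻¹ g) *ᵥ fun i => ((Pi.single b (1 : F₀) : Fin m ⊕ Fin m → F₀) i : F)) =
          fun i => (y i : F) := (gl0 P).injective hy
      have h3 : (fun i => ((Pi.single b (1 : F₀) : Fin m ⊕ Fin m → F₀) i : F)) = Pi.single b 1 := by
        ext i; by_cases hi : i = b <;> simp [hi]
      rw [h3, Matrix.mulVec_single_one] at h2
      have h4 : c * H7.cj P⁻¹ g a b = y a := congrFun h2 a
      rw [h4]; exact (y a).2

end Cfsg.Agent.H9.Sp
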