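import Cfsg.Agent.H9.Sp.Ext
import Cfsg.Agent.H6.Tens2

/-! Symmetric bilinear spaces in odd characteristic: reflections, Siegel transformations,
irreducibility. -/

set_option autoImplicit false
set_option linter.unusedSimpArgs false
set_option linter.unusedSectionVars false

namespace Cfsg.Agent.H9.Sp

open Module Cfsg.Agent.H6

attribute [-simp] LinearEquiv.coe_inv Submodule.mem_map_equiv

variable {F : Type*} [Field F] {W : Type*} [AddCommGroup W] [Module F W]

/-- non-degenerate symmetric bilinear forms, characteristic not two -/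
structure Sym (f : W →ₗ[F] W →ₗ[F] F) : Prop where
  symm : ∀ x y, f x y = f y x
  nd : ∀ z, (∀ x, f x z = 0) → z = 0
  two : (2 : F) ≠ 0

variable {f : W →ₗ[F] W →ₗ[F] F}

theorem Sym.ext (hf : Sym f) {u v : W} (h : ∀ x, f x u = f x v) : u = v := by
  rw [← sub_eq_zero]; exact hf.nd _ fun x => by simp [h]

theorem Sym.exists_ne (hf : Sym f) {z : W} (h : z ≠ 0) : ∃ x, f z x ≠ 0 := by
  by_contra! h'; exact h (hf.nd z fun x => by rw [hf.symm, h'])

theorem Sym.ne_zero (hf : Sym f) {z : W} (h : z ≠ 0) : f z ≠ 0 := by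
  obtain ⟨x, hx⟩ := hf.exists_ne h
  intro h0; simp [h0] at hx

theorem Sym.exists_dual [FiniteDimensional F W] (hf : Sym f) (φ : Dual F W) :
    ∃ s, ∀ x, f s x = φ x := by
  have hinj : Function.Injective f := by
    rw [injective_iff_map_eq_zero]
    intro z hz
    exact hf.nd z fun x => by rw [hf.symm]; simp [hz]
  have hsurj : Function.Surjective f :=
    (LinearMap.injective_iff_surjective_of_finrank_eq_finrank (by simp)).1 hinj
  obtain ⟨s, hs⟩ := hsurj φ
  exact ⟨s, fun x => by rw [← hs]⟩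

theorem Sym.mem_of_perp [FiniteDimensional F W] (hf : Sym f) {K : Submodule F W} {x : W}
    (h : ∀ s, (∀ k ∈ K, f s k = 0) → f s x = 0) : x ∈ K := by
  by_contra hx
  obtain ⟨φ, h1, h2⟩ := exists_dual_one hx
  obtain ⟨s, hs⟩ := hf.exists_dual φ
  have := h s fun k hk => by rw [hs, h1 k hk]
  simp [hs, h2] at this

theorem Sym.finrank_perp [FiniteDimensional F W] (hf : Sym f) (K : Submodule F W) :
    finrank F K + finrank F (perp f K) = finrank F W := by
  have hn : LinearMap.BilinForm.Nondegenerate f := by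
    refine ⟨fun x hx => hf.nd x fun y => by rw [hf.symm]; exact hx y, fun x hx => hf.nd x hx⟩
  have h1 := LinearMap.BilinForm.finrank_orthogonal hn K
  have h2 : LinearMap.BilinForm.orthogonal f K = perp f K := by
    ext x; rfl
  rw [h2] at h1
  have := Submodule.finrank_le K
  omega

theorem Sym.exists_O [FiniteDimensional F W] (hf : Sym f) (α : W →ₗ[F] W)
    (h : ∀ u v, f (α u) (α v) = f u v) : ∃ g ∈ Sp f, ∀ x, g x = α x :=
  ⟨LinearEquiv.ofInjectiveEndo α (by
    rw [injective_iff_map_eq_zero]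
    intro z hz
    exact hf.nd z fun x => by rw [← h, hz, map_zero]), h, fun _ => rfl⟩

theorem Sym.exists_refl [FiniteDimensional F W] (hf : Sym f) {w : W} (hw : f w w ≠ 0) :
    ∃ r ∈ Sp f, (∀ v, r v = v - (2 * f w v / f w w) • w) ∧ ∀ v, r⁻¹ v = r v := by
  obtain ⟨r, hr, h⟩ := hf.exists_O (LinearMap.id - ((2 / f w w) • f w).smulRight w) (by
    intro u v
    simp [hf.symm u w]
    field_simp
    ring)
  have h' : ∀ v, r v = v - (2 * f w v / f w w) • w := fun v => by
    simp [h]; congr 1; ring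
  refine ⟨r, hr, h', fun v => r.injective ?_⟩
  rw [apply_inv_apply, h', h']
  simp only [map_sub, map_smul, smul_eq_mul]
  match_scalars
  · ring
  · field_simp; ring

theorem Sym.exists_siegel [FiniteDimensional F W] (hf : Sym f) {w z : W} (hw : f w w = 0)
    (hz : f w z = 0) : ∃ e ∈ Sp f,
      (∀ v, e v = v + f w v • z - (f z v + f z z / 2 * f w v) • w) ∧
      ∀ v, e⁻¹ v = v - f w v • z + (f z v - f z z / 2 * f w v) • w := by
  have h2 := hf.two
  obtain ⟨r, hr, h⟩ := hf.exists_O (LinearMap.id + (f w).smulRight z -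
      (f z + (f z z / 2) • f w).smulRight w) (by
    intro u v
    simp [hf.symm u w, hf.symm u z, hf.symm z w, hw, hz]
    field_simp
    ring)
  have h' : ∀ v, r v = v + f w v • z - (f z v + f z z / 2 * f w v) • w := fun v => by
    simp [h]
  refine ⟨r, hr, h', fun v => r.injective ?_⟩
  rw [apply_inv_apply, h']
  simp only [map_sub, map_add, map_smul, smul_eq_mul, hw, hz, hf.symm z w]
  match_scalars
  · ring
  · ring
  · field_simp; ring

theorem Sym.eq_zero_of_sing (hf : Sym f) {Y : Submodule F W} (h : ∀ y ∈ Y, f y y = 0) {x y : W}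
    (hx : x ∈ Y) (hy : y ∈ Y) : f x y = 0 := by
  have := h _ (Y.add_mem hx hy)
  simp only [map_add, LinearMap.add_apply, h x hx, h y hy, hf.symm y x] at this
  exact (mul_eq_zero.1 (show 2 * f x y = 0 by linear_combination this)).resolve_left hf.two

theorem Sym.exists_sing [Finite F] [FiniteDimensional F W] (hf : Sym f) {Y : Submodule F W}
    (hY : 3 ≤ finrank F Y) : ∃ w ∈ Y, w ≠ 0 ∧ f w w = 0 := by
  by_contra! h
  obtain ⟨y₁, h1, h1'⟩ := exists_ne_zero_of_finrank (K := Y) (by omega)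
  obtain ⟨y₂, ⟨h2, h2'⟩, h2''⟩ := exists_ne_zero_of_finrank (K := Y ⊓ LinearMap.ker (f y₁))
    (by have := finrank_inf_ker_ge Y (f y₁); omega)
  obtain ⟨y₃, ⟨⟨h3, h3'⟩, h3''⟩, h3'''⟩ := exists_ne_zero_of_finrank
    (K := Y ⊓ LinearMap.ker (f y₁) ⊓ LinearMap.ker (f y₂))
    (by have := finrank_inf_ker_ge Y (f y₁)
        have := finrank_inf_ker_ge (Y ⊓ LinearMap.ker (f y₁)) (f y₂); omega)
  replace h2' : f y₁ y₂ = 0 := h2'
  replace h3' : f y₁ y₃ = 0 := h3'
  replace h3'' : f y₂ y₃ = 0 := h3''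
  obtain ⟨a, b, hab⟩ := exists_sq_add_sq F _ _ (f y₃ y₃) (h y₁ h1 h1') (h y₂ h2 h2'')
  refine h (a • y₁ + b • y₂ + y₃) (Y.add_mem (Y.add_mem (Y.smul_mem _ h1) (Y.smul_mem _ h2)) h3)
    (fun h0 => h y₃ h3 h3''' ?_) ?_
  · simpa [hf.symm y₃ y₁, hf.symm y₃ y₂, h3', h3''] using congrArg (f y₃) h0
  · simp [hf.symm y₃ y₁, hf.symm y₃ y₂, hf.symm y₂ y₁, h2', h3', h3'']
    linear_combination hab

/-- irreducibility of the group generated by reflections -/
theorem Sym.irr [Finite F] [FiniteDimensional F W] (hf : Sym f) {Y Z : Submodule F W}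
    (hnd : ∀ y ∈ Y, (∀ y' ∈ Y, f y' y = 0) → y = 0)
    (hY : 3 ≤ finrank F Y ∨ 4 ≤ Nat.card F) {z : W} (hz : z ∈ Z) (hzY : z ∈ Y) (hz0 : z ≠ 0)
    (h : ∀ x ∈ Y, f x x ≠ 0 → f z x ≠ 0 → x ∈ Z) : Y ≤ Z := by
  classical
  by_contra hYZ
  obtain ⟨x, hx, hxZ, hxz⟩ : ∃ x ∈ Y, x ∉ Z ∧ f z x ≠ 0 := by
    obtain ⟨x₁, h1, h2⟩ := SetLike.not_le_iff_exists.1 hYZ
    obtain ⟨x₂, h3, h4⟩ : ∃ x ∈ Y, f z x ≠ 0 := by
      by_contra! h'
      exact hz0 (hnd z hzY fun y hy => by rw [hf.symm, h' y hy])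
    by_cases h5 : f z x₁ = 0
    · by_cases h6 : x₂ ∈ Z
      · exact ⟨x₁ + x₂, Y.add_mem h1 h3, fun h7 => h2 ((Z.add_mem_iff_left h6).1 h7), by
          simpa [h5] using h4⟩
      · exact ⟨x₂, h3, h6, h4⟩
    · exact ⟨x₁, h1, h2, h5⟩
  have hxx : f x x = 0 := by
    by_contra h'
    exact hxZ (h x hx h' hxz)
  rcases hY with hY | hY
  · obtain ⟨y, ⟨⟨h1, h2⟩, h3⟩, h4⟩ : ∃ y ∈ Y ⊓ LinearMap.ker (f x) ⊓ LinearMap.ker (f z),
        f y y ≠ 0 := by
      by_contra! h'
      obtain ⟨y, hy, hy0⟩ := exists_ne_zero_of_finrank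
        (K := Y ⊓ LinearMap.ker (f x) ⊓ LinearMap.ker (f z))
        (by have := finrank_inf_ker_ge Y (f x)
            have := finrank_inf_ker_ge (Y ⊓ LinearMap.ker (f x)) (f z); omega)
      refine hy0 (hnd y hy.1.1 fun v hv => ?_)
      have k1 : f x y = 0 := hy.1.2
      have k2 : f z y = 0 := hy.2
      have := hf.eq_zero_of_sing h' (x := v - (f x v / f z x) • z -
        ((f z v - f x v / f z x * f z z) / f z x) • x)
        ⟨⟨Y.sub_mem (Y.sub_mem hv (Y.smul_mem _ hzY)) (Y.smul_mem _ hx), by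
          simp [hxx, hf.symm x z, hxz]⟩, by
          simp; field_simp; ring⟩ hy
      simpa [k1, k2] using this
    replace h2 : f x y = 0 := h2
    replace h3 : f z y = 0 := h3
    have k1 := h (x + y) (Y.add_mem hx h1) (by simpa [hxx, h2, hf.symm y x] using h4)
      (by simpa [h3] using hxz)
    have k2 := h (x - y) (Y.sub_mem hx h1) (by simpa [hxx, h2, hf.symm y x] using h4)
      (by simpa [h3] using hxz)
    have k3 := Z.smul_mem (2 : F)⁻¹ (Z.add_mem k1 k2)
    apply hxZ
    convert k3 using 1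
    have := hf.two
    match_scalars <;> field_simp <;> ring
  · have := Fintype.ofFinite F
    obtain ⟨l, hl⟩ : ∃ l : F, l ∉ ({0, -2 * f z x / f z z, -f z x / f z z} : Finset F) := by
      by_contra! h'
      have h6 := Finset.card_le_card (show Finset.univ ⊆ _ from fun l _ => h' l)
      have h7 : ({0, -2 * f z x / f z z, -f z x / f z z} : Finset F).card ≤ 3 :=
        Finset.card_le_three
      rw [Finset.card_univ, ← Nat.card_eq_fintype_card] at h6
      omega
    simp only [Finset.mem_insert, Finset.mem_singleton, not_or] at hl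
    obtain ⟨l0, l1, l2⟩ := hl
    have k1 := h (x + l • z) (Y.add_mem hx (Y.smul_mem _ hzY)) (by
      simp only [map_add, map_smul, LinearMap.add_apply, LinearMap.smul_apply, hxx, hf.symm x z,
        smul_eq_mul]
      intro h0
      have h1 : 2 * f z x + l * f z z = 0 :=
        (mul_eq_zero.1 (show l * (2 * f z x + l * f z z) = 0 by
          linear_combination h0)).resolve_left l0
      by_cases h2 : f z z = 0
      · simp [h2, hf.two, hxz] at h1
      · exact l1 (by field_simp; linear_combination h1)) (by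
      simp only [map_add, map_smul, smul_eq_mul]
      intro h1
      by_cases h2 : f z z = 0
      · simp [h2, hxz] at h1
      · exact l2 (by field_simp; linear_combination h1))
    exact hxZ ((Z.add_mem_iff_left (Z.smul_mem _ hz)).1 k1)

theorem Sym.irr_top [Finite F] [FiniteDimensional F W] (hf : Sym f) (hW : 3 ≤ finrank F W)
    {Z : Submodule F W} {z : W} (hz : z ∈ Z) (hz0 : z ≠ 0)
    (h : ∀ x, f x x ≠ 0 → f z x ≠ 0 → x ∈ Z) (x : W) : x ∈ Z :=
  hf.irr (Y := ⊤) (fun y _ hy => hf.nd y fun x => hy x trivial) (Or.inl (by simpa)) hz trivial hz0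
    (fun x _ => h x) trivial

/-- the non-singular vectors span any subspace that is not totally singular -/
theorem Sym.span_nonsing (hf : Sym f) (hF : ∃ c : F, c ≠ 0 ∧ c ≠ 1) {Y Z : Submodule F W}
    {w : W} (hw : w ∈ Y) (hw' : f w w ≠ 0) (h : ∀ x ∈ Y, f x x ≠ 0 → x ∈ Z) : Y ≤ Z := by
  intro x hx
  by_cases hxx : f x x = 0
  swap
  · exact h x hx hxx
  obtain ⟨c, hc0, hc1⟩ := hF
  by_cases h1 : 2 * f w x + f w w = 0
  · refine (Z.add_mem_iff_left (Z.smul_mem c (h w hw hw'))).1 (h _ (Y.add_mem hx (Y.smul_mem _ hw)) ?_)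
    simp only [map_add, map_smul, LinearMap.add_apply, LinearMap.smul_apply, hxx, hf.symm x w,
      smul_eq_mul]
    intro h0
    have : c * (c - 1) * f w w = 0 := by linear_combination h0 - c * h1
    simp [hc0, sub_eq_zero, hc1, hw'] at this
  · refine (Z.add_mem_iff_left (h w hw hw')).1 (h _ (Y.add_mem hx hw) ?_)
    simp only [map_add, LinearMap.add_apply, hxx, hf.symm x w]
    intro h0
    exact h1 (by linear_combination h0)

theorem Sym.exists_c (hf : Sym f) : ∃ c : F, c ≠ 0 ∧ c ≠ 1 :=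
  ⟨-1, by simp, fun h => hf.two (by linear_combination -h)⟩

theorem Sym.exists_nonsing (hf : Sym f) {z : W} (hz : z ≠ 0) : ∃ w, f w w ≠ 0 := by
  by_contra! h
  exact hz (hf.nd z fun x => hf.eq_zero_of_sing (Y := ⊤) (fun y _ => h y) trivial trivial)

theorem Sym.exists_nonsing_ne (hf : Sym f) {φ : Dual F W} (hφ : φ ≠ 0) :
    ∃ w, f w w ≠ 0 ∧ φ w ≠ 0 := by
  by_contra! h
  obtain ⟨z, hz⟩ := exists_apply_eq_one hφ
  obtain ⟨w, hw⟩ := hf.exists_nonsing (z := z) (by rintro rfl; simp at hz)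
  have := hf.span_nonsing hf.exists_c (Y := ⊤) (Z := LinearMap.ker φ) trivial hw
    (fun x _ hx => h x hx) (x := z) trivial
  simp [hz] at this

theorem Sym.nd_perp (hf : Sym f) {w : W} (hw : f w w ≠ 0) :
    ∀ y ∈ LinearMap.ker (f w), (∀ y' ∈ LinearMap.ker (f w), f y' y = 0) → y = 0 := by
  intro y hy h
  replace hy : f w y = 0 := hy
  refine hf.nd y fun x => ?_
  simpa [hy] using h (x - (f w x / f w w) • w) (by simp [hw])

/-- a self-adjoint map for which all non-singular vectors are eigenvectors is scalar -/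
theorem Sym.scalar_of_eig [Finite F] [FiniteDimensional F W] (hf : Sym f) (hW : 3 ≤ finrank F W)
    {S : W →ₗ[F] W} (hS : ∀ x y, f (S x) y = f x (S y))
    (h : ∀ w, f w w ≠ 0 → ∃ c : F, S w = c • w) : ∃ c : F, ∀ w, S w = c • w := by
  obtain ⟨z, -, hz⟩ := exists_ne_zero_of_finrank (K := (⊤ : Submodule F W)) (by simp; omega)
  obtain ⟨w, hw⟩ := hf.exists_nonsing hz
  obtain ⟨c, hc⟩ := h w hw
  refine ⟨c, fun x => ?_⟩
  have := hf.irr_top hW (Z := LinearMap.ker (S - c • LinearMap.id)) (z := w) (by simp [hc])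
    (by rintro rfl; simp at hw) (fun x h1 h2 => by
      obtain ⟨d, hd⟩ := h x h1
      have := hS w x
      simp only [hc, hd, map_smul, LinearMap.smul_apply, smul_eq_mul] at this
      simp [hd, mul_right_cancel₀ h2 this]) x
  simpa [sub_eq_zero] using this

end Cfsg.Agent.H9.Sp
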