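import Cfsg.Agent.H9.Sp.Ten1

/-! Tensor product subgroups of symplectic groups: the model `V = U →ₗ W`, first steps. -/

set_option autoImplicit false
set_option linter.unusedSimpArgs false
set_option linter.unusedSectionVars false

namespace Cfsg.Agent.H9.Sp

open Module Cfsg.Agent.H6

attribute [-simp] LinearEquiv.coe_inv Submodule.mem_map_equiv

variable {F : Type*} [Field F] {U : Type*} [AddCommGroup U] [Module F U] [FiniteDimensional F U]
  {W : Type*} [AddCommGroup W] [Module F W] [FiniteDimensional F W]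

/-- the form `B` is the tensor product of `B₁` and `f` -/
structure TS (B₁ : U →ₗ[F] U →ₗ[F] F) (f : W →ₗ[F] W →ₗ[F] F)
    (B : (U →ₗ[F] W) →ₗ[F] (U →ₗ[F] W) →ₗ[F] F) : Prop where
  s1 : Symp B₁
  s2 : Sym f
  s : Symp B
  hB : ∀ x w v, B (rk (B₁ x) w) v = f w (v x)

variable {B₁ : U →ₗ[F] U →ₗ[F] F} {f : W →ₗ[F] W →ₗ[F] F}
  {B : (U →ₗ[F] W) →ₗ[F] (U →ₗ[F] W) →ₗ[F] F} {M : Subgroup ((U →ₗ[F] W) ≃ₗ[F] (U →ₗ[F] W))}

theorem Symp.exists_left (h : Symp B₁) (φ : Dual F U) : ∃ x, B₁ x = φ := by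
  obtain ⟨s, hs⟩ := h.exists_dual φ
  exact ⟨-s, by ext y; simp [← hs, h.skew y s]⟩

theorem Symp.left_ne (h : Symp B₁) {x : U} (hx : x ≠ 0) : B₁ x ≠ 0 := by
  obtain ⟨y, hy⟩ := h.exists_ne hx
  intro h0; simp [h0] at hy

theorem TS.ext_pt (hT : TS B₁ f B) {Z : Type*} [AddCommGroup Z] [Module F Z]
    {p q : (U →ₗ[F] W) →ₗ[F] Z} (h : ∀ x w, p (rk (B₁ x) w) = q (rk (B₁ x) w)) : p = q :=
  ext_rk fun φ w => by
    obtain ⟨x, rfl⟩ := hT.s1.exists_left φ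
    exact h x w

theorem TS.hB' (hT : TS B₁ f B) (x : U) (w : W) (v : U →ₗ[F] W) :
    B v (rk (B₁ x) w) = -f w (v x) := by rw [hT.s.skew, hT.hB]

theorem TS.kr_mem' (hT : TS B₁ f B) {A : W ≃ₗ[F] W} {h : U ≃ₗ[F] U} {μ ν : F}
    (hA : ∀ w w', f (A w) (A w') = μ * f w w') (hh : ∀ x y, B₁ (h x) (h y) = ν * B₁ x y)
    (h1 : μ * ν = 1) : kr A h ∈ Sp B := by
  intro X Y
  have := hT.ext_pt (p := B.flip (kr A h Y) ∘ₗ (kr A h : (U →ₗ[F] W) →ₗ[F] (U →ₗ[F] W)))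
    (q := B.flip Y) fun x w => by
      have e : kr A h (rk (B₁ x) w) = rk (B₁ (ν • h⁻¹ x)) (A w) := by
        ext y
        have := hh (h⁻¹ x) y
        rw [apply_inv_apply] at this
        simp [this]
      simp only [LinearMap.comp_apply, LinearEquiv.coe_coe, LinearMap.flip_apply, e, hT.hB]
      simp only [kr_apply, map_smul, apply_inv_apply, hA, smul_eq_mul]
      linear_combination f w (Y x) * h1
  exact LinearMap.congr_fun this X

theorem TS.kr_mem (hT : TS B₁ f B) {A : W ≃ₗ[F] W} {h : U ≃ₗ[F] U} (hA : A ∈ Sp f)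
    (hh : h ∈ Sp B₁) : kr A h ∈ Sp B :=
  hT.kr_mem' (μ := 1) (ν := 1) (fun w w' => by rw [hA, one_mul])
    (fun w w' => by rw [hh, one_mul]) (by simp)

theorem kr_pt {A : W ≃ₗ[F] W} {h : U ≃ₗ[F] U} (hh : h ∈ Sp B₁) (x : U) (w : W) :
    kr A h (rk (B₁ x) w) = rk (B₁ (h⁻¹ x)) (A w) := by
  ext y
  simp [Sp_right hh]

theorem TS.L_iso (hT : TS B₁ f B) (u : U) : ∀ x ∈ TL W (B₁ u), ∀ y ∈ TL W (B₁ u), B x y = 0 := by
  rintro _ ⟨w, rfl⟩ _ ⟨w', rfl⟩
  simp [hT.hB, hT.s1.alt]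

theorem TS.mem_perp_L (hT : TS B₁ f B) {u : U} {v : U →ₗ[F] W} :
    v ∈ perp B (TL W (B₁ u)) ↔ v u = 0 := by
  constructor
  · intro h
    exact hT.s2.nd _ fun w => by rw [← hT.hB]; exact h _ (rk_mem_TL _ _)
  · rintro h _ ⟨w, rfl⟩
    simp [hT.hB, h]

theorem TS.L_apply (hT : TS B₁ f B) {u : U} {v : U →ₗ[F] W} (hv : v ∈ TL W (B₁ u)) : v u = 0 :=
  TL_apply hv (hT.s1.alt u)

theorem TS.exists_cm (hT : TS B₁ f B) (hM : M ≤ Sp B) {u : U} (hu : u ≠ 0)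
    {y : (U →ₗ[F] W) →ₗ[F] (U →ₗ[F] W)} (hy : y ∈ EL M (TL W (B₁ u))) :
    ∃ S : W →ₗ[F] W, (∀ w w', f (S w) w' = f w (S w')) ∧ y = cm (B₁ u) S u := by
  obtain ⟨x₁, hx₁⟩ := hT.s1.exists_one hu
  have hx₀ : B₁ (-x₁) u = 1 := by simp [hT.s1.skew x₁ u, hx₁]
  let S : W →ₗ[F] W := LinearMap.applyₗ x₁ ∘ₗ y ∘ₗ rk (B₁ (-x₁))
  have hS : ∀ v, y v = rk (B₁ u) (S (v u)) := by
    intro v
    have h1 := EL_perp hT.s hM (hT.L_iso u) hy (x := v - rk (B₁ (-x₁)) (v u))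
      (hT.mem_perp_L.2 (by rw [LinearMap.sub_apply, rk_apply, hx₀, one_smul, sub_self]))
    rw [map_sub, sub_eq_zero] at h1
    rw [h1]
    exact eq_rk_of_mem (hy.1 _) hx₁
  refine ⟨S, fun w w' => ?_, LinearMap.ext hS⟩
  have := EL_symm hT.s hM (hT.L_iso u) hy (rk (B₁ (-x₁)) w) (rk (B₁ (-x₁)) w')
  rw [hS, hS, hT.hB, hT.hB] at this
  simp only [rk_apply, hx₀, one_smul] at this
  rw [this, hT.s2.symm]

/-- the elements `t_u ⊗ S` lying in `M` -/
def XL (B₁ : U →ₗ[F] U →ₗ[F] F) (M : Subgroup ((U →ₗ[F] W) ≃ₗ[F] (U →ₗ[F] W))) (u : U)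
    (S : W →ₗ[F] W) : Prop := cm (B₁ u) S u ∈ EL M (TL W (B₁ u))

theorem XL.add {u : U} {S S' : W →ₗ[F] W} (h : XL B₁ M u S) (h' : XL B₁ M u S') :
    XL B₁ M u (S + S') := by
  unfold XL
  convert (EL M _).add_mem h h' using 1
  ext; simp

theorem XL.sub {u : U} {S S' : W →ₗ[F] W} (h : XL B₁ M u S) (h' : XL B₁ M u S') :
    XL B₁ M u (S - S') := by
  unfold XL
  convert (EL M _).sub_mem h h' using 1
  ext; simp [smul_sub]

theorem XL.zero (u : U) : XL B₁ M u 0 := by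
  unfold XL
  convert (EL M (TL W (B₁ u))).zero_mem using 1
  ext; simp

theorem XL.congr {u : U} {S S' : W →ₗ[F] W} (h : XL B₁ M u S) (h' : ∀ w, S' w = S w) :
    XL B₁ M u S' := by rwa [LinearMap.ext h']

theorem XL.conj (hT : TS B₁ f B) (hH : ∀ g ∈ Sp B, Kron g → g ∈ M) {u : U} {S : W →ₗ[F] W}
    (h : XL B₁ M u S) {A : W ≃ₗ[F] W} (hA : A ∈ Sp f) : XL B₁ M u (cj A S) := by
  unfold XL
  convert EL_conj_stab h (hH _ (hT.kr_mem hA (Sp B₁).one_mem) (kr_kron _ _)) (by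
    rintro _ ⟨w, rfl⟩
    rw [kr_pt (Sp B₁).one_mem]
    exact rk_mem_TL _ _) using 1
  ext; simp

theorem XL.smul [Finite F] (hT : TS B₁ f B) (hH : ∀ g ∈ Sp B, Kron g → g ∈ M) {u : U}
    (hu : u ≠ 0) {S : W →ₗ[F] W} (h : XL B₁ M u S) (c : F) : XL B₁ M u (c • S) := by
  have h1 : ∀ l : F, XL B₁ M u ((l ^ 2) • S) := by
    intro l
    by_cases hl : l = 0
    · simpa [hl] using XL.zero u
    obtain ⟨k, hk, hku⟩ := Sp_trans hT.s1 hu (smul_ne_zero hl hu)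
    have e : ∀ w, kr (1 : W ≃ₗ[F] W) k⁻¹ (rk (B₁ u) w) = rk (B₁ u) (l • w) := fun w => by
      rw [kr_pt ((Sp B₁).inv_mem hk), inv_inv, hku, map_smul, rk_smul]
      rfl
    unfold XL
    convert EL_conj_stab h (hH _ (hT.kr_mem (Sp f).one_mem ((Sp B₁).inv_mem hk)) (kr_kron _ _)) (by
      rintro _ ⟨w, rfl⟩
      rw [e]
      exact rk_mem_TL _ _) using 1
    ext1 v
    rw [cj_apply, cm_apply, cm_apply, e]
    simp [hku, sq, smul_smul]
  obtain ⟨a, b, hab⟩ := exists_sq_add_sq F 1 1 (-c) one_ne_zero one_ne_zero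
  refine ((h1 a).add (h1 b)).congr fun w => ?_
  simp only [LinearMap.smul_apply, LinearMap.add_apply, ← add_smul]
  congr 1
  linear_combination -hab

theorem kr_tvE (hT : TS B₁ f B) (u : U) (c : F) (v : U →ₗ[F] W) :
    kr (1 : W ≃ₗ[F] W) (tvE hT.s1 u (-c)) v = v + c • rk (B₁ u) (v u) := by
  ext y
  simp [hT.s1.skew y u, smul_smul]

theorem XL.scalar (hT : TS B₁ f B) (hH : ∀ g ∈ Sp B, Kron g → g ∈ M) (u : U) (c : F) :
    XL B₁ M u (c • LinearMap.id) :=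
  ⟨fun _ => rk_mem_TL _ _, fun v hv => by simp [hT.L_apply hv], _,
    hH _ (hT.kr_mem (Sp f).one_mem (tvE_mem hT.s1 u (-c))) (kr_kron _ _), fun v => by
      rw [kr_tvE hT]; simp⟩

/-- the symmetric product of two vectors -/
def sp2 (f : W →ₗ[F] W →ₗ[F] F) (w z : W) : W →ₗ[F] W := rk (f w) z + rk (f z) w

@[simp] theorem sp2_apply (w z x : W) : sp2 f w z x = f w x • z + f z x • w := rfl

theorem cj_sp2 {A : W ≃ₗ[F] W} (hA : A ∈ Sp f) (w z : W) :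
    cj A (sp2 f w z) = sp2 f (A w) (A z) := by
  ext x; simp [Sp_left hA]

theorem XL.exists_sing [Finite F] (hT : TS B₁ f B) (hH : ∀ g ∈ Sp B, Kron g → g ∈ M)
    (hW : 3 ≤ finrank F W) (hq : 4 ≤ finrank F W ∨ 4 ≤ Nat.card F) {u : U}
    (hu : u ≠ 0) {S : W →ₗ[F] W} (h : XL B₁ M u S) (hS : ∀ w w', f (S w) w' = f w (S w'))
    (hS' : ¬ ∃ c : F, ∀ w, S w = c • w) :
    ∃ w, w ≠ 0 ∧ f w w = 0 ∧ XL B₁ M u (rk (f w) w) := by
  have hf := hT.s2
  have h2 := hf.two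
  obtain ⟨w, hw, hw'⟩ : ∃ w, f w w ≠ 0 ∧ ∀ c : F, S w ≠ c • w := by
    by_contra! h'
    exact hS' (hf.scalar_of_eig hW hS h')
  have k1 : XL B₁ M u (sp2 f w (S w - (f w (S w) / f w w) • w)) := by
    obtain ⟨r, hr, h1, h3⟩ := hf.exists_refl hw
    refine ((h.sub (h.conj hT hH hr)).smul hT hH hu (f w w / 2)).congr fun x => ?_
    simp only [sp2_apply, map_sub, map_smul, LinearMap.sub_apply, LinearMap.smul_apply, cj_apply,
      h3, h1, smul_eq_mul, ← hS w x]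
    match_scalars <;> field_simp <;> ring
  have k2 : ∀ w z, f w w ≠ 0 → z ≠ 0 → f w z = 0 → XL B₁ M u (sp2 f w z) →
      ∀ x, f w x = 0 → XL B₁ M u (sp2 f w x) := by
    intro w z hw hz hwz hX x hx
    let Z : Submodule F W :=
      { carrier := {z | XL B₁ M u (sp2 f w z)}
        add_mem' := fun ha hb => (XL.add ha hb).congr fun x => by simp [add_smul]; abel
        zero_mem' := (XL.zero u).congr fun x => by simp
        smul_mem' := fun c a ha => (XL.smul hT hH hu ha c).congr fun x => by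
          simp [smul_smul, mul_comm] }
    refine hf.irr (Z := Z) (hf.nd_perp hw) (hq.imp (fun h => ?_) id) hX hwz hz
      (fun x hx h1 h3 => ?_) hx
    · have := finrank_ker_ge (f w); omega
    · obtain ⟨r, hr, h4, -⟩ := hf.exists_refl h1
      replace hx : f w x = 0 := hx
      have h5 := XL.conj hT hH hX hr
      rw [cj_sp2 hr, h4, h4] at h5
      refine ((XL.sub hX h5).smul hT hH hu (f x x / (2 * f z x))).congr fun y => ?_
      simp only [sp2_apply, map_sub, map_smul, LinearMap.sub_apply, LinearMap.smul_apply,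
        smul_eq_mul, hf.symm x w, hf.symm x z, hx]
      match_scalars <;> field_simp <;> ring
  have k3 : ∀ w z, f w w ≠ 0 → f z z = 0 → f w z = 0 → XL B₁ M u (sp2 f w z) →
      XL B₁ M u (rk (f z) z) := by
    intro w z hw hz hwz hX
    have h4 : (4 : F) ≠ 0 := by rw [show (4 : F) = 2 * 2 by norm_num]; exact mul_ne_zero h2 h2
    have e : f ((2 : F) • w + z) ((2 : F) • w + z) = 4 * f w w := by
      simp [hz, hwz, hf.symm z w]; ring
    obtain ⟨r, hr, h1, -⟩ := hf.exists_refl (w := (2 : F) • w + z) (by rw [e]; simp [h4, hw])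
    have h5 := XL.conj hT hH hX hr
    rw [cj_sp2 hr, h1, h1, e] at h5
    refine ((XL.add hX h5).smul hT hH hu (-2⁻¹)).congr fun y => ?_
    simp only [sp2_apply, map_sub, map_add, map_smul, LinearMap.sub_apply, LinearMap.add_apply,
      LinearMap.smul_apply, smul_eq_mul, hf.symm z w, hz, hwz, rk_apply]
    match_scalars <;> field_simp <;> ring
  have k4 := k2 _ _ hw (fun h0 => hw' _ (sub_eq_zero.1 h0)) (by simp [hw]) k1
  obtain ⟨w₀, -, h3, h4⟩ := hf.exists_sing (Y := ⊤) (by simpa)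
  obtain ⟨z, ⟨h5, h6⟩, h7⟩ := exists_ne_zero_of_finrank
    (K := LinearMap.ker (f w) ⊓ LinearMap.ker (f w₀))
    (by have := finrank_ker₂_ge (f w) (f w₀); omega)
  replace h5 : f w z = 0 := h5
  replace h6 : f w₀ z = 0 := h6
  by_cases h8 : f z z = 0
  · exact ⟨z, h7, h8, k3 w z hw h8 h5 (k4 z h5)⟩
  · rw [hf.symm] at h5 h6
    exact ⟨w₀, h3, h4, k3 z w₀ h8 h4 h6 (k2 z w h8 (by rintro rfl; simp at hw) h5
      ((k4 z (by rwa [hf.symm])).congr fun x => by simp [add_comm]) w₀ h6)⟩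

theorem XL.full [Finite F] (hT : TS B₁ f B) (hH : ∀ g ∈ Sp B, Kron g → g ∈ M) {u : U}
    (hu : u ≠ 0) {w : W} (h : XL B₁ M u (rk (f w) w)) : Full B M (rk (B₁ u) w) := by
  intro c
  obtain ⟨-, -, g, hg, h1⟩ := h.smul hT hH hu (-c)
  refine ⟨g, hg, fun v => ?_⟩
  rw [h1, hT.hB']
  simp [smul_smul]

theorem TS.le_of_full (hT : TS B₁ f B) (hM : M ≤ Sp B) (hH : ∀ g ∈ Sp B, Kron g → g ∈ M)
    (hW : 3 ≤ finrank F W) {u : U} (hu : u ≠ 0) {w₀ : W} (h0 : w₀ ≠ 0) (h1 : f w₀ w₀ = 0)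
    (h : Full B M (rk (B₁ u) w₀)) : Sp B ≤ M := by
  have hf := hT.s2
  have k1 : ∀ A ∈ Sp f, ∀ x, Full B M (rk (B₁ x) (A w₀)) := by
    intro A hA x
    by_cases hx : x = 0
    · have : rk (B₁ x) (A w₀) = 0 := by ext; simp [hx]
      rw [this]; exact Full.zero
    obtain ⟨k, hk, rfl⟩ := Sp_trans hT.s1 hu hx
    have := h.map hM (hH _ (hT.kr_mem hA ((Sp B₁).inv_mem hk)) (kr_kron _ _))
    rwa [kr_pt ((Sp B₁).inv_mem hk), inv_inv] at this
  obtain ⟨y, hy, hy'⟩ := hf.exists_nonsing_ne (hf.ne_zero h0)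
  obtain ⟨r, hr, hr1, -⟩ := hf.exists_refl hy
  have hw : f w₀ (r w₀) ≠ 0 := by
    rw [hr1]
    simp [h1, hf.two, hy, hy', hf.symm y w₀]
  let O : Set W := {w | f w₀ w ≠ 0 ∧ ∃ A ∈ Sp f, w = A w₀}
  have hO : ∀ w, w ∈ Submodule.span F O := by
    have e1 : r w₀ ∈ Submodule.span F O := Submodule.subset_span ⟨hw, r, hr, rfl⟩
    have e2 : ∀ z, f w₀ z = 0 → f w₀ (r w₀) • z -
        (f z (r w₀) + f z z / 2 * f w₀ (r w₀)) • w₀ ∈ Submodule.span F O := by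
      intro z hz
      obtain ⟨e, he, he1, -⟩ := hf.exists_siegel h1 hz
      have : e (r w₀) ∈ Submodule.span F O := Submodule.subset_span
        ⟨by rw [he1]; simpa [hz, h1] using hw, e * r, (Sp f).mul_mem he hr, rfl⟩
      convert Submodule.sub_mem _ this e1 using 1
      rw [he1]; abel
    have e3 : w₀ ∈ Submodule.span F O := by
      obtain ⟨z, hz, hz'⟩ : ∃ z, f w₀ z = 0 ∧ f z z ≠ 0 := by
        by_contra! h'
        obtain ⟨z, ⟨h3, h4⟩, h5⟩ := exists_ne_zero_of_finrank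
          (K := LinearMap.ker (f w₀) ⊓ LinearMap.ker (f y))
          (by have := finrank_ker₂_ge (f w₀) (f y); omega)
        refine h5 (hf.nd z fun x => ?_)
        have := hf.eq_zero_of_sing (Y := LinearMap.ker (f w₀)) h' (x := x - (f w₀ x / f w₀ y) • y)
          (by simp [hy']) h3
        replace h4 : f y z = 0 := h4
        simpa [h4] using this
      have := Submodule.smul_mem _ (-(f z z * f w₀ (r w₀))⁻¹)
        (Submodule.add_mem _ (e2 z hz) (e2 (-z) (by simp [hz])))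
      convert this using 1
      have := hf.two
      simp only [map_neg, LinearMap.neg_apply, neg_neg]
      match_scalars <;> field_simp <;> ring
    have e4 : ∀ z, f w₀ z = 0 → z ∈ Submodule.span F O := fun z hz =>
      (Submodule.smul_mem_iff _ hw).1
        ((Submodule.sub_mem_iff_left _ (Submodule.smul_mem _ _ e3)).1 (e2 z hz))
    intro w
    exact (Submodule.sub_mem_iff_left _ (Submodule.smul_mem _ (f w₀ w / f w₀ (r w₀)) e1)).1
      (e4 _ (by simp [hw]))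
  refine Sp_le hT.s hM (full_of_conn hT.s hM hf.exists_c {p | ∃ x, ∃ w ∈ O, p = rk (B₁ x) w} ?_ ?_
    (k1 r hr u) ?_)
  · rintro _ ⟨x, _, ⟨-, A, hA, rfl⟩, rfl⟩
    exact k1 A hA x
  · rw [eq_top_iff]
    rintro v -
    rw [sum_rk v]
    refine Submodule.sum_mem _ fun i _ => ?_
    obtain ⟨x, hx⟩ := hT.s1.exists_left ((finBasis F U).coord i)
    rw [← hx]
    have : Submodule.span F O ≤ (Submodule.span F {p | ∃ x, ∃ w ∈ O, p = rk (B₁ x) w}).comap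
        (rk (B₁ x)) := Submodule.span_le.2 fun w hw => Submodule.subset_span ⟨x, w, hw, rfl⟩
    exact this (hO _)
  · rintro _ ⟨x, w, ⟨hw', -⟩, rfl⟩ hp
    have hx : x ≠ 0 := by
      rintro rfl
      exact hp (by ext; simp)
    obtain ⟨s, -, h3, h4⟩ := exists_ne_ne (S := ⊤) (B₁ u) (B₁ x)
      (by obtain ⟨s, hs⟩ := hT.s1.exists_ne hu; exact ⟨s, trivial, hs⟩)
      (by obtain ⟨s, hs⟩ := hT.s1.exists_ne hx; exact ⟨s, trivial, hs⟩)
    exact ⟨rk (B₁ s) w₀, k1 1 (Sp f).one_mem s, by simp [hT.hB, h3, hw], by simp [hT.hB, h4, hw']⟩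

/-- either `M` is everything or the groups `M ∩ Q_L` are as small as possible -/
theorem TS.F1 [Finite F] (hT : TS B₁ f B) (hM : M ≤ Sp B) (hH : ∀ g ∈ Sp B, Kron g → g ∈ M)
    (hW : 3 ≤ finrank F W) (hq : 4 ≤ finrank F W ∨ 4 ≤ Nat.card F) (hne : ¬ Sp B ≤ M) {u : U}
    (hu : u ≠ 0) {y : (U →ₗ[F] W) →ₗ[F] (U →ₗ[F] W)} (hy : y ∈ EL M (TL W (B₁ u))) :
    ∃ c : F, ∀ v, y v = c • rk (B₁ u) (v u) := by
  obtain ⟨S, hS, rfl⟩ := hT.exists_cm hM hu hy
  by_cases h : ∃ c : F, ∀ w, S w = c • w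
  · obtain ⟨c, hc⟩ := h
    exact ⟨c, fun v => by simp [hc]⟩
  · obtain ⟨w, h1, h2, h3⟩ := XL.exists_sing hT hH hW hq hu hy hS h
    exact absurd (hT.le_of_full hM hH hW hu h1 h2 (h3.full hT hH hu)) hne

end Cfsg.Agent.H9.Sp
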