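import Cfsg.Agent.H9.Sp.Ten2

/-! Tensor product subgroups of symplectic groups: the stabiliser of a line `u ⊗ W`. -/

set_option autoImplicit false
set_option linter.unusedSimpArgs false
set_option linter.unusedSectionVars false

namespace Cfsg.Agent.H9.Sp

open Module Cfsg.Agent.H6

attribute [-simp] LinearEquiv.coe_inv Submodule.mem_map_equiv

variable {F : Type*} [Field F] {U : Type*} [AddCommGroup U] [Module F U] [FiniteDimensional F U]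
  {W : Type*} [AddCommGroup W] [Module F W] [FiniteDimensional F W]

/-- standing hypotheses -/
structure Ctx (B₁ : U →ₗ[F] U →ₗ[F] F) (f : W →ₗ[F] W →ₗ[F] F)
    (B : (U →ₗ[F] W) →ₗ[F] (U →ₗ[F] W) →ₗ[F] F)
    (M : Subgroup ((U →ₗ[F] W) ≃ₗ[F] (U →ₗ[F] W))) : Prop where
  T : TS B₁ f B
  hM : M ≤ Sp B
  hH : ∀ g ∈ Sp B, Kron g → g ∈ M
  hW : 3 ≤ finrank F W
  hX : ∀ u, u ≠ 0 → ∀ y ∈ EL M (TL W (B₁ u)), ∃ c : F, ∀ v, y v = c • rk (B₁ u) (v u)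

variable {B₁ : U →ₗ[F] U →ₗ[F] F} {f : W →ₗ[F] W →ₗ[F] F}
  {B : (U →ₗ[F] W) →ₗ[F] (U →ₗ[F] W) →ₗ[F] F} {M : Subgroup ((U →ₗ[F] W) ≃ₗ[F] (U →ₗ[F] W))}

theorem kron_mul {g k : (U →ₗ[F] W) ≃ₗ[F] (U →ₗ[F] W)} (hg : Kron g) (hk : Kron k) :
    Kron (g * k) := by
  obtain ⟨A, h, h1⟩ := hg
  obtain ⟨A', h', h2⟩ := hk
  exact ⟨A * A', h' * h, fun X y => by simp [h1, h2]⟩

theorem kron_inv {g : (U →ₗ[F] W) ≃ₗ[F] (U →ₗ[F] W)} (hg : Kron g) : Kron g⁻¹ := by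
  obtain ⟨A, h, h1⟩ := hg
  have : g = kr A h := LinearEquiv.ext fun X => LinearMap.ext fun y => h1 X y
  exact ⟨A⁻¹, h⁻¹, fun X y => by rw [this, kr_inv_apply]⟩

theorem Ctx.kr_mem (hC : Ctx B₁ f B M) {A : W ≃ₗ[F] W} {h : U ≃ₗ[F] U} (hA : A ∈ Sp f)
    (hh : h ∈ Sp B₁) : kr A h ∈ M := hC.hH _ (hC.T.kr_mem hA hh) (kr_kron _ _)

theorem Ctx.apply_of_fix (hC : Ctx B₁ f B M) {u : U} {n : (U →ₗ[F] W) ≃ₗ[F] (U →ₗ[F] W)}
    (hn : n ∈ M) (h : ∀ l ∈ TL W (B₁ u), n l = l) (v : U →ₗ[F] W) : n v u = v u :=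
  hC.T.s2.ext fun w => by
    rw [← hC.T.hB, ← hC.T.hB, ← hC.hM hn _ v, h _ (rk_mem_TL _ _)]

theorem inv_fix {V : Type*} [AddCommGroup V] [Module F V] {n : V ≃ₗ[F] V} {l : V} (h : n l = l) :
    n⁻¹ l = l := n.injective (by rw [apply_inv_apply, h])

/-- elements of the unipotent radical of the stabiliser of `u ⊗ W` -/
def Yf (B₁ : U →ₗ[F] U →ₗ[F] F) (M : Subgroup ((U →ₗ[F] W) ≃ₗ[F] (U →ₗ[F] W))) (u : U)
    (τ : U →ₗ[F] W →ₗ[F] W) : Prop :=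
  ∃ n ∈ M, (∀ l ∈ TL W (B₁ u), n l = l) ∧ ∀ v y, B₁ u y = 0 → n v y = v y + τ y (v u)

theorem Yf.congr {u : U} {τ τ' : U →ₗ[F] W →ₗ[F] W} (h : Yf B₁ M u τ)
    (h' : ∀ y w, B₁ u y = 0 → τ' y w = τ y w) : Yf B₁ M u τ' := by
  obtain ⟨n, hn, h1, h2⟩ := h
  exact ⟨n, hn, h1, fun v y hy => by rw [h2 v y hy, h' _ _ hy]⟩

theorem Yf.sub (hC : Ctx B₁ f B M) {u : U} {τ τ' : U →ₗ[F] W →ₗ[F] W} (h : Yf B₁ M u τ)
    (h' : Yf B₁ M u τ') : Yf B₁ M u (τ - τ') := by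
  obtain ⟨n, hn, h1, h2⟩ := h
  obtain ⟨k, hk, k1, k2⟩ := h'
  refine ⟨n * k⁻¹, M.mul_mem hn (M.inv_mem hk), fun l hl => by
    rw [LinearEquiv.mul_apply, inv_fix (k1 l hl), h1 l hl], fun v y hy => ?_⟩
  have e1 := k2 (k⁻¹ v) y hy
  have e2 := hC.apply_of_fix hk k1 (k⁻¹ v)
  rw [apply_inv_apply] at e1 e2
  rw [LinearEquiv.mul_apply, h2 _ _ hy, e1, ← e2]
  simp

theorem Yf.conj (hC : Ctx B₁ f B M) {u x : U} {T : W →ₗ[F] W}
    (h : Yf B₁ M u ((B₁ x).smulRight T)) {A : W ≃ₗ[F] W} (hA : A ∈ Sp f) :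
    Yf B₁ M u ((B₁ x).smulRight (cj A T)) := by
  obtain ⟨n, hn, h1, h2⟩ := h
  have hk := hC.kr_mem hA (Sp B₁).one_mem
  refine ⟨kr A 1 * n * (kr A 1)⁻¹, M.mul_mem (M.mul_mem hk hn) (M.inv_mem hk), ?_,
    fun v y hy => by simp [h2 _ _ hy]⟩
  rintro _ ⟨w, rfl⟩
  have : (kr A (1 : U ≃ₗ[F] U))⁻¹ (rk (B₁ u) w) = rk (B₁ u) (A⁻¹ w) := by ext; simp
  rw [LinearEquiv.mul_apply, LinearEquiv.mul_apply, this, h1 _ (rk_mem_TL _ _), ← this,
    apply_inv_apply]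

theorem Yf.single (hC : Ctx B₁ f B M) {u : U} {τ : U →ₗ[F] W →ₗ[F] W} (h : Yf B₁ M u τ) {x : U}
    (hx : B₁ u x = 0) : Yf B₁ M u ((B₁ x).smulRight (τ x)) := by
  have hs := hC.T.s1
  have h' : Yf B₁ M u (τ ∘ₗ (tvE hs x (-1) : U →ₗ[F] U)) := by
    obtain ⟨n, hn, h1, h2⟩ := h
    have hk := hC.kr_mem (Sp f).one_mem (tvE_mem hs x (-1))
    have e : ∀ l ∈ TL W (B₁ u), kr 1 (tvE hs x (-1)) l = l := by
      rintro _ ⟨w, rfl⟩
      ext y; simp [hx]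
    refine ⟨kr 1 (tvE hs x (-1)) * n * (kr 1 (tvE hs x (-1)))⁻¹,
      M.mul_mem (M.mul_mem hk hn) (M.inv_mem hk), fun l hl => ?_, fun v y hy => ?_⟩
    · rw [LinearEquiv.mul_apply, LinearEquiv.mul_apply, inv_fix (e l hl), h1 l hl, e l hl]
    · rw [LinearEquiv.mul_apply, LinearEquiv.mul_apply, kr_apply, h2 _ _ (by simp [hy, hx]),
        kr_inv_apply, kr_inv_apply, inv_apply_apply,
        inv_fix (n := tvE hs x (-1)) (l := u) (by simp [hx])]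
      simp
  exact (h'.sub hC h).congr fun y w _ => by simp [hs.skew y x]

theorem Ctx.exists_e (hC : Ctx B₁ f B M) {u x : U} (hx : B₁ u x = 0) :
    ∃ e ∈ M, Kron e ∧ (∀ l ∈ TL W (B₁ u), e l = l) ∧
      ∀ v y, B₁ u y = 0 → e v y = v y + B₁ x y • v u := by
  have hs := hC.T.s1
  obtain ⟨E, hE, h⟩ := R_Sp hs (x := u) (y := -x) (by simp [hx]) 0
  refine ⟨kr 1 E, hC.kr_mem (Sp f).one_mem hE, kr_kron _ _, ?_, fun v y hy => ?_⟩
  · rintro _ ⟨w, rfl⟩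
    ext y; simp [h, hx, hs.alt]
  · simp [h, hs.comm.1 hy, hs.skew y x]

theorem Ctx.Yf_scalar (hC : Ctx B₁ f B M) {u x : U} (hx : B₁ u x = 0) (c : F) :
    Yf B₁ M u ((B₁ x).smulRight (c • LinearMap.id)) := by
  obtain ⟨e, he, -, h1, h2⟩ := hC.exists_e (u := u) (x := c • x) (by simp [hx])
  exact ⟨e, he, h1, fun v y hy => by simp [h2 _ _ hy, smul_smul, mul_comm]⟩

theorem Ctx.eq_of_fix (hC : Ctx B₁ f B M) {u : U} (hu : u ≠ 0)
    {n : (U →ₗ[F] W) ≃ₗ[F] (U →ₗ[F] W)} (hn : n ∈ M) (h1 : ∀ l ∈ TL W (B₁ u), n l = l)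
    (h2 : ∀ v y, B₁ u y = 0 → n v y = v y) : ∃ c : F, ∀ v, n v = v + c • rk (B₁ u) (v u) := by
  obtain ⟨c, hc⟩ := hC.hX u hu ((n : (U →ₗ[F] W) →ₗ[F] (U →ₗ[F] W)) - LinearMap.id)
    ⟨fun v => mem_TL_of (hC.T.s1.left_ne hu) fun y hy => by simp [h2 v y hy],
      fun l hl => by simp [h1 l hl], n, hn, fun v => by simp⟩
  exact ⟨c, fun v => by rw [← hc]; simp⟩

theorem TS.pair (hT : TS B₁ f B) {u x : U} (hu : u ≠ 0) {a b : U →ₗ[F] W} {w : W}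
    (ha : ∀ y, B₁ u y = 0 → a y = B₁ x y • w) (hb : b u = 0) : B a b = f w (b x) := by
  have := hT.mem_perp_L.2 hb (a - rk (B₁ x) w) (mem_TL_of (hT.s1.left_ne hu) fun y hy => by
    simp [ha y hy])
  rw [map_sub, LinearMap.sub_apply, sub_eq_zero] at this
  rw [this, hT.hB]

theorem Yf.comm (hC : Ctx B₁ f B M) {u x₁ x₂ : U} (hu : u ≠ 0) (hx₁ : B₁ u x₁ = 0)
    (hx₂ : B₁ u x₂ = 0) {T₁ T₂ : W →ₗ[F] W} (h₁ : Yf B₁ M u ((B₁ x₁).smulRight T₁))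
    (h₂ : Yf B₁ M u ((B₁ x₂).smulRight T₂)) :
    ∃ c : F, ∀ w w', B₁ x₁ x₂ * (f (T₁ w) (T₂ w') + f (T₂ w) (T₁ w')) = c * f w w' := by
  have hs := hC.T.s1
  obtain ⟨n, hn, h1, h2⟩ := h₁
  obtain ⟨k, hk, k1, k2⟩ := h₂
  simp only [LinearMap.smulRight_apply, LinearMap.smul_apply] at h2 k2
  have h3 := hC.apply_of_fix hn h1
  have k3 := hC.apply_of_fix hk k1
  have h4 := hC.apply_of_fix (M.inv_mem hn) fun l hl => inv_fix (h1 l hl)
  have k4 := hC.apply_of_fix (M.inv_mem hk) fun l hl => inv_fix (k1 l hl)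
  have h5 : ∀ v y, B₁ u y = 0 → n⁻¹ v y = v y - B₁ x₁ y • T₁ (v u) := fun v y hy => by
    have := h2 (n⁻¹ v) y hy
    rw [apply_inv_apply, h4] at this
    rw [this]; simp
  have k5 : ∀ v y, B₁ u y = 0 → k⁻¹ v y = v y - B₁ x₂ y • T₂ (v u) := fun v y hy => by
    have := k2 (k⁻¹ v) y hy
    rw [apply_inv_apply, k4] at this
    rw [this]; simp
  obtain ⟨c, hc⟩ := hC.eq_of_fix hu (n := n * k * n⁻¹ * k⁻¹)
    (M.mul_mem (M.mul_mem (M.mul_mem hn hk) (M.inv_mem hn)) (M.inv_mem hk))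
    (fun l hl => by simp only [LinearEquiv.mul_apply, inv_fix (k1 l hl), inv_fix (h1 l hl),
      k1 l hl, h1 l hl])
    (fun v y hy => by
      simp only [LinearEquiv.mul_apply, h2 _ _ hy, k2 _ _ hy, h5 _ _ hy, k5 _ _ hy, h3, k3, h4, k4]
      abel)
  obtain ⟨φ, hφ⟩ := exists_dual_one' (F := F) hu
  have hp : ∀ w : W, rk φ w u = w := fun w => by simp [hφ]
  refine ⟨-c, fun w w' => ?_⟩
  set p := rk φ w
  set p' := rk φ w'
  have e1 := hc (k (n p))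
  simp only [LinearEquiv.mul_apply, inv_apply_apply, k3, h3] at e1
  have e2 := congrArg (B.flip p') e1
  simp only [LinearMap.flip_apply, map_add, map_smul, LinearMap.add_apply, LinearMap.smul_apply,
    hC.T.hB, p, p', hp, smul_eq_mul] at e2
  have e3 : B (k p - p) (n⁻¹ p' - p') = f (T₂ w) (-(B₁ x₁ x₂ • T₁ w')) := by
    rw [hC.T.pair (x := x₂) (w := T₂ w) hu (fun y hy => by simp [k2 _ _ hy, p, hφ]) (by simp [h4])]
    simp [h5 _ _ hx₂, p', hφ]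
  have e4 : B (n p - p) (k⁻¹ p' - p') = f (T₁ w) (-(B₁ x₂ x₁ • T₂ w')) := by
    rw [hC.T.pair (x := x₁) (w := T₁ w) hu (fun y hy => by simp [h2 _ _ hy, p, hφ]) (by simp [k4])]
    simp [k5 _ _ hx₁, p', hφ]
  simp only [map_sub, LinearMap.sub_apply, ← Sp_left (hC.hM hn), ← Sp_left (hC.hM hk), map_neg,
    map_smul, smul_eq_mul, hs.skew x₂ x₁] at e3 e4
  linear_combination e3 - e4 - e2

theorem Yf.scalar (hC : Ctx B₁ f B M) {u : U} (hu : u ≠ 0) {τ : U →ₗ[F] W →ₗ[F] W}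
    (h : Yf B₁ M u τ) (h0 : τ u = 0) {x : U} (hx : B₁ u x = 0) : ∃ c : F, ∀ w, τ x w = c • w := by
  have hs := hC.T.s1
  have hf := hC.T.s2
  have h2 := hf.two
  by_cases hxu : x ∈ Submodule.span F {u}
  · obtain ⟨c, rfl⟩ := Submodule.mem_span_singleton.1 hxu
    exact ⟨0, fun w => by simp [h0]⟩
  obtain ⟨x', h1, h3⟩ := hs.exists_perp hxu
  replace h1 := h1 u (Submodule.mem_span_singleton_self u)
  have k1 := h.single hC hx
  obtain ⟨c, hc⟩ := Yf.comm hC hu hx h1 k1 (hC.Yf_scalar h1 1)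
  simp only [h3, one_smul, LinearMap.id_apply, one_mul] at hc
  let T : W →ₗ[F] W := τ x - (c / 2) • LinearMap.id
  have k2 : Yf B₁ M u ((B₁ x).smulRight T) :=
    (k1.sub hC (hC.Yf_scalar hx (c / 2))).congr fun y w _ => by simp [T, smul_sub]
  have k3 : ∀ w w', f (T w) w' = -f w (T w') := fun w w' => by
    simp only [T, LinearMap.sub_apply, map_sub, LinearMap.smul_apply, LinearMap.id_apply, map_smul,
      smul_eq_mul]
    field_simp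
    linear_combination 2 * hc w w'
  have k4 : ∀ w, f w w ≠ 0 → T w = 0 := by
    intro w hw
    have e0 : f w (T w) = 0 := by
      have := k3 w w
      rw [hf.symm] at this
      exact (mul_eq_zero.1 (show 2 * f w (T w) = 0 by linear_combination this)).resolve_left h2
    obtain ⟨r, hr, e1, e2⟩ := hf.exists_refl hw
    let T₂ : W →ₗ[F] W := T - cj r T
    have e3 : ∀ w', f w w' = 0 → T₂ w' = (-(2 * f (T w) w' / f w w)) • w := fun w' hw' => by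
      simp only [T₂, LinearMap.sub_apply, cj_apply, e2, e1, hw', k3 w w']
      simp only [mul_zero, zero_div, zero_smul, sub_zero]
      match_scalars <;> ring
    have k5 : Yf B₁ M u ((B₁ x).smulRight T₂) :=
      (k2.sub hC (k2.conj hC hr)).congr fun y w _ => by simp [T₂, smul_sub]
    obtain ⟨d, hd⟩ := Yf.comm hC hu hx h1 k5 (k5.single hC h1)
    simp only [h3, one_smul, LinearMap.smulRight_apply, one_mul] at hd
    obtain ⟨z, ⟨h5, h6⟩, h7⟩ := exists_ne_zero_of_finrank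
      (K := LinearMap.ker (f w) ⊓ LinearMap.ker (f (T w)))
      (by have := finrank_ker₂_ge (f w) (f (T w)); have := hC.hW; omega)
    replace h6 : f (T w) z = 0 := h6
    have hd0 : d = 0 := by
      obtain ⟨z', hz'⟩ := hf.exists_ne h7
      simpa [e3 z h5, h6, hz'] using hd z z'
    refine hf.nd_perp hw _ e0 fun y hy => ?_
    have := hd y y
    rw [e3 y hy, hd0] at this
    simp only [map_smul, LinearMap.smul_apply, smul_eq_mul] at this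
    rw [hf.symm]
    field_simp at this
    have h4 : (2 : F) ^ 3 * f (T w) y ^ 2 = 0 := by linear_combination this
    simpa [h2] using h4
  refine ⟨c / 2, fun w => ?_⟩
  obtain ⟨z, -, hz⟩ := exists_ne_zero_of_finrank (K := (⊤ : Submodule F W))
    (by have := hC.hW; simp; omega)
  obtain ⟨w₁, hw₁⟩ := hf.exists_nonsing hz
  have := hf.span_nonsing hf.exists_c (Y := ⊤) (Z := LinearMap.ker T) trivial hw₁
    (fun x _ hx => k4 x hx) (x := w) trivial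
  simpa [T, sub_eq_zero] using this

theorem Ctx.Y_lemma (hC : Ctx B₁ f B M) {u : U} (hu : u ≠ 0) {n : (U →ₗ[F] W) ≃ₗ[F] (U →ₗ[F] W)}
    (hn : n ∈ M) (h1 : ∀ l ∈ TL W (B₁ u), n l = l)
    (h2 : ∀ v : U →ₗ[F] W, v u = 0 → ∀ y, B₁ u y = 0 → n v y = v y) :
    ∃ x, B₁ u x = 0 ∧ ∀ v y, B₁ u y = 0 → n v y = v y + B₁ x y • v u := by
  have hs := hC.T.s1
  obtain ⟨x₀, hx₀⟩ := hs.exists_one hu
  have hp : ∀ w : W, rk (B₁ (-x₀)) w u = w := fun w => by simp [hs.skew x₀ u, hx₀]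
  let τ : U →ₗ[F] W →ₗ[F] W :=
    ((((n : (U →ₗ[F] W) →ₗ[F] (U →ₗ[F] W)) - LinearMap.id) ∘ₗ rk (B₁ (-x₀)))).flip
  have hτ : ∀ y w, τ y w = n (rk (B₁ (-x₀)) w) y - rk (B₁ (-x₀)) w y := fun _ _ => rfl
  have h3 : ∀ v y, B₁ u y = 0 → n v y = v y + τ y (v u) := fun v y hy => by
    have := h2 (v - rk (B₁ (-x₀)) (v u)) (by rw [LinearMap.sub_apply, hp, sub_self]) y hy
    simp only [map_sub, LinearMap.sub_apply] at this
    rw [hτ]
    linear_combination (norm := module) this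
  have h4 : τ u = 0 := LinearMap.ext fun w => by
    rw [hτ, hC.apply_of_fix hn h1, sub_self]; rfl
  obtain ⟨z, -, hz⟩ := exists_ne_zero_of_finrank (K := (⊤ : Submodule F W))
    (by have := hC.hW; simp; omega)
  obtain ⟨θ, hθ⟩ := exists_dual_one' (F := F) hz
  obtain ⟨x, hx⟩ := hs.exists_left (θ ∘ₗ τ.flip z)
  refine ⟨x, hs.comm.1 (by simp [hx, h4]), fun v y hy => ?_⟩
  obtain ⟨c, hc⟩ := Yf.scalar hC hu ⟨n, hn, h1, h3⟩ h4 hy
  simp [h3 v y hy, hx, hc, hθ]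

theorem Ctx.kron_of_Y (hC : Ctx B₁ f B M) {u : U} (hu : u ≠ 0) {n : (U →ₗ[F] W) ≃ₗ[F] (U →ₗ[F] W)}
    (hn : n ∈ M) (h1 : ∀ l ∈ TL W (B₁ u), n l = l)
    (h2 : ∀ v : U →ₗ[F] W, v u = 0 → ∀ y, B₁ u y = 0 → n v y = v y) : Kron n := by
  obtain ⟨x, hx, h3⟩ := hC.Y_lemma hu hn h1 h2
  obtain ⟨e, he, he', h4, h5⟩ := hC.exists_e hx
  obtain ⟨c, hc⟩ := hC.eq_of_fix hu (M.mul_mem hn (M.inv_mem he))
    (fun l hl => by rw [LinearEquiv.mul_apply, inv_fix (h4 l hl), h1 l hl])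
    (fun v y hy => by
      rw [LinearEquiv.mul_apply, h3 _ _ hy, ← h5 _ _ hy, apply_inv_apply])
  have : n * e⁻¹ = kr 1 (tvE hC.T.s1 u (-c)) := LinearEquiv.ext fun v => by rw [hc, kr_tvE hC.T]
  have h6 := kron_mul (this ▸ kr_kron _ _ : Kron (n * e⁻¹)) he'
  simpa using h6

theorem TS.perp_ind (hT : TS B₁ f B) {u : U} (hu : u ≠ 0) {Z : Type*} [AddCommGroup Z]
    [Module F Z] (D : (U →ₗ[F] W) →ₗ[F] Z) (h : ∀ x w, B₁ u x = 0 → D (rk (B₁ x) w) = 0)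
    {v : U →ₗ[F] W} (hv : v u = 0) : D v = 0 := by
  obtain ⟨φ, hφ⟩ := exists_dual_one' (F := F) hu
  let P : U →ₗ[F] U := LinearMap.id - φ.smulRight u
  have e : D ∘ₗ LinearMap.lcomp F W P = 0 := ext_rk fun ψ w => by
    obtain ⟨x, hx⟩ := hT.s1.exists_left (ψ ∘ₗ P)
    have : LinearMap.lcomp F W P (rk ψ w) = rk (B₁ x) w := by ext y; simp [hx]
    rw [LinearMap.comp_apply, this]
    exact h x w (hT.s1.comm.1 (by simp [hx, P, hφ]))
  have e2 : LinearMap.lcomp F W P v = v := by ext y; simp [P, hv]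
  rw [← e2]
  exact LinearMap.congr_fun e v

theorem Ctx.conj_sigma (hC : Ctx B₁ f B M) {u : U} (hu : u ≠ 0)
    {m : (U →ₗ[F] W) ≃ₗ[F] (U →ₗ[F] W)} (hm : m ∈ M)
    (h : ∀ l ∈ TL W (B₁ u), m l ∈ TL W (B₁ u)) :
    ∃ ν : F, ν ≠ 0 ∧ ∀ v, m (rk (B₁ u) (v u)) = ν • rk (B₁ u) (m v u) := by
  obtain ⟨ν, hν⟩ := hC.hX u hu _ (EL_conj_stab (XL.scalar hC.T hC.hH u 1) hm h)
  have e : ∀ v, m (rk (B₁ u) (v u)) = ν • rk (B₁ u) (m v u) := fun v => by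
    simpa using hν (m v)
  refine ⟨ν, ?_, e⟩
  rintro rfl
  obtain ⟨z, -, hz⟩ := exists_ne_zero_of_finrank (K := (⊤ : Submodule F W))
    (by have := hC.hW; simp; omega)
  obtain ⟨φ, hφ⟩ := exists_dual_one' (F := F) hu
  have := e (rk φ z)
  simp only [rk_apply, hφ, one_smul, zero_smul, EmbeddingLike.map_eq_zero_iff] at this
  exact rk_ne_zero (hC.T.s1.left_ne hu) hz this

/-- the stabiliser of a line consists of Kronecker products -/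
theorem Ctx.F2 (hC : Ctx B₁ f B M) {u : U} (hu : u ≠ 0)
    {m : (U →ₗ[F] W) ≃ₗ[F] (U →ₗ[F] W)} (hm : m ∈ M)
    (h : ∀ l ∈ TL W (B₁ u), m l ∈ TL W (B₁ u)) : Kron m := by
  have hs := hC.T.s1
  have hf := hC.T.s2
  obtain ⟨ν, hν0, hν⟩ := hC.conj_sigma hu hm h
  obtain ⟨x₁, hx₁⟩ := hs.exists_one hu
  obtain ⟨x₀, hx₀⟩ : ∃ x₀, B₁ x₀ u = 1 := ⟨-x₁, by simp [hs.skew x₁ u, hx₁]⟩
  have hp : ∀ w : W, rk (B₁ x₀) w u = w := fun w => by simp [hx₀]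
  let A₀ : W →ₗ[F] W := LinearMap.applyₗ u ∘ₗ (m : (U →ₗ[F] W) →ₗ[F] (U →ₗ[F] W)) ∘ₗ rk (B₁ x₀)
  have a1 : ∀ w, m (rk (B₁ u) w) = ν • rk (B₁ u) (A₀ w) := fun w => by
    have := hν (rk (B₁ x₀) w)
    rwa [hp] at this
  have a2 : ∀ v, m v u = A₀ (v u) := fun v => by
    have := hν v
    rw [a1] at this
    exact (rk_injective (hs.left_ne hu) (smul_right_injective _ hν0 this)).symm
  have a3 : ∀ w w', f (A₀ w) (A₀ w') = ν⁻¹ * f w w' := fun w w' => by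
    have := hC.hM hm (rk (B₁ u) w) (rk (B₁ x₀) w')
    rw [a1, map_smul, LinearMap.smul_apply, hC.T.hB, hC.T.hB, a2, hp] at this
    rw [← this]
    simp [hν0]
  let A : W ≃ₗ[F] W := LinearEquiv.ofInjectiveEndo A₀ (by
    rw [injective_iff_map_eq_zero]
    intro z hz
    exact hf.nd z fun x => by simpa [hz, hν0] using a3 x z)
  have hA : ∀ w, A₀ w = A w := fun _ => rfl
  simp only [hA] at a1 a2 a3
  obtain ⟨z, -, hz⟩ := exists_ne_zero_of_finrank (K := (⊤ : Submodule F W))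
    (by have := hC.hW; simp; omega)
  obtain ⟨θ, hθ⟩ := exists_dual_one' (F := F) hz
  let β : U ≃ₗ[F] Dual F U := LinearEquiv.ofBijective B₁
    ⟨fun a b hab => hs.ext' fun x => by rw [hab], hs.exists_left⟩
  let h₀ : U →ₗ[F] U := (β.symm : Dual F U →ₗ[F] U) ∘ₗ
    LinearMap.llcomp F U W F (θ ∘ₗ ((A⁻¹ : W ≃ₗ[F] W) : W →ₗ[F] W)) ∘ₗ
      (m : (U →ₗ[F] W) →ₗ[F] (U →ₗ[F] W)) ∘ₗ (LinearMap.smulRightₗ.flip z) ∘ₗ B₁
  have b1 : ∀ x y, B₁ (h₀ x) y = θ (A⁻¹ (m (rk (B₁ x) z) y)) := fun x y =>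
    LinearMap.congr_fun (β.apply_symm_apply _) y
  have b2 : ∀ x w y, B₁ u x = 0 → B₁ u y = 0 → m (rk (B₁ x) w) y = B₁ (h₀ x) y • A w := by
    intro x w y hx hy
    obtain ⟨e, he, -, h4, h5⟩ := hC.exists_e hx
    have h6 := inv_mem_of_stab h
    have h7 : ∀ v, e v - v - rk (B₁ x) (v u) ∈ TL W (B₁ u) := fun v =>
      mem_TL_of (hs.left_ne hu) fun y hy => by simp [h5 v y hy]
    obtain ⟨x', -, h8⟩ := hC.Y_lemma hu (M.mul_mem (M.mul_mem hm he) (M.inv_mem hm))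
      (fun l hl => by simp [h4 _ (h6 l hl)]) (fun v hv y hy => by
        have e1 : m⁻¹ v u = 0 := by
          have := a2 (m⁻¹ v)
          rw [apply_inv_apply, hv] at this
          simpa using this.symm
        have := TL_apply (h _ (h7 (m⁻¹ v))) hy
        simpa [e1, sub_eq_zero] using this)
    have h9 : ∀ w, m (rk (B₁ x) w) y = B₁ x' y • A w := fun w => by
      have e1 := h8 (m (rk (B₁ x₀) w)) y hy
      have e2 := TL_apply (h _ (h7 (rk (B₁ x₀) w))) hy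
      simp only [LinearEquiv.mul_apply, inv_apply_apply, a2, hp, map_sub,
        LinearMap.sub_apply] at e1 e2
      linear_combination (norm := module) e1 - e2
    rw [h9, b1, h9]
    simp [hθ]
  have b3 : ∀ x, B₁ (h₀ x) u = B₁ x u := fun x => by simp [b1, a2, hθ]
  have b4 : h₀ u = ν • u := hs.ext' fun y => by simp [b1, a1, hθ]
  have b5 : ∀ x y, B₁ u x = 0 → B₁ u y = 0 → B₁ (h₀ x) (h₀ y) = ν * B₁ x y := by
    intro x y hx hy
    obtain ⟨z', hz'⟩ := hf.exists_ne hz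
    have := hC.hM hm (rk (B₁ y) z) (rk (B₁ x) z')
    rw [hC.T.pair (x := h₀ y) (w := A z) hu (fun y' hy' => b2 _ _ _ hy hy')
      (by simp [a2, hs.comm.1 hx]), b2 _ _ _ hx (hs.comm.1 (by rw [b3, hs.comm.1 hy])),
      hC.T.hB] at this
    simp only [map_smul, a3, rk_apply, smul_eq_mul] at this
    field_simp at this
    linear_combination this
  let ψ : Dual F U := B₁.flip (h₀ x₀) ∘ₗ h₀ - ν • B₁.flip x₀
  let g₀ : U →ₗ[F] U := ν⁻¹ • (h₀ + ψ.smulRight u)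
  have hg₀ : ∀ x, g₀ x = ν⁻¹ • (h₀ x + (B₁ (h₀ x) (h₀ x₀) - ν * B₁ x x₀) • u) := fun _ => rfl
  have c1 : B₁ u (h₀ x₀) = -1 := by rw [hs.skew, b3, hx₀]
  have c2 : ∀ x y, B₁ (g₀ x) (g₀ y) = ν⁻¹ * B₁ x y := by
    intro x y
    have e1 := b5 (x + B₁ u x • x₀) (y + B₁ u y • x₀) (by simp [hs.skew u x₀, hx₀])
      (by simp [hs.skew u x₀, hx₀])
    simp only [hg₀, map_add, map_smul, LinearMap.add_apply, LinearMap.smul_apply, hs.alt, b3,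
      hs.skew u (h₀ y), hs.skew (h₀ x₀) (h₀ y), hs.skew x₀ y, hs.skew u x, hs.skew u y,
      smul_eq_mul] at e1 ⊢
    field_simp
    linear_combination e1
  let g : U ≃ₗ[F] U := LinearEquiv.ofInjectiveEndo g₀ (by
    rw [injective_iff_map_eq_zero]
    intro z hz
    exact hs.nd z fun x => by simpa [hz, hν0] using c2 x z)
  have hg : ∀ x, g₀ x = g x := fun _ => rfl
  have c3 : ∀ x y, B₁ x (g⁻¹ y) = ν * B₁ (g₀ x) y := fun x y => by
    have := c2 x (g⁻¹ y)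
    rw [hg (g⁻¹ y), apply_inv_apply] at this
    rw [this]; field_simp
  have hk : kr A g⁻¹ ∈ M := hC.hH _ (hC.T.kr_mem' a3 (ν := ν) (fun x y => by
    rw [c3, hg, apply_inv_apply]) (by simp [hν0])) (kr_kron _ _)
  have c4 : ∀ l ∈ TL W (B₁ u), kr A g⁻¹ l = m l := by
    rintro _ ⟨w, rfl⟩
    ext y
    simp [a1, c3, hg₀, b4, c1, hs.skew u x₀, hx₀, hν0, smul_smul]
  have c5 : ∀ l ∈ TL W (B₁ u), (kr A g⁻¹)⁻¹ l ∈ TL W (B₁ u) :=
    inv_mem_of_stab fun l hl => c4 l hl ▸ h l hl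
  have := kron_mul (kr_kron A g⁻¹) (hC.kron_of_Y hu (M.mul_mem (M.inv_mem hk) hm)
    (fun l hl => by rw [LinearEquiv.mul_apply, ← c4 l hl, inv_apply_apply]) fun v hv y hy => by
      have e1 : m v - kr A g⁻¹ v ∈ TL W (B₁ u) := mem_TL_of (hs.left_ne hu) fun y hy =>
        hC.T.perp_ind hu (LinearMap.applyₗ y ∘ₗ ((m : (U →ₗ[F] W) →ₗ[F] (U →ₗ[F] W)) -
          (kr A g⁻¹ : (U →ₗ[F] W) →ₗ[F] (U →ₗ[F] W)))) (fun x w hx => by
            simp [b2 _ _ _ hx hy, c3, hg₀, hy, hν0]) hv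
      have := TL_apply (c5 _ e1) hy
      rwa [map_sub, inv_apply_apply, LinearMap.sub_apply, sub_eq_zero] at this)
  simpa using this

end Cfsg.Agent.H9.Sp
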