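import Cfsg.Agent.H9.Sp.Ten3

/-! Tensor product subgroups of symplectic groups: fusion of the elements `t_u ⊗ 1`. -/

set_option autoImplicit false
set_option linter.unusedSimpArgs false
set_option linter.unusedSectionVars false

namespace Cfsg.Agent.H9.Sp

open Module Cfsg.Agent.H6

attribute [-simp] LinearEquiv.coe_inv Submodule.mem_map_equiv

variable {F : Type*} [Field F] {U : Type*} [AddCommGroup U] [Module F U] [FiniteDimensional F U]
  {W : Type*} [AddCommGroup W] [Module F W] [FiniteDimensional F W]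

variable {B₁ : U →ₗ[F] U →ₗ[F] F} {f : W →ₗ[F] W →ₗ[F] F}
  {B : (U →ₗ[F] W) →ₗ[F] (U →ₗ[F] W) →ₗ[F] F} {M : Subgroup ((U →ₗ[F] W) ≃ₗ[F] (U →ₗ[F] W))}

/-- the element `t_u ⊗ 1` -/
def rho (hT : TS B₁ f B) (u : U) (c : F) : (U →ₗ[F] W) ≃ₗ[F] (U →ₗ[F] W) :=
  kr 1 (tvE hT.s1 u (-c))

theorem rho_apply (hT : TS B₁ f B) (u : U) (c : F) (v : U →ₗ[F] W) :
    rho hT u c v = v + c • rk (B₁ u) (v u) := kr_tvE hT u c v

theorem rho_inv_apply (hT : TS B₁ f B) (u : U) (c : F) (v : U →ₗ[F] W) :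
    (rho hT u c)⁻¹ v = v - c • rk (B₁ u) (v u) := (rho hT u c).injective (by
  rw [apply_inv_apply, rho_apply]
  simp [hT.s1.alt])

theorem rho_kron (hT : TS B₁ f B) (u : U) (c : F) : Kron (rho hT u c) := kr_kron _ _

theorem Ctx.rho_mem (hC : Ctx B₁ f B M) (u : U) (c : F) : rho hC.T u c ∈ M :=
  hC.kr_mem (Sp f).one_mem (tvE_mem _ _ _)

theorem Ctx.kron_of_line (hC : Ctx B₁ f B M) {u : U} (hu : u ≠ 0) {φ : Dual F U} (hφ : φ ≠ 0)
    {g : (U →ₗ[F] W) ≃ₗ[F] (U →ₗ[F] W)} (hg : g ∈ M) (h : ∀ w, g⁻¹ (rk φ w) ∈ TL W (B₁ u)) :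
    Kron g := by
  obtain ⟨x, rfl⟩ := hC.T.s1.exists_left φ
  obtain ⟨k, hk, rfl⟩ := Sp_trans hC.T.s1 hu (show x ≠ 0 by rintro rfl; simp at hφ)
  have h1 := hC.F2 hu (M.mul_mem (M.inv_mem hg) (hC.kr_mem (Sp f).one_mem ((Sp B₁).inv_mem hk)))
    (by
      rintro _ ⟨w, rfl⟩
      rw [LinearEquiv.mul_apply, kr_pt ((Sp B₁).inv_mem hk), inv_inv]
      exact h _)
  simpa using kron_mul (kr_kron 1 k⁻¹) (kron_inv h1)

variable (U) in
/-- the maps with image in `Y` -/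
def HomY (Y : Submodule F W) : Submodule F (U →ₗ[F] W) :=
  LinearMap.range (LinearMap.llcomp F U Y W Y.subtype : (U →ₗ[F] Y) →ₗ[F] (U →ₗ[F] W))

theorem mem_HomY {Y : Submodule F W} {X : U →ₗ[F] W} : X ∈ HomY U Y ↔ ∀ y, X y ∈ Y :=
  ⟨by rintro ⟨X, rfl⟩ y; exact (X y).2, fun h => ⟨X.codRestrict Y h, rfl⟩⟩

theorem finrank_HomY (Y : Submodule F W) : finrank F (HomY U Y) = finrank F U * finrank F Y := by
  rw [HomY, LinearMap.finrank_range_of_inj, finrank_linearMap]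
  intro X X' h
  ext y
  exact LinearMap.congr_fun h y

theorem Ctx.rank_le (hC : Ctx B₁ f B M) {u : U} (hu : u ≠ 0)
    {g : (U →ₗ[F] W) ≃ₗ[F] (U →ₗ[F] W)} (hg : g ∈ M) {A : W ≃ₗ[F] W} (hA : A ∈ Sp f)
    (hA1 : ∃ w, A w ≠ w) (h : ∀ l ∈ TL W (B₁ u), kr A 1 (g l) = g l) {Y : Submodule F W}
    (hY : ∀ w, A w - w ∈ Y) : finrank F W ≤ finrank F U * finrank F Y := by
  have h1 : ∀ l ∈ TL W (B₁ u), (g⁻¹ * kr A (1 : U ≃ₗ[F] U) * g) l = l := fun l hl => by simp [h l hl]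
  obtain ⟨A', h', h2⟩ := hC.F2 hu
    (M.mul_mem (M.mul_mem (M.inv_mem hg) (hC.kr_mem hA (Sp B₁).one_mem)) hg)
    fun l hl => by rwa [h1 l hl]
  obtain ⟨x₁, hx₁⟩ := hC.T.s1.exists_one hu
  have h3 : ∀ w, B₁ u (h' x₁) • A' w = w := fun w => by
    have := h2 (rk (B₁ u) w) x₁
    rw [h1 _ (rk_mem_TL _ _)] at this
    simpa [hx₁] using this.symm
  have hc : B₁ u (h' x₁) ≠ 0 := by
    obtain ⟨w, hw⟩ := hA1
    intro h0
    have := h3 (A w - w)
    rw [h0, zero_smul, eq_comm, sub_eq_zero] at this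
    exact hw this
  let N : U →ₗ[F] U := (B₁ u (h' x₁))⁻¹ • (h' : U →ₗ[F] U) - LinearMap.id
  have h4 : ∀ X, (g⁻¹ * kr A (1 : U ≃ₗ[F] U) * g) X - X = X ∘ₗ N := fun X => by
    ext y
    have := h3 (X (h' y))
    rw [← eq_inv_smul_iff₀ hc] at this
    simp only [LinearMap.sub_apply, h2, this]
    simp [N]
  obtain ⟨φ, hφ⟩ : ∃ φ : Dual F U, φ ∘ₗ N ≠ 0 := by
    by_contra! h5
    obtain ⟨w, hw⟩ := hA1
    have h6 : N = 0 := LinearMap.ext fun y => eq_zero_of_forall_dual (F := F) fun φ =>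
      LinearMap.congr_fun (h5 φ) y
    have h7 := h4 (g⁻¹ (rk (B₁ u) w))
    rw [h6, LinearMap.comp_zero, sub_eq_zero] at h7
    simp only [LinearEquiv.mul_apply, apply_inv_apply, EmbeddingLike.apply_eq_iff_eq] at h7
    exact hw (by simpa [hx₁] using LinearMap.congr_fun h7 x₁)
  rw [← finrank_HomY, ← finrank_TL (U := W) hφ, ← LinearEquiv.finrank_map_eq g]
  apply Submodule.finrank_mono
  rintro _ ⟨_, ⟨w, rfl⟩, rfl⟩
  have h5 : rk (φ ∘ₗ N) w = rk φ w ∘ₗ N := rfl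
  rw [h5, ← h4, mem_HomY]
  intro y
  simpa using hY _

theorem Ctx.F3 (hC : Ctx B₁ f B M) (hab : ¬ (finrank F U = 2 ∧ finrank F W = 4)) {u : U}
    (hu : u ≠ 0) {g : (U →ₗ[F] W) ≃ₗ[F] (U →ₗ[F] W)} (hg : g ∈ M)
    (hK : Kron (g * rho hC.T u 1 * g⁻¹)) : Kron g := by
  have hs := hC.T.s1
  have hf := hC.T.s2
  have hW := hC.hW
  obtain ⟨A, h, h1⟩ := hK
  have h2 : ∀ X, (g * rho hC.T u 1 * g⁻¹) X = X + g (rk (B₁ u) (g⁻¹ X u)) := fun X => by
    simp [rho_apply]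
  obtain ⟨x₁, hx₁⟩ := hs.exists_one hu
  obtain ⟨z, -, hz⟩ := exists_ne_zero_of_finrank (K := (⊤ : Submodule F W)) (by simp; omega)
  have hp : ∀ w : W, rk (B₁ (-x₁)) w u = w := fun w => by simp [hs.skew x₁ u, hx₁]
  by_cases hh : ∃ c : F, ∀ y, h y = c • y
  swap
  · obtain ⟨y, hy⟩ : ∃ y, ∀ c : F, h y ≠ c • y := by
      by_contra! h'
      exact hh (eig_const (h : U →ₗ[F] U) LinearMap.id (fun _ _ h => h) h')
    obtain ⟨φ, h3, h4⟩ := exists_dual_pair hy
    have h5 : ∀ w, φ (h (h y)) • A w = (2 : F) • w := fun w => by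
      have e1 : (g * rho hC.T u 1 * g⁻¹) ((g * rho hC.T u 1 * g⁻¹) (rk φ w)) =
          (2 : F) • (g * rho hC.T u 1 * g⁻¹) (rk φ w) - rk φ w := by
        simp only [h2, map_add, inv_apply_apply, LinearMap.add_apply, rk_apply, hs.alt, zero_smul,
          map_zero]
        module
      have e2 := LinearMap.congr_fun e1 y
      simp only [h1, LinearMap.sub_apply, LinearMap.smul_apply, rk_apply, h3, h4, map_smul,
        zero_smul, one_smul, sub_zero] at e2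
      exact A.injective (by simpa using e2)
    have hc : φ (h (h y)) ≠ 0 := fun h0 => hz (by simpa [h0, hf.two] using (h5 z).symm)
    let N : U →ₗ[F] U := (2 / φ (h (h y))) • (h : U →ₗ[F] U) - LinearMap.id
    have h6 : ∀ X, g (rk (B₁ u) (g⁻¹ X u)) = X ∘ₗ N := fun X => by
      ext y'
      have e1 := h1 X y'
      have e2 := h5 (X (h y'))
      rw [← eq_inv_smul_iff₀ hc] at e2
      rw [h2, e2] at e1
      simp only [N, LinearMap.comp_apply, LinearMap.sub_apply, LinearMap.smul_apply, map_sub,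
        map_smul, LinearMap.id_apply, LinearEquiv.coe_coe]
      rw [LinearMap.add_apply] at e1
      linear_combination (norm := skip) e1
      match_scalars <;> field_simp <;> ring
    obtain ⟨ψ, hψ⟩ : ∃ ψ : Dual F U, ψ ∘ₗ N ≠ 0 := by
      by_contra! h7
      have h8 : N = 0 := LinearMap.ext fun y => eq_zero_of_forall_dual (F := F) fun φ =>
        LinearMap.congr_fun (h7 φ) y
      have := h6 (g (rk (B₁ (-x₁)) z))
      rw [h8, LinearMap.comp_zero, inv_apply_apply, hp, EmbeddingLike.map_eq_zero_iff] at this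
      exact rk_ne_zero (hs.left_ne hu) hz this
    refine hC.kron_of_line hu hψ hg fun w => ?_
    have h7 : rk (ψ ∘ₗ N) w = rk ψ w ∘ₗ N := rfl
    rw [h7, ← h6, inv_apply_apply]
    exact rk_mem_TL _ _
  exfalso
  obtain ⟨c, hc⟩ := hh
  let N : W →ₗ[F] W := c • (A : W →ₗ[F] W) - LinearMap.id
  have h6 : ∀ X, g (rk (B₁ u) (g⁻¹ X u)) = N ∘ₗ X := fun X => by
    ext y'
    have e1 := h1 X y'
    rw [h2, hc, LinearMap.add_apply] at e1
    simp only [N, LinearMap.comp_apply, LinearMap.sub_apply, LinearMap.smul_apply, map_sub,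
      map_smul, LinearMap.id_apply, LinearEquiv.coe_coe] at e1 ⊢
    linear_combination (norm := module) e1
  have h7 : ∀ (φ : Dual F U) w, N ∘ₗ rk φ w = rk φ (N w) := fun φ w => by ext; simp
  have h8 : ∀ w w', f (N w) w' = -f (N w') w := fun w w' => by
    have e : ∀ X Y, B (N ∘ₗ X) Y = B (N ∘ₗ Y) X := fun X Y => by
      rw [← h6, ← h6, Sp_left (hC.hM hg), Sp_left (hC.hM hg), hC.T.hB, hC.T.hB, hf.symm]
    have := e (rk (B₁ x₁) w) (rk (B₁ u) w')
    rw [h7, h7, hC.T.hB, hC.T.hB] at this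
    simpa [hx₁, hs.skew x₁ u] using this
  have h9 : ∀ y ∈ LinearMap.range N, ∀ y' ∈ LinearMap.range N, f y y' = 0 := by
    rintro _ ⟨w, rfl⟩ _ ⟨w', rfl⟩
    have := hC.T.L_iso u _ (rk_mem_TL _ (g⁻¹ (rk (B₁ x₁) w) u)) _
      (rk_mem_TL _ (g⁻¹ (rk (B₁ u) w') u))
    rw [← hC.hM hg, h6, h6, h7, h7, hC.T.hB] at this
    simpa [hx₁] using this
  have k1 : ∀ l ∈ TL W (B₁ u), ∀ y, g l y ∈ LinearMap.range N := by
    rintro _ ⟨w, rfl⟩ y
    have := h6 (g (rk (B₁ (-x₁)) w))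
    rw [inv_apply_apply, hp] at this
    rw [this]
    exact ⟨_, rfl⟩
  have k2 : finrank F U * finrank F (LinearMap.range N) ≤ finrank F W := by
    rw [← finrank_HomY, ← finrank_TL (U := W) (hs.left_ne hu),
      ← LinearEquiv.finrank_map_eq g (TL W (B₁ u))]
    apply Submodule.finrank_mono
    intro X hX
    rw [sum_rk X]
    refine Submodule.sum_mem _ fun i _ => ?_
    obtain ⟨w, hw⟩ := mem_HomY.1 hX (finBasis F U i)
    rw [← hw, ← h7, ← h6]
    exact ⟨_, rk_mem_TL _ _, rfl⟩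
  have k3 : 2 ≤ finrank F (LinearMap.range N) := by
    by_contra! h'
    obtain ⟨v, hv⟩ := finrank_le_one_iff.1 (Nat.le_of_lt_succ h')
    obtain ⟨w₁, hw₁⟩ : ∃ w, N w ≠ 0 := by
      by_contra! h''
      have := h6 (g (rk (B₁ (-x₁)) z))
      rw [inv_apply_apply, hp, show N = 0 from LinearMap.ext h'', LinearMap.zero_comp,
        EmbeddingLike.map_eq_zero_iff] at this
      exact rk_ne_zero (hs.left_ne hu) hz this
    obtain ⟨w₂, hw₂⟩ := hf.exists_ne hw₁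
    obtain ⟨c₁, e1⟩ := hv ⟨_, w₁, rfl⟩
    obtain ⟨c₂, e2⟩ := hv ⟨_, w₂, rfl⟩
    replace e1 : c₁ • (v : W) = N w₁ := congrArg Subtype.val e1
    replace e2 : c₂ • (v : W) = N w₂ := congrArg Subtype.val e2
    have e3 : f (N w₂) w₂ = 0 := (mul_eq_zero.1 (show 2 * f (N w₂) w₂ = 0 by
      linear_combination h8 w₂ w₂)).resolve_left hf.two
    rw [← e2] at e3
    have e4 : c₂ = 0 := by
      rw [← e1] at hw₂
      simp only [map_smul, LinearMap.smul_apply, smul_eq_mul, ne_eq, mul_eq_zero, not_or] at hw₂ e3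
      exact e3.resolve_right hw₂.2
    apply hw₂
    rw [h8, ← e2, e4]
    simp
  have k4 : 2 ≤ finrank F U := by
    by_contra! h'
    obtain ⟨v, hv⟩ := finrank_le_one_iff.1 (Nat.le_of_lt_succ h')
    obtain ⟨c₁, rfl⟩ := hv u
    obtain ⟨c₂, rfl⟩ := hv x₁
    simp [hs.alt] at hx₁
  by_cases hY : ∃ w ∈ perp f (LinearMap.range N), f w w ≠ 0
  · obtain ⟨w, h3, h4⟩ := hY
    obtain ⟨r, hr, e1, -⟩ := hf.exists_refl h4
    have := hC.rank_le hu hg hr ⟨w, by
        rw [e1, Ne, sub_eq_self, smul_eq_zero, not_or]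
        exact ⟨by simp [h4, hf.two], by rintro rfl; simp at h4⟩⟩
      (fun l hl => LinearMap.ext fun y => by
        simp [e1, hf.symm w, h3 _ (k1 l hl y)]) (Y := Submodule.span F {w}) (fun v => by
        rw [e1, sub_sub_cancel_left]
        exact Submodule.neg_mem _ (Submodule.smul_mem _ _ (Submodule.mem_span_singleton_self w)))
    have := finrank_span_one_le (F := F) w
    nlinarith
  · push Not at hY
    have e1 : perp f (LinearMap.range N) ≤ LinearMap.range N := fun x hx =>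
      hf.mem_of_perp fun s hs' => hf.eq_zero_of_sing hY (fun k hk => by rw [hf.symm, hs' k hk]) hx
    have e2 := Submodule.finrank_mono e1
    have e3 := hf.finrank_perp (LinearMap.range N)
    have e4 : finrank F U = 2 := by nlinarith
    have e5 : 3 ≤ finrank F (LinearMap.range N) := by
      rw [e4] at k2 hab
      omega
    obtain ⟨y₁, e6, e7⟩ := exists_ne_zero_of_finrank (K := LinearMap.range N) (by omega)
    obtain ⟨y₂, e8, e9⟩ := exists_not_mem_one k3 y₁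
    obtain ⟨E, hE, e10, -⟩ := hf.exists_siegel (h9 _ e6 _ e6) (h9 _ e6 _ e8)
    obtain ⟨v, hv⟩ := hf.exists_ne e7
    have := hC.rank_le hu hg hE ⟨v, fun h0 => e9 ((f y₂ v + f y₂ y₂ / 2 * f y₁ v) / f y₁ v) (by
        rw [e10] at h0
        rw [div_eq_inv_mul, mul_smul, eq_inv_smul_iff₀ hv]
        linear_combination (norm := module) h0)⟩
      (fun l hl => LinearMap.ext fun y => by
        simp [e10, h9 _ e6 _ (k1 l hl y), h9 _ e8 _ (k1 l hl y)])
      (Y := Submodule.span F {y₁, y₂}) (fun v => Submodule.mem_span_pair.2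
        ⟨-(f y₂ v + f y₂ y₂ / 2 * f y₁ v), f y₁ v, by rw [e10]; module⟩)
    have := finrank_span_pair_le (F := F) y₁ y₂
    nlinarith

end Cfsg.Agent.H9.Sp
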