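import Cfsg.Agent.H9.Sp.Ten4
import Cfsg.Agent.H9.Sp.Ten5

/-! Tensor product subgroups of symplectic groups: pairs of lines with maximal intersection. -/

set_option autoImplicit false
set_option linter.unusedSimpArgs false
set_option linter.unusedSectionVars false

namespace Cfsg.Agent.H9.Sp

open Module Cfsg.Agent.H6

attribute [-simp] LinearEquiv.coe_inv Submodule.mem_map_equiv

variable {F : Type*} [Field F] {U : Type*} [AddCommGroup U] [Module F U] [FiniteDimensional F U]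
  {W : Type*} [AddCommGroup W] [Module F W] [FiniteDimensional F W]

variable {B₁ : U →ₗ[F] U →ₗ[F] F} {f : W →ₗ[F] W →ₗ[F] F}
  {B : (U →ₗ[F] W) →ₗ[F] (U →ₗ[F] W) →ₗ[F] F} {M : Subgroup ((U →ₗ[F] W) ≃ₗ[F] (U →ₗ[F] W))}

variable (W) in
/-- the nilpotent part of `t_u ⊗ 1` -/
def sg (B₁ : U →ₗ[F] U →ₗ[F] F) (u : U) : (U →ₗ[F] W) →ₗ[F] (U →ₗ[F] W) :=
  rk (B₁ u) ∘ₗ LinearMap.applyₗ u

@[simp] theorem sg_apply (u : U) (v : U →ₗ[F] W) : sg W B₁ u v = rk (B₁ u) (v u) := rfl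

variable (W) in
/-- the translate of the line `u ⊗ W` -/
abbrev Lg (B₁ : U →ₗ[F] U →ₗ[F] F) (u : U) (g : (U →ₗ[F] W) ≃ₗ[F] (U →ₗ[F] W)) :
    Submodule F (U →ₗ[F] W) := (TL W (B₁ u)).map (g : (U →ₗ[F] W) →ₗ[F] (U →ₗ[F] W))

/-- a pair of lines in different blocks with maximal intersection -/
structure Pr (B₁ : U →ₗ[F] U →ₗ[F] F) (M : Subgroup ((U →ₗ[F] W) ≃ₗ[F] (U →ₗ[F] W))) (u : U)
    (g : (U →ₗ[F] W) ≃ₗ[F] (U →ₗ[F] W)) : Prop where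
  hab : ¬ (finrank F U = 2 ∧ finrank F W = 4)
  hu : u ≠ 0
  hg : g ∈ M
  nk : ¬ Kron g
  mx : ∀ m ∈ M, finrank F ↥(TL W (B₁ u) ⊓ Lg W B₁ u g) < finrank F ↥(TL W (B₁ u) ⊓ Lg W B₁ u m) →
    Kron m

theorem exists_pr (hab : ¬ (finrank F U = 2 ∧ finrank F W = 4)) {u : U} (hu : u ≠ 0)
    (h : ∃ g ∈ M, ¬ Kron g) : ∃ g, Pr B₁ M u g := by
  classical
  have hex : ∃ d, ∀ m ∈ M, d ≤ finrank F ↥(TL W (B₁ u) ⊓ Lg W B₁ u m) → Kron m :=
    ⟨finrank F (U →ₗ[F] W) + 1, fun m _ h =>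
      absurd (Submodule.finrank_le (TL W (B₁ u) ⊓ Lg W B₁ u m)) (by omega)⟩
  have h0 : Nat.find hex ≠ 0 := fun h0 => by
    obtain ⟨g, hg, hg'⟩ := h
    exact hg' (Nat.find_spec hex g hg (by omega))
  have h1 := Nat.find_min hex (m := Nat.find hex - 1) (by omega)
  simp only [not_forall] at h1
  obtain ⟨g, h2, h3, h4⟩ := h1
  exact ⟨g, hab, hu, h2, h4, fun m hm h5 => Nat.find_spec hex m hm (by omega)⟩

theorem kron_stab {φ : Dual F U} (hφ : φ ≠ 0) {m : (U →ₗ[F] W) ≃ₗ[F] (U →ₗ[F] W)} (hm : Kron m)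
    {l : U →ₗ[F] W} (hl : l ∈ TL W φ) (hl0 : l ≠ 0) (h : m l ∈ TL W φ) :
    ∀ v ∈ TL W φ, m v ∈ TL W φ := by
  obtain ⟨A, k, h1⟩ := hm
  obtain ⟨w, rfl⟩ := hl
  rintro _ ⟨w', rfl⟩
  refine mem_TL_of hφ fun y hy => ?_
  have := TL_apply h hy
  rw [h1] at this ⊢
  have hw : w ≠ 0 := by rintro rfl; simp at hl0
  have h2 : φ (k y) = 0 := by simpa [hw] using this
  simp [h2]

variable {u : U} {g : (U →ₗ[F] W) ≃ₗ[F] (U →ₗ[F] W)}

theorem mem_Lg {v : U →ₗ[F] W} : v ∈ Lg W B₁ u g ↔ g⁻¹ v ∈ TL W (B₁ u) := mem_map_equiv'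

theorem Pr.key (hC : Ctx B₁ f B M) (hP : Pr B₁ M u g) {m : (U →ₗ[F] W) ≃ₗ[F] (U →ₗ[F] W)}
    (hm : m ∈ M) {K : Submodule F (U →ₗ[F] W)} (h1 : K ≤ TL W (B₁ u))
    (h2 : ∀ v ∈ K, m v ∈ TL W (B₁ u))
    (h3 : finrank F ↥(TL W (B₁ u) ⊓ Lg W B₁ u g) < finrank F K) :
    Kron m ∧ ∀ v ∈ TL W (B₁ u), m v ∈ TL W (B₁ u) := by
  have h4 : Kron m := hP.mx m hm (h3.trans_le (by
    rw [← LinearEquiv.finrank_map_eq m K]
    apply Submodule.finrank_mono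
    rintro _ ⟨v, hv, rfl⟩
    exact ⟨h2 v hv, v, h1 hv, rfl⟩))
  obtain ⟨l, hl, hl0⟩ := exists_ne_zero_of_finrank (K := K) (by omega)
  exact ⟨h4, kron_stab (hC.T.s1.left_ne hP.hu) h4 (h1 hl) hl0 (h2 l hl)⟩

theorem Pr.key' (hC : Ctx B₁ f B M) (hP : Pr B₁ M u g) {k m : (U →ₗ[F] W) ≃ₗ[F] (U →ₗ[F] W)}
    (hk : k ∈ M) (hm : m ∈ M) {K : Submodule F (U →ₗ[F] W)} (h1 : K ≤ Lg W B₁ u k)
    (h2 : ∀ v ∈ K, m v ∈ Lg W B₁ u k)
    (h3 : finrank F ↥(TL W (B₁ u) ⊓ Lg W B₁ u g) < finrank F K) :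
    Kron (k⁻¹ * m * k) ∧ ∀ v ∈ Lg W B₁ u k, m v ∈ Lg W B₁ u k := by
  obtain ⟨h4, h5⟩ := hP.key hC (M.mul_mem (M.mul_mem (M.inv_mem hk) hm) hk)
    (K := K.map ((k⁻¹ : (U →ₗ[F] W) ≃ₗ[F] (U →ₗ[F] W)) : (U →ₗ[F] W) →ₗ[F] (U →ₗ[F] W)))
    (by rintro _ ⟨v, hv, rfl⟩; exact mem_Lg.1 (h1 hv))
    (by rintro _ ⟨v, hv, rfl⟩; simpa using mem_Lg.1 (h2 v hv))
    (by rwa [LinearEquiv.finrank_map_eq])
  exact ⟨h4, fun v hv => mem_Lg.2 (by simpa using h5 _ (mem_Lg.1 hv))⟩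

theorem finrank_inf_inv : finrank F ↥(TL W (B₁ u) ⊓ Lg W B₁ u g⁻¹) =
    finrank F ↥(TL W (B₁ u) ⊓ Lg W B₁ u g) := by
  have : (TL W (B₁ u) ⊓ Lg W B₁ u g⁻¹).map (g : (U →ₗ[F] W) →ₗ[F] (U →ₗ[F] W)) =
      TL W (B₁ u) ⊓ Lg W B₁ u g := by
    ext v
    simp only [mem_map_equiv', Submodule.mem_inf, inv_inv, apply_inv_apply, and_comm]
  rw [← LinearEquiv.finrank_map_eq g, this]

theorem Pr.inv (hP : Pr B₁ M u g) : Pr B₁ M u g⁻¹ :=
  ⟨hP.hab, hP.hu, M.inv_mem hP.hg, fun h => hP.nk (by simpa using kron_inv h),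
    by rw [finrank_inf_inv]; exact hP.mx⟩

theorem Pr.not_rho (hC : Ctx B₁ f B M) (hP : Pr B₁ M u g) {k : (U →ₗ[F] W) ≃ₗ[F] (U →ₗ[F] W)}
    (hk : k ∈ M) (hk' : ¬ Kron k) {x : U} (hx : x ≠ 0) : ¬ Kron (k⁻¹ * rho hC.T x 1 * k) :=
  fun h => hk' (by simpa using kron_inv (hC.F3 hP.hab hx (M.inv_mem hk) (by simpa using h)))

theorem Pr.E (hC : Ctx B₁ f B M) (hP : Pr B₁ M u g) {k : (U →ₗ[F] W) ≃ₗ[F] (U →ₗ[F] W)}
    (hk : k ∈ M) (hk' : ¬ Kron k) {x : U} (hx : x ≠ 0) {K : Submodule F (U →ₗ[F] W)}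
    (h1 : K ≤ Lg W B₁ u k) (h2 : ∀ v ∈ K, v x = 0) :
    finrank F K ≤ finrank F ↥(TL W (B₁ u) ⊓ Lg W B₁ u g) := by
  by_contra! h
  exact hP.not_rho hC hk hk' hx (hP.key' hC hk (hC.rho_mem x 1) h1
    (fun v hv => by simpa [rho_apply, h2 v hv] using h1 hv) h).1

theorem Pr.N1 (hC : Ctx B₁ f B M) (hP : Pr B₁ M u g) {v : U →ₗ[F] W} (hv : v ∈ Lg W B₁ u g)
    (h : sg W B₁ u v ∈ Lg W B₁ u g) : v ∈ TL W (B₁ u) := by
  by_contra h1
  refine hP.not_rho hC hP.hg hP.nk hP.hu (hP.key' hC hP.hg (hC.rho_mem u 1)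
    (K := (TL W (B₁ u) ⊓ Lg W B₁ u g) ⊔ Submodule.span F {v})
    (sup_le inf_le_right ((Submodule.span_singleton_le_iff_mem _ _).2 hv)) ?_ ?_).1
  · intro x hx
    obtain ⟨a, ha, b, hb, rfl⟩ := Submodule.mem_sup.1 hx
    obtain ⟨c, rfl⟩ := Submodule.mem_span_singleton.1 hb
    rw [map_add, map_smul, rho_apply, rho_apply, hC.T.L_apply ha.1]
    simpa using Submodule.add_mem _ ha.2 (Submodule.smul_mem _ c (Submodule.add_mem _ hv h))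
  · rw [Submodule.finrank_sup_span_singleton fun h => h1 (Submodule.mem_inf.1 h).1]
    omega

theorem Pr.N2 (hC : Ctx B₁ f B M) (hP : Pr B₁ M u g) {v : U →ₗ[F] W} (hv : v ∈ TL W (B₁ u))
    (h : cj g (sg W B₁ u) v ∈ TL W (B₁ u)) : v ∈ Lg W B₁ u g :=
  mem_Lg.2 (hP.inv.N1 hC (mem_Lg.2 (by simpa using hv)) (mem_Lg.2 (by simpa using h)))

theorem Pr.S1 (hC : Ctx B₁ f B M) (hP : Pr B₁ M u g) {l : U →ₗ[F] W} (hl : l ∈ TL W (B₁ u)) :
    ∃ v ∈ Lg W B₁ u g, l - sg W B₁ u v ∈ Lg W B₁ u g := by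
  have h1 := finrank_map_add_inf_ker (Lg W B₁ u g) (sg W B₁ u)
  have h2 : Lg W B₁ u g ⊓ LinearMap.ker (sg W B₁ u) = TL W (B₁ u) ⊓ Lg W B₁ u g := by
    ext v
    constructor
    · rintro ⟨h3, h4⟩
      replace h4 : sg W B₁ u v = 0 := h4
      exact ⟨hP.N1 hC h3 (h4 ▸ Submodule.zero_mem _), h3⟩
    · rintro ⟨h3, h4⟩
      exact ⟨h4, by simp [hC.T.L_apply h3]⟩
  have h3 := Submodule.finrank_sup_add_finrank_inf_eq ((Lg W B₁ u g).map (sg W B₁ u))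
    (TL W (B₁ u) ⊓ Lg W B₁ u g)
  have h4 : (Lg W B₁ u g).map (sg W B₁ u) ⊓ (TL W (B₁ u) ⊓ Lg W B₁ u g) = ⊥ := by
    rw [eq_bot_iff]
    rintro _ ⟨⟨v, hv, rfl⟩, -, h5⟩
    simp [hC.T.L_apply (hP.N1 hC hv h5)]
  rw [h4, finrank_bot] at h3
  rw [h2, LinearEquiv.finrank_map_eq] at h1
  have h5 : (Lg W B₁ u g).map (sg W B₁ u) ⊔ (TL W (B₁ u) ⊓ Lg W B₁ u g) = TL W (B₁ u) :=
    Submodule.eq_of_le_of_finrank_eq
      (sup_le (by rintro _ ⟨v, -, rfl⟩; exact rk_mem_TL _ _) inf_le_left) (by omega)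
  rw [← h5] at hl
  obtain ⟨_, ⟨v, hv, rfl⟩, b, hb, rfl⟩ := Submodule.mem_sup.1 hl
  exact ⟨v, hv, by simpa using hb.2⟩

theorem Pr.S2 (hC : Ctx B₁ f B M) (hP : Pr B₁ M u g) {l : U →ₗ[F] W} (hl : l ∈ Lg W B₁ u g) :
    ∃ v ∈ TL W (B₁ u), l - cj g (sg W B₁ u) v ∈ TL W (B₁ u) := by
  obtain ⟨v, h1, h2⟩ := hP.inv.S1 hC (mem_Lg.1 hl)
  exact ⟨g v, by simpa using mem_Lg.1 h1, by simpa using mem_Lg.1 h2⟩

theorem Pr.exists_not_mem (hC : Ctx B₁ f B M) (hP : Pr B₁ M u g) :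
    ∃ l ∈ TL W (B₁ u), l ∉ Lg W B₁ u g := by
  by_contra! h
  exact hP.nk (hC.kron_of_line hP.hu (hC.T.s1.left_ne hP.hu) hP.hg fun w =>
    mem_Lg.1 (h _ (rk_mem_TL _ _)))

theorem sg'_mem (v : U →ₗ[F] W) : cj g (sg W B₁ u) v ∈ Lg W B₁ u g := ⟨_, rk_mem_TL _ _, rfl⟩

theorem TS.sg'_eq_zero (hT : TS B₁ f B) {v : U →ₗ[F] W} (hv : v ∈ Lg W B₁ u g) :
    cj g (sg W B₁ u) v = 0 := by simp [hT.L_apply (mem_Lg.1 hv)]

theorem Ctx.Lg_iso (hC : Ctx B₁ f B M) (hg : g ∈ M) {x y : U →ₗ[F] W} (hx : x ∈ Lg W B₁ u g)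
    (hy : y ∈ Lg W B₁ u g) : B x y = 0 := by
  rw [← hC.hM (M.inv_mem hg)]
  exact hC.T.L_iso u _ (mem_Lg.1 hx) _ (mem_Lg.1 hy)

/-- a group containing the two root groups -/
def Gam (M : Subgroup ((U →ₗ[F] W) ≃ₗ[F] (U →ₗ[F] W))) (L L' : Submodule F (U →ₗ[F] W))
    (σ σ' : (U →ₗ[F] W) →ₗ[F] (U →ₗ[F] W)) : Subgroup ((U →ₗ[F] W) ≃ₗ[F] (U →ₗ[F] W)) where
  carrier := {γ | γ ∈ M ∧ (∀ a ∈ L ⊓ L', γ a = a) ∧ (∀ v, γ v - v ∈ L ⊔ L') ∧
    ∀ v, σ v ∈ L' → σ' v ∈ L → γ v - v ∈ L ⊓ L'}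
  one_mem' := ⟨M.one_mem, by simp, by simp, by simp⟩
  mul_mem' := by
    rintro a b ⟨a1, a2, a3, a4⟩ ⟨b1, b2, b3, b4⟩
    refine ⟨M.mul_mem a1 b1, fun x hx => by simp [a2 x hx, b2 x hx], fun v => ?_,
      fun v h1 h2 => ?_⟩
    · simpa using Submodule.add_mem _ (a3 (b v)) (b3 v)
    · have := a2 _ (b4 v h1 h2)
      rw [map_sub, sub_eq_iff_eq_add] at this
      rw [LinearEquiv.mul_apply, this, add_sub_assoc]
      exact Submodule.add_mem _ (b4 v h1 h2) (a4 v h1 h2)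
  inv_mem' := by
    rintro a ⟨a1, a2, a3, a4⟩
    refine ⟨M.inv_mem a1, fun x hx => inv_fix (a2 x hx), fun v => ?_, fun v h1 h2 => ?_⟩
    · simpa using Submodule.neg_mem _ (a3 (a⁻¹ v))
    · have := inv_fix (a2 _ (a4 v h1 h2))
      rw [map_sub, inv_apply_apply] at this
      simpa [← this] using Submodule.neg_mem _ (a4 v h1 h2)

theorem Pr.dickson [Finite F] (hC : Ctx B₁ f B M) (hP : Pr B₁ M u g) :
    (∃ γ ∈ Gam M (TL W (B₁ u)) (Lg W B₁ u g) (sg W B₁ u) (cj g (sg W B₁ u)), Kron γ ∧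
      (∀ v ∈ TL W (B₁ u), γ v ∈ TL W (B₁ u)) ∧ ∃ l ∈ TL W (B₁ u), l ≠ 0 ∧ γ l = -l) ∧
    (4 ≤ Nat.card F → ∃ γ ∈ Gam M (TL W (B₁ u)) (Lg W B₁ u g) (sg W B₁ u) (cj g (sg W B₁ u)),
      ∃ ν : F, ν ≠ 1 ∧ ∀ v, γ (sg W B₁ u v) = ν • sg W B₁ u (γ v)) := by
  have hs := hC.T.s1
  have hf := hC.T.s2
  obtain ⟨l₀, hl₀, hl₀'⟩ := hP.exists_not_mem hC
  obtain ⟨K, _, _, _, ψ, τ, hτ, hψ0, hψ⟩ := exists_eigen_functional
    (sg W B₁ u ∘ₗ cj g (sg W B₁ u)) (by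
      intro n hn
      have : ∀ n : ℕ, ((sg W B₁ u ∘ₗ cj g (sg W B₁ u)) ^ n) l₀ ∈ TL W (B₁ u) ∧
          ((sg W B₁ u ∘ₗ cj g (sg W B₁ u)) ^ n) l₀ ∉ Lg W B₁ u g := by
        intro n
        induction n with
        | zero => exact ⟨hl₀, hl₀'⟩
        | succ n ih =>
          rw [pow_succ', Module.End.mul_apply]
          exact ⟨rk_mem_TL _ _, fun h => ih.2 (hP.N2 hC ih.1 (hP.N1 hC (sg'_mem _) h))⟩
      exact (this n).2 (by rw [hn]; exact Submodule.zero_mem _))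
  obtain ⟨v₀, hv₀⟩ : ∃ v, ψ v ≠ 0 := by
    by_contra! h; exact hψ0 (LinearMap.ext h)
  have hσ : ∀ v, sg W B₁ u (sg W B₁ u v) = 0 := fun v => by simp [hs.alt]
  have hlam : ∀ μ : Dual F K, ∃ l ∈ TL W (B₁ u), ∀ v, B l v = μ (ψ (sg W B₁ u v)) := fun μ => by
    obtain ⟨w, hw⟩ := hf.exists_dual (μ ∘ₗ ψ ∘ₗ rk (B₁ u))
    exact ⟨rk (B₁ u) w, rk_mem_TL _ _, fun v => by rw [hC.T.hB, hw]; rfl⟩
  obtain ⟨μ, hμ⟩ := exists_dual_one' (F := F) (mul_ne_zero hτ hv₀)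
  obtain ⟨l, hl, hl'⟩ := hlam μ
  have hl'' : l ∉ Lg W B₁ u g := fun h => by
    have := hl' (cj g (sg W B₁ u) v₀)
    rw [hC.Lg_iso hP.hg h (sg'_mem _)] at this
    have h2 := hψ v₀
    rw [LinearMap.comp_apply] at h2
    rw [h2, hμ] at this
    exact zero_ne_one this
  have hst : ∀ γ ∈ Gam M (TL W (B₁ u)) (Lg W B₁ u g) (sg W B₁ u) (cj g (sg W B₁ u)), ∀ c : K,
      (∀ v, ψ (sg W B₁ u (γ v)) = c * ψ (sg W B₁ u v)) →
      Kron γ ∧ ∀ v ∈ TL W (B₁ u), γ v ∈ TL W (B₁ u) := by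
    intro γ hγ c hc
    obtain ⟨l', h1, h2⟩ := hlam (μ ∘ₗ LinearMap.mulLeft F c)
    have h3 : γ⁻¹ l = l' := hC.T.s.ext' fun v => by
      rw [← Sp_right (hC.hM hγ.1), hl', h2, hc]; rfl
    obtain ⟨h4, h5⟩ := hP.key hC (M.inv_mem hγ.1)
      (K := (TL W (B₁ u) ⊓ Lg W B₁ u g) ⊔ Submodule.span F {l})
      (sup_le inf_le_left ((Submodule.span_singleton_le_iff_mem _ _).2 hl)) (by
        intro x hx
        obtain ⟨a, ha, b, hb, rfl⟩ := Submodule.mem_sup.1 hx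
        obtain ⟨c, rfl⟩ := Submodule.mem_span_singleton.1 hb
        rw [map_add, map_smul, inv_fix (hγ.2.1 a ha), h3]
        exact Submodule.add_mem _ ha.1 (Submodule.smul_mem _ c h1)) (by
        rw [Submodule.finrank_sup_span_singleton fun h => hl'' (Submodule.mem_inf.1 h).2]
        omega)
    exact ⟨by simpa using kron_inv h4, by simpa using inv_mem_of_stab h5⟩
  obtain ⟨⟨γ, hγ, h1⟩, h2⟩ := pair_dickson hf.two
    (Gam M (TL W (B₁ u)) (Lg W B₁ u g) (sg W B₁ u) (cj g (sg W B₁ u))) hσ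
    (fun v => hC.T.sg'_eq_zero (sg'_mem v))
    (fun c => ⟨rho hC.T u c, ⟨hC.rho_mem u c, fun a ha => by simp [rho_apply, hC.T.L_apply ha.1],
      fun v => by
        rw [rho_apply, add_sub_cancel_left]
        exact Submodule.mem_sup_left (Submodule.smul_mem _ _ (rk_mem_TL _ _)),
      fun v h _ => by
        rw [rho_apply, add_sub_cancel_left]
        exact Submodule.smul_mem _ _ ⟨rk_mem_TL _ _, h⟩⟩, rho_apply hC.T u c⟩)
    (by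
      have e : ∀ v, (g * rho hC.T u 1 * g⁻¹) v = v + cj g (sg W B₁ u) v := fun v => by
        simp [rho_apply]
      exact ⟨g * rho hC.T u 1 * g⁻¹,
        ⟨M.mul_mem (M.mul_mem hP.hg (hC.rho_mem u 1)) (M.inv_mem hP.hg),
          fun a ha => by rw [e, hC.T.sg'_eq_zero ha.2, add_zero],
          fun v => by rw [e, add_sub_cancel_left]; exact Submodule.mem_sup_right (sg'_mem _),
          fun v _ h => by rw [e, add_sub_cancel_left]; exact ⟨h, sg'_mem _⟩⟩, e⟩) hτ hψ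
  constructor
  · obtain ⟨h3, h4⟩ := hst γ hγ _ h1
    refine ⟨γ, hγ, h3, h4, l, hl, fun h => hl'' (h ▸ Submodule.zero_mem _), ?_⟩
    have : γ⁻¹ l = -l := hC.T.s.ext' fun v => by
      rw [← Sp_right (hC.hM hγ.1), hl', h1, map_neg, LinearMap.neg_apply, hl']; simp
    have h5 := congrArg γ this
    rw [apply_inv_apply, map_neg] at h5
    rw [← neg_eq_iff_eq_neg, ← h5]
  · intro h4
    obtain ⟨γ, hγ, c, c', m, h5, h6, h7, h8⟩ := h2 h4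
    obtain ⟨ν, -, hν⟩ := hC.conj_sigma hP.hu hγ.1 (hst γ hγ _ h8).2
    refine ⟨γ, hγ, ν, ?_, hν⟩
    rintro rfl
    have e1 := congrArg ψ (hν (cj g (sg W B₁ u) v₀))
    rw [one_smul, ← sg_apply, ← sg_apply, h7, h8, hσ, ← LinearMap.comp_apply (sg W B₁ u), hψ,
      map_zero, mul_zero, add_zero] at e1
    exact h6 (by rw [← h5, mul_right_cancel₀ (mul_ne_zero hτ hv₀) e1])

theorem Pr.inf_eq_bot [Finite F] (hC : Ctx B₁ f B M) (hP : Pr B₁ M u g) (hq : 4 ≤ Nat.card F) :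
    TL W (B₁ u) ⊓ Lg W B₁ u g = ⊥ := by
  by_contra h
  obtain ⟨_, ⟨⟨w, rfl⟩, h1⟩, h2⟩ := Submodule.exists_mem_ne_zero_of_ne_bot h
  obtain ⟨γ, hγ, ν, h3, h4⟩ := (hP.dickson hC).2 hq
  obtain ⟨φ, hφ⟩ := exists_dual_one' (F := F) hP.hu
  obtain ⟨l, h5, h6⟩ := hP.S2 hC (sg'_mem (rk φ w))
  have e1 : sg W B₁ u (rk φ w - l) = rk (B₁ u) w := by simp [hφ, hC.T.L_apply h5]
  have e2 := hγ.2.2.2 (rk φ w - l) (e1 ▸ h1) (by rwa [map_sub])
  have e3 := h4 (rk φ w - l)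
  have e4 : sg W B₁ u (γ (rk φ w - l)) = rk (B₁ u) w := by
    rw [← e1, ← sub_eq_zero, ← map_sub, sg_apply, hC.T.L_apply e2.1, map_zero]
  rw [e1, e4, hγ.2.1 _ ⟨rk_mem_TL _ _, h1⟩] at e3
  apply h2
  have : (1 - ν) • rk (B₁ u) w = 0 := by rw [sub_smul, one_smul, ← e3, sub_self]
  simpa [sub_eq_zero, Ne.symm h3] using this

theorem Pr.big [Finite F] (hC : Ctx B₁ f B M) (hP : Pr B₁ M u g) : finrank F U ≤ 2 := by
  have hs := hC.T.s1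
  have hf := hC.T.s2
  by_contra! ha
  obtain ⟨x, hx, hx'⟩ := exists_not_mem_one (K := LinearMap.ker (B₁ u))
    (by have := finrank_ker_ge (B₁ u); omega) u
  replace hx : B₁ u x = 0 := hx
  obtain ⟨y, hy, hy'⟩ := hs.exists_perp (K := Submodule.span F {u}) (x := x) (fun h => by
    obtain ⟨c, hc⟩ := Submodule.mem_span_singleton.1 h
    exact hx' c hc.symm)
  replace hy := hy u (Submodule.mem_span_singleton_self u)
  obtain ⟨γ, hγ, ⟨A, h, hK⟩, h1, _, ⟨w₁, rfl⟩, h2, h3⟩ := (hP.dickson hC).1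
  have hw₁ : w₁ ≠ 0 := by rintro rfl; simp at h2
  have k1 : ∀ v : U →ₗ[F] W, v u = 0 → γ v - v ∈ TL W (B₁ u) := by
    intro v hv
    obtain ⟨a, ha, b, hb, hab⟩ := Submodule.mem_sup.1 (hγ.2.2.1 v)
    have e1 : γ v u = 0 := hC.T.mem_perp_L.1
      (map_perp (hC.hM hγ.1) (inv_mem_of_stab h1) (hC.T.mem_perp_L.2 hv))
    have e2 : b u = 0 := by simpa [e1, hv, hC.T.L_apply ha] using LinearMap.congr_fun hab u
    rw [← hab]
    exact Submodule.add_mem _ ha (hP.N1 hC hb (by simp [e2]))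
  have k2 : ∀ x y w, B₁ u x = 0 → B₁ u y = 0 → B₁ x (h y) • A w = B₁ x y • w := by
    intro x y w hx hy
    have := TL_apply (k1 (rk (B₁ x) w) (by simp [hs.comm.1 hx])) hy
    simpa [hK, sub_eq_zero] using this
  have k3 : ∀ w, B₁ x (h y) • A w = w := fun w => by rw [k2 x y w hx hy, hy', one_smul]
  have k4 : B₁ x (h y) ≠ 0 := fun h0 => hw₁ (by simpa [h0] using (k3 w₁).symm)
  set ε := (B₁ x (h y))⁻¹ with hε
  have k5 : ∀ w, A w = ε • w := fun w => by rw [eq_inv_smul_iff₀ k4, k3]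
  have k6 : ∀ l ∈ TL W (B₁ u), γ l = -l := by
    rintro _ ⟨w, rfl⟩
    ext y'
    have := LinearMap.congr_fun h3 y'
    simp only [hK, k5, rk_apply, smul_smul, LinearMap.neg_apply, ← neg_smul] at this ⊢
    rw [smul_left_injective F hw₁ this]
  have k7 : ∀ l ∈ TL W (B₁ u), l ∈ Lg W B₁ u g → l = 0 := fun l h4 h5 => by
    have := k6 l h4
    rw [hγ.2.1 l ⟨h4, h5⟩] at this
    have e : (2 : F) • l = 0 := by linear_combination (norm := module) this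
    simpa [hf.two] using e
  obtain ⟨c, hc⟩ : ∃ c : F, c • u = ε • h x - x := Submodule.mem_span_singleton.1
    (hs.mem_of_perp fun s hs' => by
      have := k2 s x w₁ (hs' u (Submodule.mem_span_singleton_self u)) hx
      rw [k5, smul_smul] at this
      have := smul_left_injective F hw₁ this
      simp only [map_sub, map_smul, LinearMap.sub_apply, LinearMap.smul_apply, smul_eq_mul,
        hs.skew (h x) s, hs.skew x s]
      linear_combination -this)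
  have k8 := hP.E hC hP.hg hP.nk (x := (2 : F) • x + c • u) (fun h0 => hx' (-c / 2) (by
      have := hf.two
      linear_combination (norm := skip) (2 : F)⁻¹ • h0
      match_scalars <;> field_simp <;> ring)) le_rfl (fun v hv => by
    obtain ⟨a, ha, b, hb, hab⟩ := Submodule.mem_sup.1 (hγ.2.2.1 v)
    have e1 : γ v u = -v u := hf.ext fun w => by
      rw [← hC.T.hB, ← neg_neg (rk (B₁ u) w), ← k6 _ (rk_mem_TL _ _), map_neg, LinearMap.neg_apply,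
        hC.hM hγ.1, hC.T.hB, map_neg]
    have e2 : (b + (2 : F) • v) u = 0 := by
      have := LinearMap.congr_fun hab u
      simp only [LinearMap.add_apply, LinearMap.sub_apply, e1, hC.T.L_apply ha,
        LinearMap.smul_apply] at this ⊢
      linear_combination (norm := module) this
    have e3 := Submodule.add_mem _ hb (Submodule.smul_mem _ (2 : F) hv)
    have e4 := LinearMap.congr_fun (k7 _ (hP.N1 hC e3 (by simp [e2])) e3) x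
    have e5 := LinearMap.congr_fun hab x
    simp only [LinearMap.add_apply, LinearMap.sub_apply, TL_apply ha hx, hK, k5,
      LinearMap.smul_apply, LinearMap.zero_apply] at e4 e5
    rw [hc]
    simp only [map_add, map_sub, map_smul]
    linear_combination (norm := module) e4 - e5)
  have k9 : TL W (B₁ u) ⊓ Lg W B₁ u g = ⊥ := eq_bot_iff.2 fun l hl => k7 l hl.1 hl.2
  rw [k9, finrank_bot, LinearEquiv.finrank_map_eq, finrank_TL (hs.left_ne hP.hu)] at k8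
  have := hC.hW
  omega

theorem Pr.le_add [Finite F] (hC : Ctx B₁ f B M) (hP : Pr B₁ M u g) :
    finrank F W ≤ finrank F U + finrank F ↥(TL W (B₁ u) ⊓ Lg W B₁ u g) := by
  have hs := hC.T.s1
  have hf := hC.T.s2
  by_contra! h
  have hL : finrank F (Lg W B₁ u g) = finrank F W := by
    rw [LinearEquiv.finrank_map_eq, finrank_TL (hs.left_ne hP.hu)]
  have k1 : ∀ w, f w w ≠ 0 → ∀ v ∈ Lg W B₁ u g, rk (f w ∘ₗ v) w ∈ Lg W B₁ u g := by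
    intro w hw v hv
    obtain ⟨r, hr, h1, -⟩ := hf.exists_refl hw
    have h2 := finrank_map_add_inf_ker (Lg W B₁ u g) (LinearMap.llcomp F U W F (f w))
    have h3 := Submodule.finrank_le ((Lg W B₁ u g).map (LinearMap.llcomp F U W F (f w)))
    rw [Subspace.dual_finrank_eq] at h3
    have h4 := (hP.key' hC hP.hg (hC.kr_mem hr (Sp B₁).one_mem)
      (K := Lg W B₁ u g ⊓ LinearMap.ker (LinearMap.llcomp F U W F (f w))) inf_le_left
      (fun v hv => by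
        convert (Submodule.mem_inf.1 hv).1 using 1
        ext y
        have : f w (v y) = 0 := LinearMap.congr_fun hv.2 y
        simp [h1, this]) (by omega)).2 v hv
    convert Submodule.smul_mem _ (f w w / 2) (Submodule.sub_mem _ hv h4) using 1
    ext y
    have := hf.two
    simp only [rk_apply, LinearMap.comp_apply, LinearMap.smul_apply, LinearMap.sub_apply, kr_apply,
      h1, LinearEquiv.coe_one, id_eq]
    match_scalars <;> field_simp <;> ring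
  obtain ⟨v, hv, hv0⟩ := exists_ne_zero_of_finrank (K := Lg W B₁ u g) (by omega)
  obtain ⟨y, hy⟩ : ∃ y, v y ≠ 0 := by
    by_contra! h; exact hv0 (LinearMap.ext h)
  obtain ⟨w, h1, h2⟩ := hf.exists_nonsing_ne (hf.ne_zero hy)
  have hφ : f w ∘ₗ v ≠ 0 := fun h0 => h2 (by rw [hf.symm]; exact LinearMap.congr_fun h0 y)
  refine hP.nk (hC.kron_of_line hP.hu hφ hP.hg fun x => mem_Lg.1 ?_)
  refine hf.irr_top hC.hW (Z := (Lg W B₁ u g).comap (rk (f w ∘ₗ v))) (k1 w h1 v hv)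
    (by rintro rfl; simp at h1) (fun x h3 h4 => ?_) x
  rw [Submodule.mem_comap]
  convert Submodule.smul_mem _ (f w x)⁻¹ (k1 x h3 _ (k1 w h1 v hv)) using 1
  ext y
  simp only [rk_apply, LinearMap.comp_apply, LinearMap.smul_apply, map_smul, smul_eq_mul,
    hf.symm x w]
  match_scalars
  field_simp

end Cfsg.Agent.H9.Sp
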