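import Cfsg.Agent.H9.Sp.Ten6
import Cfsg.Agent.H9.Sp.UnitFin

/-! Tensor product subgroups of symplectic groups: the maximality theorem. -/

set_option autoImplicit false
set_option linter.unusedSimpArgs false
set_option linter.unusedSectionVars false

namespace Cfsg.Agent.H9.Sp

open Module Cfsg.Agent.H6

attribute [-simp] LinearEquiv.coe_inv Submodule.mem_map_equiv

variable {F : Type*} [Field F] {U : Type*} [AddCommGroup U] [Module F U] [FiniteDimensional F U]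
  {W : Type*} [AddCommGroup W] [Module F W] [FiniteDimensional F W]

variable {B₁ : U →ₗ[F] U →ₗ[F] F} {f : W →ₗ[F] W →ₗ[F] F}
  {B : (U →ₗ[F] W) →ₗ[F] (U →ₗ[F] W) →ₗ[F] F} {M : Subgroup ((U →ₗ[F] W) ≃ₗ[F] (U →ₗ[F] W))}
  {u : U} {g : (U →ₗ[F] W) ≃ₗ[F] (U →ₗ[F] W)}

theorem Ctx.siegel_comm (hC : Ctx B₁ f B M) {w₀ : W} (h0 : w₀ ≠ 0) (h1 : f w₀ w₀ = 0)
    {y : (U →ₗ[F] W) ≃ₗ[F] (U →ₗ[F] W)} (hy : y ∈ M) (h2 : ∀ φ, y (rk φ w₀) = rk φ w₀)
    (x : U) {z₁ z₂ : W} (hz₁ : f w₀ z₁ = 0) (hz₂ : f w₀ z₂ = 0) :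
    B (rk (B₁ x) z₁) (y (rk (B₁ x) z₂)) = 0 := by
  have hs := hC.T.s1
  have hf := hC.T.s2
  by_cases hx : x = 0
  · have : rk (B₁ x) z₁ = 0 := by ext; simp [hx]
    simp [this]
  let N : Submodule F (U →ₗ[F] W) := LinearMap.range (LinearMap.smulRightₗ.flip w₀)
  have hN : ∀ φ, rk φ w₀ ∈ N := fun φ => ⟨φ, rfl⟩
  have hN' : ∀ l ∈ N, ∃ x, l = rk (B₁ x) w₀ := by
    rintro _ ⟨φ, rfl⟩
    obtain ⟨x, rfl⟩ := hs.exists_left φ
    exact ⟨x, rfl⟩
  have hp : ∀ v ∈ perp B N, f w₀ ∘ₗ v = 0 := fun v hv => LinearMap.ext fun x => by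
    simpa [hC.T.hB] using hv _ (hN (B₁ x))
  have hyN : ∀ l ∈ N, y l = l := fun l hl => by
    obtain ⟨x, rfl⟩ := hN' l hl
    exact h2 _
  have hy' : ∀ v, f w₀ ∘ₗ y⁻¹ v = f w₀ ∘ₗ v := fun v => LinearMap.ext fun x => by
    rw [LinearMap.comp_apply, LinearMap.comp_apply, ← hC.T.hB, ← hC.T.hB, ← Sp_left (hC.hM hy), h2]
  have hE : ∀ z, f w₀ z = 0 → ∃ n ∈ M, (∀ l ∈ N, n l = l) ∧
      ∀ v, n v - v - rk (f w₀ ∘ₗ v) z ∈ N := by
    intro z hz
    obtain ⟨E, hE, h3, -⟩ := hf.exists_siegel h1 hz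
    refine ⟨kr E 1, hC.kr_mem hE (Sp B₁).one_mem, fun l hl => ?_, fun v => ?_⟩
    · obtain ⟨x, rfl⟩ := hN' l hl
      ext y
      simp [h3, h1, hf.symm z w₀, hz]
    · convert hN (-(f z + (f z z / 2) • f w₀) ∘ₗ v) using 1
      ext y
      simp only [LinearMap.sub_apply, kr_apply, h3, rk_apply, LinearMap.comp_apply,
        LinearMap.neg_apply, LinearMap.add_apply, LinearMap.smul_apply, smul_eq_mul,
        LinearEquiv.coe_one, id_eq]
      module
  obtain ⟨n, hn, a1, a2⟩ := hE z₁ hz₁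
  obtain ⟨k, hk, b1, b2⟩ := hE z₂ hz₂
  have hNN : ∀ u ∈ N, ∀ v ∈ N, B u v = 0 := fun a ha b hb => by
    obtain ⟨x, rfl⟩ := hN' a ha
    obtain ⟨x', rfl⟩ := hN' b hb
    simp [hC.T.hB, h1]
  obtain ⟨Y, hY, hY'⟩ := comm_abs hC.T.s hC.hM hNN hn
    (M.mul_mem (M.mul_mem hy hk) (M.inv_mem hy)) a1
    (fun l hl => by simp [inv_fix (hyN l hl), b1 l hl, hyN l hl])
    (β := LinearMap.smulRightₗ.flip z₁ ∘ₗ LinearMap.llcomp F U W F (f w₀))
    (β' := (y : (U →ₗ[F] W) →ₗ[F] (U →ₗ[F] W)) ∘ₗ LinearMap.smulRightₗ.flip z₂ ∘ₗ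
      LinearMap.llcomp F U W F (f w₀)) a2 (fun v => by
      have := b2 (y⁻¹ v)
      rw [← hyN _ this, hy'] at this
      simp only [map_sub, apply_inv_apply] at this
      exact this)
    (fun v hv => by
      change rk (f w₀ ∘ₗ v) z₁ = 0
      rw [hp v hv]; ext; simp)
    (fun v hv => by
      change y (rk (f w₀ ∘ₗ v) z₂) = 0
      rw [hp v hv, EmbeddingLike.map_eq_zero_iff]; ext; simp)
  have hρ : ∀ c, ∀ l ∈ N, rho hC.T x c l ∈ N := fun c l hl => by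
    obtain ⟨x', rfl⟩ := hN' l hl
    rw [rho_apply, rk_apply, map_smul]
    exact N.add_mem (hN _) (N.smul_mem _ (N.smul_mem _ (hN _)))
  obtain ⟨c1, -, m, hm, c3⟩ := (EL M N).sub_mem ((EL M N).sub_mem ((EL M N).add_mem
    (EL_conj_stab hY (hC.rho_mem x 1) (hρ 1)) (EL_conj_stab hY (hC.rho_mem x (-1)) (hρ _))) hY) hY
  have e : ∀ v, (cj (rho hC.T x 1) Y + cj (rho hC.T x (-1)) Y - Y - Y) v =
      (-2 : F) • rk (B₁ x) (Y (rk (B₁ x) (v x)) x) := fun v => by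
    simp only [LinearMap.sub_apply, LinearMap.add_apply, cj_apply, rho_apply, rho_inv_apply,
      map_sub, map_smul, LinearMap.smul_apply]
    module
  obtain ⟨c, hc⟩ := hC.hX x hx (cj (rho hC.T x 1) Y + cj (rho hC.T x (-1)) Y - Y - Y)
    ⟨fun v => by rw [e]; exact Submodule.smul_mem _ _ (rk_mem_TL _ _),
      fun v hv => by simp [e, hC.T.L_apply hv], m, hm, c3⟩
  obtain ⟨φ, hφ⟩ := exists_dual_one' (F := F) hx
  obtain ⟨x₁, hx₁⟩ := hs.exists_one hx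
  have hc0 : c = 0 := by
    obtain ⟨w, -, hw⟩ := exists_not_mem_one (K := (⊤ : Submodule F W))
      (by have := hC.hW; simp; omega) w₀
    obtain ⟨x', h3⟩ := hN' _ (c1 (rk φ w))
    rw [hc] at h3
    have h4 := LinearMap.congr_fun h3 x₁
    simp only [rk_apply, hφ, one_smul, LinearMap.smul_apply, hx₁] at h4
    by_contra h5
    exact hw (c⁻¹ * B₁ x' x₁) (by rw [mul_smul, ← h4, smul_smul, inv_mul_cancel₀ h5, one_smul])
  obtain ⟨w₁, hw₁⟩ := exists_apply_eq_one (hf.ne_zero h0)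
  have h3 := hc (rk φ w₁)
  rw [e, hc0] at h3
  have h4 : Y (rk (B₁ x) w₁) x = 0 := by
    simpa [hφ, hx₁, hf.two] using LinearMap.congr_fun h3 x₁
  have h5 := hY' (rk (B₁ x) w₁)
  have h6 : f w₀ ∘ₗ rk (B₁ x) w₁ = B₁ x := by ext; simp [hw₁]
  rw [hC.T.hB', h4] at h5
  change _ = 2 * B (rk (f w₀ ∘ₗ rk (B₁ x) w₁) z₁) (y (rk (f w₀ ∘ₗ rk (B₁ x) w₁) z₂)) at h5
  rw [h6] at h5
  simpa [hf.two] using h5

theorem Pr.small [Finite F] (hC : Ctx B₁ f B M) (hP : Pr B₁ M u g) (ha : finrank F U ≤ 2)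
    (hd : 3 ≤ finrank F ↥(TL W (B₁ u) ⊓ Lg W B₁ u g)) : False := by
  have hs := hC.T.s1
  have hf := hC.T.s2
  have h2 := hf.two
  have hu := hP.hu
  have hperp : ∀ y, B₁ u y = 0 → ∃ c : F, c • u = y := by
    have e1 := hs.finrank_perp (Submodule.span F {u})
    rw [finrank_span_singleton hu] at e1
    have e2 : Submodule.span F {u} = perp B₁ (Submodule.span F {u}) :=
      Submodule.eq_of_le_of_finrank_le (by
        intro x hx k hk
        obtain ⟨c, rfl⟩ := Submodule.mem_span_singleton.1 hx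
        obtain ⟨d, rfl⟩ := Submodule.mem_span_singleton.1 hk
        simp [hs.alt]) (by rw [finrank_span_singleton hu]; omega)
    intro y hy
    rw [← Submodule.mem_span_singleton, e2]
    intro k hk
    obtain ⟨d, rfl⟩ := Submodule.mem_span_singleton.1 hk
    simp [hy]
  have hL : ∀ v : U →ₗ[F] W, v u = 0 → v ∈ TL W (B₁ u) := fun v hv =>
    mem_TL_of (hs.left_ne hu) fun y hy => by
      obtain ⟨c, rfl⟩ := hperp y hy
      simp [hv]
  set A₂ := (Lg W B₁ u g).comap (rk (B₁ u)) with hA₂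
  have mA : ∀ w, w ∈ A₂ ↔ rk (B₁ u) w ∈ Lg W B₁ u g := fun _ => Iff.rfl
  have hdim : 3 ≤ finrank F A₂ := by
    refine hd.trans (le_trans (Submodule.finrank_mono ?_) (Submodule.finrank_map_le (rk (B₁ u)) A₂))
    rintro _ ⟨⟨w, rfl⟩, h⟩
    exact ⟨w, h, rfl⟩
  have k0 : ∀ w ∈ A₂, ∀ v ∈ Lg W B₁ u g, f w (v u) = 0 := fun w hw v hv => by
    rw [← hC.T.hB, hC.Lg_iso hP.hg hw hv]
  have hnd : ∀ w ∈ A₂, (∀ w' ∈ A₂, f w' w = 0) → w = 0 := fun w hw h => hf.nd w fun w' => by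
    obtain ⟨v, h3, h4⟩ := hP.S1 hC (rk_mem_TL (B₁ u) w')
    have := h (w' - v u) (by rw [mA, map_sub]; exact h4)
    simpa [hf.symm (v u) w, k0 w hw v h3] using this
  have k1 : ∀ w ∈ A₂, f w w ≠ 0 → ∀ φ, cj g (sg W B₁ u) (rk φ w) ∈ TL W (B₁ u) := by
    intro w hw hww φ
    obtain ⟨r, hr, h3, -⟩ := hf.exists_refl hww
    have hz := hC.kr_mem hr (Sp B₁).one_mem
    have e1 : ∀ v : U →ₗ[F] W, f w (v u) = 0 → ∃ c : F, kr r 1 v = v + c • rk (B₁ u) w := by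
      intro v hv
      obtain ⟨c, hc⟩ := dual_eq_smul_of_ker (φ := B₁ u) (ψ := f w ∘ₗ v) fun y hy => by
        obtain ⟨d, rfl⟩ := hperp y hy
        simp [hv]
      refine ⟨-(2 * c / f w w), LinearMap.ext fun y => ?_⟩
      have : f w (v y) = c * B₁ u y := LinearMap.congr_fun hc y
      simp only [kr_apply, LinearEquiv.coe_one, id_eq, h3, this, LinearMap.add_apply,
        LinearMap.smul_apply, rk_apply]
      match_scalars <;> ring
    obtain ⟨ν, hν0, hν⟩ := hC.conj_sigma hu (M.mul_mem (M.mul_mem (M.inv_mem hP.hg) hz) hP.hg)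
      (fun l hl => by
        have h4 : g l ∈ Lg W B₁ u g := ⟨l, hl, rfl⟩
        obtain ⟨c, hc⟩ := e1 _ (k0 w hw _ h4)
        rw [LinearEquiv.mul_apply, LinearEquiv.mul_apply, hc]
        exact mem_Lg.1 (Submodule.add_mem _ h4 (Submodule.smul_mem _ _ hw)))
    have e2 : ∀ v, kr r 1 (cj g (sg W B₁ u) v) = ν • cj g (sg W B₁ u) (kr r 1 v) := fun v => by
      have := congrArg g (hν (g⁻¹ v))
      simpa using this
    have e3 : ν = 1 := by
      by_contra hν1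
      obtain ⟨ψ, hψ⟩ := exists_dual_one' (F := F) hu
      have : Lg W B₁ u g ≤ Submodule.span F {rk (B₁ u) w, cj g (sg W B₁ u) (rk ψ w)} := by
        rintro _ ⟨_, ⟨w', rfl⟩, rfl⟩
        let v := g (rk ψ w')
        have e4 : g (rk (B₁ u) w') = cj g (sg W B₁ u) v := by simp [v, hψ]
        have e5 := e2 (v - (f w (v u) / f w w) • rk ψ w)
        obtain ⟨c, hc⟩ := e1 (v - (f w (v u) / f w w) • rk ψ w) (by simp [hψ, hww])
        obtain ⟨d, hd⟩ := e1 _ (k0 w hw _ (sg'_mem (v - (f w (v u) / f w w) • rk ψ w)))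
        rw [hc, hd, map_add, map_smul, hC.T.sg'_eq_zero hw, map_sub, map_smul] at e5
        refine Submodule.mem_span_pair.2 ⟨d / (ν - 1), f w (v u) / f w w, ?_⟩
        have := sub_ne_zero.2 hν1
        rw [LinearEquiv.coe_coe, e4]
        linear_combination (norm := skip) (ν - 1)⁻¹ • e5
        match_scalars <;> field_simp <;> ring
      have e6 := Submodule.finrank_mono this
      have := finrank_span_pair_le (F := F) (rk (B₁ u) w) (cj g (sg W B₁ u) (rk ψ w))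
      rw [LinearEquiv.finrank_map_eq, finrank_TL (hs.left_ne hu)] at e6
      have := hC.hW
      omega
    have e4 : kr r 1 (rk φ w) = -rk φ w := by
      ext y
      simp only [kr_apply, LinearEquiv.coe_one, id_eq, h3, rk_apply, map_smul, LinearMap.neg_apply]
      match_scalars
      field_simp
      ring
    have e5 := e2 (rk φ w)
    obtain ⟨d, hd⟩ := e1 _ (k0 w hw _ (sg'_mem (rk φ w)))
    rw [e4, hd, e3, map_neg] at e5
    have : cj g (sg W B₁ u) (rk φ w) = (-d / 2) • rk (B₁ u) w := by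
      linear_combination (norm := skip) (2 : F)⁻¹ • e5
      match_scalars <;> field_simp <;> ring
    rw [this]
    exact Submodule.smul_mem _ _ (rk_mem_TL _ _)
  obtain ⟨w₀, hw₀, h0, h1⟩ := hf.exists_sing hdim
  have k2 : ∀ w ∈ A₂, ∀ φ, cj g (sg W B₁ u) (rk φ w) ∈ TL W (B₁ u) := by
    intro w hw φ
    obtain ⟨w₁, h3, h4⟩ : ∃ w ∈ A₂, f w w ≠ 0 := by
      by_contra! h
      exact h0 (hnd w₀ hw₀ fun w' hw' => hf.eq_zero_of_sing h hw' hw₀)
    exact hf.span_nonsing hf.exists_c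
      (Z := (TL W (B₁ u)).comap (cj g (sg W B₁ u) ∘ₗ rk φ)) h3 h4 (fun x h5 h6 => k1 x h5 h6 φ) hw
  set ρ := rho hC.T u 1
  have hρ' := M.mul_mem (M.mul_mem hP.hg (hC.rho_mem u 1)) (M.inv_mem hP.hg)
  have hy : ρ * (g * ρ * g⁻¹) * ρ⁻¹ * (g * ρ * g⁻¹)⁻¹ ∈ M :=
    M.mul_mem (M.mul_mem (M.mul_mem (hC.rho_mem u 1) hρ') (M.inv_mem (hC.rho_mem u 1)))
      (M.inv_mem hρ')
  have hy' : ¬ Kron (ρ * (g * ρ * g⁻¹) * ρ⁻¹ * (g * ρ * g⁻¹)⁻¹) := fun h => by
    have := kron_inv (kron_mul (kron_inv (rho_kron hC.T u 1)) h)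
    refine hP.nk (hC.F3 hP.hab hu hP.hg (hC.F3 hP.hab hu hρ' ?_))
    convert this using 1
    simp [ρ, mul_assoc]
  generalize hyd : ρ * (g * ρ * g⁻¹) * ρ⁻¹ * (g * ρ * g⁻¹)⁻¹ = y at hy hy'
  have k3 : ∀ w ∈ A₂, ∀ φ, y (rk φ w) = rk φ w := by
    intro w hw φ
    have e1 : ∀ v, (g * ρ * g⁻¹) v = v + cj g (sg W B₁ u) v := fun v => by simp [ρ, rho_apply]
    have e2 : ∀ v, (g * ρ * g⁻¹)⁻¹ v = v - cj g (sg W B₁ u) v := fun v => by
      simp [ρ, rho_inv_apply]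
    have e3 : cj g (sg W B₁ u) (rk (B₁ u) w) = 0 := hC.T.sg'_eq_zero hw
    rw [← hyd, LinearEquiv.mul_apply, LinearEquiv.mul_apply, LinearEquiv.mul_apply, e2,
      rho_inv_apply, e1, rho_apply]
    simp only [LinearMap.sub_apply, hC.T.L_apply (k2 w hw φ), map_sub, map_smul, rk_apply, e3,
      hC.T.sg'_eq_zero (sg'_mem _), LinearMap.add_apply, LinearMap.smul_apply, hs.alt, one_smul,
      sub_zero, smul_zero, zero_smul, add_zero]
    abel
  have k4 : ∀ z, f w₀ z = 0 → z ∈ A₂ := by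
    intro z hz
    obtain ⟨c, hc⟩ : ∃ c : F, c • w₀ = y (rk (B₁ u) z) u := Submodule.mem_span_singleton.1
      (hf.mem_of_perp fun s hs' => by
        rw [← hC.T.hB]
        exact hC.siegel_comm h0 h1 hy (k3 w₀ hw₀) u
          (by rw [hf.symm]; exact hs' _ (Submodule.mem_span_singleton_self _)) hz)
    have e1 : y (rk (B₁ u) z) u = 0 := hnd _ (hc ▸ A₂.smul_mem c hw₀) fun w hw => by
      rw [← hC.T.hB, ← k3 w hw, hC.hM hy, hC.T.hB]
      simp [hs.alt]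
    have e2 : TL W (B₁ u) ⊓ Lg W B₁ u g = Lg W B₁ u y ⊓ LinearMap.ker (LinearMap.applyₗ u) :=
      Submodule.eq_of_le_of_finrank_le (by
        rintro _ ⟨⟨w, rfl⟩, h⟩
        exact ⟨⟨_, rk_mem_TL _ w, k3 w h _⟩, by simp [hs.alt]⟩)
        (hP.E hC hy hy' hu inf_le_left fun v hv => hv.2)
    have e3 : y (rk (B₁ u) z) ∈ TL W (B₁ u) ⊓ Lg W B₁ u g := by
      rw [e2]; exact ⟨⟨_, rk_mem_TL _ _, rfl⟩, e1⟩
    obtain ⟨⟨w, hw⟩, e4⟩ := e3
    have e5 : w ∈ A₂ := by rw [mA, hw]; exact e4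
    rw [← k3 w e5] at hw
    rwa [← rk_injective (hs.left_ne hu) (y.injective hw)]
  obtain ⟨w₁, h3, h4⟩ : ∃ w ∈ A₂, f w w₀ ≠ 0 := by
    by_contra! h
    exact h0 (hnd w₀ hw₀ h)
  rw [hf.symm] at h4
  refine hP.nk (hC.kron_of_line hu (hs.left_ne hu) hP.hg fun w => mem_Lg.1 ((mA w).1 ?_))
  exact (A₂.sub_mem_iff_left (A₂.smul_mem (f w₀ w / f w₀ w₁) h3)).1 (k4 _ (by simp [h4]))

theorem tensor_core [Finite F] (hT : TS B₁ f B) (hU : 1 ≤ finrank F U) (hW : 3 ≤ finrank F W)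
    (hq : 4 ≤ finrank F W ∨ 4 ≤ Nat.card F) (hab : ¬ (finrank F U = 2 ∧ finrank F W = 4))
    (hM : M ≤ Sp B) (hH : ∀ g ∈ Sp B, Kron g → g ∈ M) (h : ∃ g ∈ M, ¬ Kron g) : Sp B ≤ M := by
  by_contra hne
  have hC : Ctx B₁ f B M := ⟨hT, hM, hH, hW, fun u hu y hy => hT.F1 hM hH hW hq hne hu hy⟩
  obtain ⟨u, -, hu⟩ := exists_ne_zero_of_finrank (K := (⊤ : Submodule F U)) (by simpa)
  obtain ⟨g, hP⟩ := exists_pr (B₁ := B₁) hab hu h
  have h1 := hP.big hC
  have h2 := hP.le_add hC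
  by_cases h3 : 4 ≤ Nat.card F
  · rw [hP.inf_eq_bot hC h3, finrank_bot] at h2
    omega
  · obtain ⟨x, hx⟩ := hT.s1.exists_one hu
    have k4 : 2 ≤ finrank F U := by
      by_contra! h'
      obtain ⟨v, hv⟩ := finrank_le_one_iff.1 (Nat.le_of_lt_succ h')
      obtain ⟨c₁, rfl⟩ := hv u
      obtain ⟨c₂, rfl⟩ := hv x
      simp [hT.s1.alt] at hx
    exact hP.small hC h1 (by omega)

theorem TS.proper (hT : TS B₁ f B) (hU : 1 ≤ finrank F U) (hW : 2 ≤ finrank F W) :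
    ∃ g ∈ Sp B, ¬ Kron g := by
  obtain ⟨u, -, hu⟩ := exists_ne_zero_of_finrank (K := (⊤ : Submodule F U)) (by simpa)
  obtain ⟨x, hx⟩ := hT.s1.exists_one hu
  obtain ⟨w, -, hw⟩ := exists_ne_zero_of_finrank (K := (⊤ : Submodule F W)) (by simp; omega)
  obtain ⟨w', -, hw'⟩ := exists_not_mem_one (K := (⊤ : Submodule F W)) (by simpa) w
  obtain ⟨φ, h1, h2⟩ := exists_dual_pair hw'
  obtain ⟨z, -, h3, h4⟩ := exists_ne_ne (S := ⊤) φ (f w) ⟨w', trivial, by simp [h2]⟩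
    (by obtain ⟨s, hs⟩ := hT.s2.exists_ne hw; exact ⟨s, trivial, hs⟩)
  refine ⟨tvE hT.s (rk (B₁ u) z) 1, tvE_mem _ _ _, not_kron_of (φ := B₁ x) (u := w)
    (φ₁ := B₁ x) (φ₂ := B₁ u) (u₁ := w) (u₂ := f w z • z) (fun c hc => ?_)
    (fun h0 => by simp [h0, hT.s1.skew u x] at hx) (fun c hc => ?_) hw ?_⟩
  · simpa [hx, hT.s1.alt] using LinearMap.congr_fun hc x
  · simpa [h1, h3, h4] using congrArg φ hc
  · simp [hT.hB, hx]

section Bridge

open Matrix Kronecker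

/-- vectors indexed by pairs as linear maps, transposed version -/
noncomputable def pairT (F : Type*) [Field F] (a b : ℕ) :
    (Fin a × Fin b → F) ≃ₗ[F] ((Fin a → F) →ₗ[F] (Fin b → F)) :=
  (LinearEquiv.curry F F (Fin a) (Fin b)).trans ((Matrix.ofLinearEquiv F).trans
    ((Matrix.transposeLinearEquiv _ _ F F).trans Matrix.toLin'))

theorem pairT_apply {a b : ℕ} (v : Fin a × Fin b → F) (y : Fin a → F) (j : Fin b) :
    pairT F a b v y j = ∑ i, v (i, j) * y i := rfl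

theorem kron_mulVecT {a b : ℕ} (A : Matrix (Fin a) (Fin a) F) (C : Matrix (Fin b) (Fin b) F)
    (v : Fin a × Fin b → F) (y : Fin a → F) :
    pairT F a b ((A ⊗ₖ C) *ᵥ v) y = C *ᵥ (pairT F a b v (Aᵀ *ᵥ y)) := by
  ext j
  simp only [pairT_apply, Matrix.mulVec, dotProduct, Fintype.sum_prod_type, kroneckerMap_apply,
    Matrix.transpose_apply, Finset.mul_sum, Finset.sum_mul]
  rw [Finset.sum_comm]
  conv_rhs => rw [Finset.sum_comm]
  refine Finset.sum_congr rfl fun i' _ => ?_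
  rw [Finset.sum_comm]
  exact Finset.sum_congr rfl fun j' _ => Finset.sum_congr rfl fun i _ => by ring

theorem mem_kronecker_iffT {a b : ℕ} (k : GL (Fin a × Fin b) F) :
    k ∈ Geo.kroneckerSubgroup a b F ↔ Kron (glEquiv (pairT F a b) k) := by
  constructor
  · rintro ⟨A, C, h⟩
    refine ⟨gl0 C, gl0 ⟨(A : Matrix _ _ F)ᵀ, ((A⁻¹ : GL _ F) : Matrix _ _ F)ᵀ,
      by rw [← transpose_mul]; simp, by rw [← transpose_mul]; simp⟩, fun X w => ?_⟩
    rw [glEquiv_apply, h, kron_mulVecT, LinearEquiv.apply_symm_apply]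
    rfl
  · rintro ⟨C, A, h⟩
    obtain ⟨A, rfl⟩ := gl0.surjective A
    obtain ⟨C, rfl⟩ := gl0.surjective C
    refine ⟨⟨(A : Matrix _ _ F)ᵀ, ((A⁻¹ : GL _ F) : Matrix _ _ F)ᵀ,
      by rw [← transpose_mul]; simp, by rw [← transpose_mul]; simp⟩, C, ?_⟩
    apply Matrix.toLin'.injective
    apply LinearMap.ext
    intro v
    apply (pairT F a b).injective
    apply LinearMap.ext
    intro w
    have := h (pairT F a b v) w
    rw [glEquiv_apply, LinearEquiv.symm_apply_apply] at this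
    rw [Matrix.toLin'_apply, Matrix.toLin'_apply, this, kron_mulVecT]
    rfl

/-- a bilinear function as a bilinear map -/
def bil {κ : Type} [Fintype κ] [DecidableEq κ] {f : (κ → F) → (κ → F) → F}
    (h : Geo.IsBilinearForm f) : (κ → F) →ₗ[F] (κ → F) →ₗ[F] F :=
  LinearMap.mk₂ F f h.add_left h.smul_left h.add_right h.smul_right

theorem bil_eq {κ : Type} [Fintype κ] [DecidableEq κ] {f : (κ → F) → (κ → F) → F}
    (h : Geo.IsBilinearForm f) (x y : κ → F) :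
    bil h x y = ∑ i, ∑ j, x i * Geo.gramMatrix f i j * y j := by
  conv_lhs => rw [pi_eq_sum_univ' x, pi_eq_sum_univ' y]
  simp only [map_sum, map_smul, LinearMap.sum_apply, LinearMap.smul_apply, smul_eq_mul,
    Finset.mul_sum]
  rw [Finset.sum_comm]
  refine Finset.sum_congr rfl fun i _ => Finset.sum_congr rfl fun j _ => ?_
  have : bil h (Pi.single i 1) (Pi.single j 1) = Geo.gramMatrix f i j := rfl
  rw [this]; ring

theorem exists_model {m a b : ℕ} (h2 : (2 : F) ≠ 0) (e : (Fin m ⊕ Fin m) ≃ Fin a × Fin b)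
    (P : GL (Fin m ⊕ Fin m) F) (f₁ : (Fin a → F) → (Fin a → F) → F)
    (f₂ : (Fin b → F) → (Fin b → F) → F) (hf₁ : Geo.IsSymplecticForm f₁)
    (hf₂ : Geo.IsSymmetricForm f₂)
    (hT : Geo.IsTensorFormStructure id (sympForm m F) f₁ f₂ e P) :
    ∃ (B₁ : (Fin a → F) →ₗ[F] (Fin a → F) →ₗ[F] F) (f : (Fin b → F) →ₗ[F] (Fin b → F) →ₗ[F] F)
      (B : ((Fin a → F) →ₗ[F] (Fin b → F)) →ₗ[F] ((Fin a → F) →ₗ[F] (Fin b → F)) →ₗ[F] F)
      (E : (Fin m ⊕ Fin m → F) ≃ₗ[F] ((Fin a → F) →ₗ[F] (Fin b → F))), TS B₁ f B ∧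
      (∀ g, g ∈ spGL m F ↔ glEquiv E g ∈ Sp B) ∧
      ∀ g, g ∈ Geo.tensorProductSubgroup a b e P ↔ Kron (glEquiv E g) := by
  obtain ⟨c, hc, hT⟩ := hT
  have hs : Symp (bil hf₁.bilinear) := ⟨hf₁.alternating, fun z hz => by
    by_contra h
    obtain ⟨x, hx⟩ := (hf₁.nondegenerate z h).1
    exact hx (hz x)⟩
  let G : (Fin a → F) ≃ₗ[F] (Fin a → F) := LinearEquiv.ofInjectiveEndo
    (LinearMap.pi fun i => bil hf₁.bilinear (Pi.single i 1)) (by
      rw [injective_iff_map_eq_zero]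
      intro z hz
      refine hs.nd z fun x => ?_
      rw [pi_eq_sum_univ' x]
      simp only [map_sum, map_smul, LinearMap.sum_apply, LinearMap.smul_apply]
      exact Finset.sum_eq_zero fun i _ => by rw [show bil hf₁.bilinear _ z = 0 from congrFun hz i]; simp)
  have hG : ∀ y i, G y i = ∑ j, Geo.gramMatrix f₁ i j * y j := fun y i => by
    change bil hf₁.bilinear (Pi.single i 1) y = _
    simp [bil_eq, Pi.single_apply]
  let E₀ := (pairT F a b).trans (kr (1 : (Fin b → F) ≃ₗ[F] (Fin b → F)) G)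
  let E := (frameEq e P).trans E₀
  have hE : ∀ z, E.symm (E₀ z) = (P : Matrix _ _ F) *ᵥ (z ∘ e) := fun z => by
    simp only [E, LinearEquiv.symm_trans_apply, LinearEquiv.symm_apply_apply]
    rfl
  have hE₀ : ∀ z y j, E₀ z y j = ∑ i, z (i, j) * G y i := fun _ _ _ => rfl
  refine ⟨bil hf₁.bilinear, (-c) • bil hf₂.bilinear,
    (B0 m F).compl₁₂ (E.symm : _ →ₗ[F] _) (E.symm : _ →ₗ[F] _), E,
    ⟨hs, ⟨fun x y => ?_, fun z hz => ?_, h2⟩, ⟨fun v => (symp_B0 m F).alt _, fun z hz => ?_⟩,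
      fun x w v => ?_⟩, fun g => ?_, fun g => ?_⟩
  · change -c * f₂ x y = -c * f₂ y x
    rw [hf₂.symm]
  · by_contra h
    obtain ⟨x, hx⟩ := (hf₂.nondegenerate z h).1
    have : -c * f₂ x z = 0 := hz x
    simp [hc, hx] at this
  · have := (symp_B0 m F).nd (E.symm z) fun x => by simpa using hz (E x)
    simpa using this
  · obtain ⟨z, rfl⟩ := E₀.surjective v
    have h1 : rk (bil hf₁.bilinear x) w = E₀ fun p => x p.1 * w p.2 := by
      refine LinearMap.ext fun y => funext fun j => ?_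
      simp only [rk_apply, hE₀, hG, bil_eq, Pi.smul_apply, smul_eq_mul, Finset.sum_mul,
        Finset.mul_sum]
      exact Finset.sum_congr rfl fun i _ => Finset.sum_congr rfl fun i' _ => by ring
    have h3 : ∀ i i', Geo.gramMatrix f₁ i i' = -Geo.gramMatrix f₁ i' i := fun i i' => hf₁.skew _ _
    rw [h1, LinearMap.compl₁₂_apply, LinearEquiv.coe_coe, hE, hE, B0_apply, hT]
    simp only [Geo.formOfGram, LinearMap.smul_apply, bil_eq, hE₀, hG, Fintype.sum_prod_type,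
      kroneckerMap_apply, id, smul_eq_mul, Finset.mul_sum]
    rw [Finset.sum_comm]
    refine Finset.sum_congr rfl fun j _ => ?_
    conv_rhs => rw [Finset.sum_comm]
    rw [Finset.sum_comm]
    refine Finset.sum_congr rfl fun i' _ => ?_
    rw [Finset.sum_comm]
    refine Finset.sum_congr rfl fun j' _ => Finset.sum_congr rfl fun i _ => ?_
    rw [h3 i' i]; ring
  · rw [mem_spGL]
    constructor
    · intro h u v
      simpa [glEquiv_apply, gl0_apply] using h (E.symm u) (E.symm v)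
    · intro h u v
      simpa [glEquiv_apply, gl0_apply] using h (E u) (E v)
  · refine mem_frame_iff e P E₀ _ Kron (fun k => ?_) g
    have : glEquiv E₀ k = kr 1 G * glEquiv (pairT F a b) k * (kr 1 G)⁻¹ := rfl
    rw [mem_kronecker_iffT, this]
    refine ⟨fun h => kron_mul (kron_mul (kr_kron _ _) h) (kron_inv (kr_kron _ _)), fun h => ?_⟩
    simpa [mul_assoc] using kron_mul (kron_mul (kron_inv (kr_kron 1 G)) h) (kr_kron 1 G)

theorem tensor_maximal [Fintype F] {m a b : ℕ} (hm : 1 ≤ m) (hodd : Odd (Fintype.card F))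
    (hb : 3 ≤ b) (hq : ¬ (Fintype.card F = 3 ∧ b = 3)) (hab : ¬ (a = 2 ∧ b = 4))
    (e : (Fin m ⊕ Fin m) ≃ Fin a × Fin b) (P : GL (Fin m ⊕ Fin m) F)
    (f₁ : (Fin a → F) → (Fin a → F) → F) (f₂ : (Fin b → F) → (Fin b → F) → F)
    (hf₁ : Geo.IsSymplecticForm f₁) (hf₂ : Geo.IsSymmetricForm f₂)
    (hT : Geo.IsTensorFormStructure id (sympForm m F) f₁ f₂ e P) :
    Geo.IsMaximalIn (spGL m F) (Geo.tensorProductSubgroup a b e P ⊓ spGL m F) := by
  obtain ⟨B₁, f, B, E, h1, h2, h3⟩ := exists_model (two_ne_zero_of_odd hodd) e P f₁ f₂ hf₁ hf₂ hT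
  have ha : 1 ≤ a := by
    have := Fintype.card_congr e
    simp only [Fintype.card_sum, Fintype.card_fin, Fintype.card_prod] at this
    rcases Nat.eq_zero_or_pos a with rfl | h
    · omega
    · exact h
  refine isMaximalIn_transport (glEquiv E) _ _ (Sp B) Kron h2 (fun g _ => h3 g)
    (h1.proper (by simpa) (by simp; omega)) fun M hM hH h =>
      tensor_core h1 (by simpa) (by simpa) ?_ (by simpa using hab) hM hH h
  rw [Nat.card_eq_fintype_card]
  have := Fintype.one_lt_card (α := F)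
  rw [Nat.odd_iff] at hodd
  simp only [finrank_fin_fun]
  omega

end Bridge

end Cfsg.Agent.H9.Sp
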