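import Cfsg.Agent.H9.Sp.Root

/-! The normaliser of an anti-self-adjoint map `J` with `J ^ 2 = δ` (groups `GL_m.2` and
`GU_m.2`) is maximal in the symplectic group in odd characteristic. -/

set_option autoImplicit false
set_option linter.unusedSimpArgs false
set_option linter.unusedSectionVars false
set_option linter.unusedVariables false

namespace Cfsg.Agent.H9.Sp

open Module Cfsg.Agent.H6

section Core

variable {F : Type*} [Field F] {V : Type*} [AddCommGroup V] [Module F V] [FiniteDimensional F V]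
variable {B : V →ₗ[F] V →ₗ[F] F} {M : Subgroup (V ≃ₗ[F] V)}

/-- the structure map -/
structure JS (B : V →ₗ[F] V →ₗ[F] F) (J : V →ₗ[F] V) (δ : F) : Prop where
  symp : Symp B
  sq : ∀ x, J (J x) = δ • x
  ne : δ ≠ 0
  adj : ∀ x y, B (J x) y = -B x (J y)
  two : (2 : F) ≠ 0

/-- commuting with `J` -/
def C0 (J : V →ₗ[F] V) (g : V ≃ₗ[F] V) : Prop := ∀ x, g (J x) = J (g x)

/-- commuting or anticommuting with `J` -/
def PJ (J : V →ₗ[F] V) (g : V ≃ₗ[F] V) : Prop := C0 J g ∨ ∀ x, g (J x) = -J (g x)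

variable {J : V →ₗ[F] V} {δ : F}

theorem JS.symm (hJ : JS B J δ) (x y : V) : B x (J y) = B y (J x) := by
  rw [hJ.symp.skew y, hJ.adj, neg_neg]

theorem JS.JJ (hJ : JS B J δ) (x y : V) : B (J x) (J y) = -(δ * B x y) := by
  rw [hJ.adj, hJ.sq]; simp

theorem JS.nd (hJ : JS B J δ) {z : V} (h : z ≠ 0) : ∃ y, B z (J y) ≠ 0 := by
  obtain ⟨y, hy⟩ := hJ.symp.exists_ne h
  exact ⟨J y, by simp [hJ.sq, hJ.ne, hy]⟩

theorem JS.J_ne (hJ : JS B J δ) {z : V} (h : z ≠ 0) : J z ≠ 0 := by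
  intro h0
  have := hJ.sq z
  rw [h0, map_zero] at this
  exact smul_ne_zero hJ.ne h this.symm

theorem JS.qrefl (hJ : JS B J δ) (u : V) (a b : F) (h : 2 * a = B u (J u))
    (hn : a ^ 2 - δ * b ^ 2 ≠ 0) : ∃ g ∈ Sp B, C0 J g ∧ ∀ z, g z =
      z - ((B z (J u) * a - δ * B z u * b) / (a ^ 2 - δ * b ^ 2)) • u -
        ((B z (J u) * b - B z u * a) / (a ^ 2 - δ * b ^ 2)) • J u := by
  have hB := hJ.symp
  obtain ⟨g, hg, hx⟩ := exists_Sp hB (LinearMap.id -
    ((a ^ 2 - δ * b ^ 2)⁻¹ • (a • B.flip (J u) - (δ * b) • B.flip u)).smulRight u -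
    ((a ^ 2 - δ * b ^ 2)⁻¹ • (b • B.flip (J u) - a • B.flip u)).smulRight (J u)) (by
      intro x y
      simp only [LinearMap.sub_apply, LinearMap.id_apply, LinearMap.smulRight_apply,
        LinearMap.smul_apply, LinearMap.flip_apply, smul_eq_mul, map_sub, map_smul, hB.alt,
        hB.skew u y, hJ.adj, hJ.sq, hJ.symm u y, ← h]
      field_simp
      ring)
  have hx' : ∀ z, g z = z - ((B z (J u) * a - δ * B z u * b) / (a ^ 2 - δ * b ^ 2)) • u -
        ((B z (J u) * b - B z u * a) / (a ^ 2 - δ * b ^ 2)) • J u := fun z => by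
    rw [hx]
    simp only [LinearMap.sub_apply, LinearMap.id_apply, LinearMap.smulRight_apply,
        LinearMap.smul_apply, LinearMap.flip_apply, smul_eq_mul]
    match_scalars <;> field_simp
  refine ⟨g, hg, fun z => ?_, hx'⟩
  simp only [hx', map_sub, map_smul, hJ.sq, hJ.adj, smul_eq_mul]
  match_scalars <;> field_simp <;> ring

/-- an element of the centraliser of `J` moving `x` to `y` and fixing `e` -/
def Mv (B : V →ₗ[F] V →ₗ[F] F) (J : V →ₗ[F] V) (e x y : V) : Prop :=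
  ∃ g ∈ Sp B, C0 J g ∧ g x = y ∧ g e = e

theorem Mv.trans {e x y z : V} (h1 : Mv B J e x y) (h2 : Mv B J e y z) : Mv B J e x z := by
  obtain ⟨g, hg, hg1, hg2, hg3⟩ := h1
  obtain ⟨k, hk, hk1, hk2, hk3⟩ := h2
  exact ⟨k * g, (Sp B).mul_mem hk hg, fun v => by simp [hg1 v, hk1 (g v)], by simp [hg2, hk2],
    by simp [hg3, hk3]⟩

theorem JS.qmove (hJ : JS B J δ) {e x y : V} (hN : B x (J x) = B y (J y))
    (hn : (B x (J x) - B x (J y)) ^ 2 - δ * B x y ^ 2 ≠ 0) (h1 : B e x = B e y)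
    (h2 : B e (J x) = B e (J y)) : Mv B J e x y := by
  have hB := hJ.symp
  have hn' : (B x (J x) - B x (J y)) ^ 2 - δ * (-B x y) ^ 2 ≠ 0 := by simpa using hn
  obtain ⟨g, hg, hg1, hg2⟩ := hJ.qrefl (x - y) (B x (J x) - B x (J y)) (-B x y) (by
    simp [hJ.symm y x, ← hN]; ring) hn'
  refine ⟨g, hg, hg1, ?_, ?_⟩
  · rw [hg2]
    simp only [map_sub, hB.alt]
    match_scalars <;> field_simp <;> ring
  · rw [hg2]; simp [h1, h2]

theorem JS.trans [Finite F] (hJ : JS B J δ) {e x y : V} (hN : B x (J x) = B y (J y)) (h0 : B x (J x) ≠ 0)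
    (h1 : B e x = 0) (h2 : B e (J x) = 0) (h3 : B e y = 0) (h4 : B e (J y) = 0) :
    Mv B J e x y := by
  have hB := hJ.symp
  have good : ∀ x y : V, B x (J x) = B y (J y) → B x (J x) ≠ 0 → B e x = 0 → B e (J x) = 0 →
      B e y = 0 → B e (J y) = 0 → ¬ (B x (J y) = 0 ∧ δ * B x y ^ 2 = B x (J x) ^ 2) →
      Mv B J e x y := by
    intro x y hN h0 h1 h2 h3 h4 h
    by_cases h5 : (B x (J x) - B x (J y)) ^ 2 - δ * B x y ^ 2 = 0
    · refine (hJ.qmove (y := -y) (by simpa using hN) ?_ (by simp [h1, h3]) (by simp [h2, h4])).trans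
        (hJ.qmove (by simp) ?_ (by simp [h3]) (by simp [h4]))
      · intro h6
        simp only [map_neg, sub_neg_eq_add, even_two, Even.neg_pow] at h6
        have h7 : 2 * 2 * B x (J x) * B x (J y) = 0 := by linear_combination h6 - h5
        have h8 : B x (J y) = 0 := by simpa [hJ.two, h0] using h7
        exact h ⟨h8, by rw [h8] at h5; linear_combination -h5⟩
      · have : (2 * B y (J y)) ^ 2 ≠ 0 := pow_ne_zero _ (mul_ne_zero hJ.two (hN ▸ h0))
        simp only [map_neg, LinearMap.neg_apply, hB.alt]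
        convert this using 1; ring
    · exact hJ.qmove hN h5 (by rw [h1, h3]) (by rw [h2, h4])
  by_cases h : B x (J y) = 0 ∧ δ * B x y ^ 2 = B x (J x) ^ 2
  swap
  · exact good x y hN h0 h1 h2 h3 h4 h
  obtain ⟨h5, h6⟩ := h
  obtain ⟨a, b, hab⟩ := exists_sq_add_sq F 2 2 (-1) hJ.two hJ.two
  have h7 : B y (J x) = 0 := by rw [hJ.symm, h5]
  obtain ⟨r, hr⟩ : ∃ r, B x y = r * B x (J x) := ⟨B x y / B x (J x), by field_simp⟩
  have hr' : δ * r ^ 2 = 1 := by
    rw [hr] at h6; field_simp at h6; exact h6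
  have hz : B (a • (x + r • J y) + b • (y - r • J x)) (J (a • (x + r • J y) + b • (y - r • J x))) =
      B x (J x) := by
    simp only [map_add, map_sub, map_smul, LinearMap.add_apply, LinearMap.sub_apply,
      LinearMap.smul_apply, smul_eq_mul, hJ.adj, hJ.sq, hB.alt, h5, h7, hB.skew y x, ← hN, hr]
    linear_combination B x (J x) * hab + (a ^ 2 + b ^ 2) * B x (J x) * hr'
  refine (good x (a • (x + r • J y) + b • (y - r • J x)) hz.symm h0 h1 h2 (by simp [h1, h2, h3, h4])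
    (by simp [h1, h2, h3, h4, hJ.sq]) ?_).trans (good _ y (hz.trans hN) (hz ▸ h0)
    (by simp [h1, h2, h3, h4]) (by simp [h1, h2, h3, h4, hJ.sq]) h3 h4 ?_)
  · rintro ⟨-, h8⟩
    simp [hB.alt, h5, hr] at h8
    exact h0 (by simpa using h8.symm)
  · rintro ⟨-, h8⟩
    rw [hz] at h8
    simp [hB.alt, h5, hr, hJ.adj, ← hN] at h8
    exact h0 (by simpa using h8.symm)

theorem JS.exists_noniso (hJ : JS B J δ) {U : Submodule F V} {u y : V} (hu : u ∈ U) (hy : y ∈ U)
    (h : B u (J y) ≠ 0) : ∃ w ∈ U, B w (J w) ≠ 0 := by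
  by_cases h1 : B u (J u) = 0
  · by_cases h2 : B y (J y) = 0
    · refine ⟨u + y, U.add_mem hu hy, ?_⟩
      simp only [map_add, LinearMap.add_apply, h1, h2, hJ.symm y u]
      convert mul_ne_zero hJ.two h using 1; ring
    · exact ⟨y, hy, h2⟩
  · exact ⟨u, hu, h1⟩

/-- the orthogonal complement of the line spanned by `x` and `J x` -/
def hp (B : V →ₗ[F] V →ₗ[F] F) (J : V →ₗ[F] V) (x : V) : Submodule F V :=
  LinearMap.ker (B x) ⊓ LinearMap.ker (B x ∘ₗ J)

theorem mem_hp {x y : V} : y ∈ hp B J x ↔ B x y = 0 ∧ B x (J y) = 0 := Iff.rfl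

theorem JS.hp_symm (hJ : JS B J δ) {x y : V} (h : y ∈ hp B J x) : x ∈ hp B J y :=
  ⟨hJ.symp.comm.1 h.1, (hJ.symm y x).trans h.2⟩

theorem JS.J_hp (hJ : JS B J δ) {x y : V} (h : y ∈ hp B J x) : J y ∈ hp B J x :=
  mem_hp.2 ⟨h.2, by rw [hJ.sq, map_smul, (mem_hp.1 h).1, smul_zero]⟩

theorem JS.proj (hJ : JS B J δ) {x : V} (hx : B x (J x) ≠ 0) (y : V) :
    ∃ y' ∈ hp B J x, ∀ u ∈ hp B J x, B u y' = B u y ∧ B u (J y') = B u (J y) := by
  have hB := hJ.symp
  refine ⟨y - (B x (J y) / B x (J x)) • x - (B x y / B x (J x)) • J x, mem_hp.2 ⟨?_, ?_⟩,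
    fun u hu => ?_⟩
  · simp [hB.alt, hx]
  · simp [hB.alt, hx, hJ.sq]
  · obtain ⟨h1, h2⟩ := mem_hp.1 (hJ.hp_symm hu)
    simp [h1, h2, hJ.sq]

theorem JS.univ [Finite F] (hJ : JS B J δ) {u : V} (hu : B u (J u) ≠ 0) (μ : F) :
    ∃ a b : F, B (a • u + b • J u) (J (a • u + b • J u)) = μ := by
  obtain ⟨a, b, hab⟩ := exists_sq_add_sq F (B u (J u)) (-(δ * B u (J u))) (-μ) hu
    (by simp [hJ.ne, hu])
  refine ⟨a, b, ?_⟩
  simp only [map_add, map_smul, LinearMap.add_apply, LinearMap.smul_apply, smul_eq_mul, hJ.adj,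
    hJ.sq, hJ.symp.alt]
  linear_combination hab

theorem finrank_hp (x : V) : finrank F V ≤ finrank F (hp B J x) + 2 := finrank_ker₂_ge _ _

theorem JS.exists_noniso0 (hJ : JS B J δ) (hn : 1 ≤ finrank F V) : ∃ u, B u (J u) ≠ 0 := by
  obtain ⟨x, -, hx⟩ := exists_ne_zero_of_finrank (K := (⊤ : Submodule F V)) (by simpa using hn)
  obtain ⟨y, hy⟩ := hJ.nd hx
  obtain ⟨w, -, hw⟩ := hJ.exists_noniso (U := ⊤) trivial trivial hy
  exact ⟨w, hw⟩

theorem JS.exists_norm1 [Finite F] (hJ : JS B J δ) (hn : 3 ≤ finrank F V) {x : V}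
    (hx : B x (J x) ≠ 0) (μ : F) : ∃ w ∈ hp B J x, B w (J w) = μ := by
  obtain ⟨u, hu, hu0⟩ := exists_ne_zero_of_finrank (K := hp B J x)
    (by have := finrank_hp (B := B) (J := J) x; omega)
  obtain ⟨y, hy⟩ := hJ.nd hu0
  obtain ⟨y', hy', h⟩ := hJ.proj hx y
  obtain ⟨w, hw, hw0⟩ := hJ.exists_noniso hu hy' (by rwa [(h u hu).2])
  obtain ⟨a, b, hab⟩ := hJ.univ hw0 μ
  exact ⟨_, Submodule.add_mem _ (Submodule.smul_mem _ a hw)
    (Submodule.smul_mem _ b (hJ.J_hp hw)), hab⟩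

theorem JS.exists_norm2 [Finite F] (hJ : JS B J δ) (hn : 5 ≤ finrank F V) {x z : V}
    (hx : B x (J x) ≠ 0) (hz : B z (J z) ≠ 0) (hxz : z ∈ hp B J x) (μ : F) :
    ∃ w ∈ hp B J x, w ∈ hp B J z ∧ B w (J w) = μ := by
  obtain ⟨u, hu, hu0⟩ := exists_ne_zero_of_finrank (K := hp B J x ⊓ hp B J z) (by
    have := finrank_hp (B := B) (J := J) x
    have h1 := finrank_inf_ker_ge (hp B J x) (B z)
    have h2 := finrank_inf_ker_ge (hp B J x ⊓ LinearMap.ker (B z)) (B z ∘ₗ J)
    rw [inf_assoc] at h2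
    change finrank F ↥(hp B J x ⊓ LinearMap.ker (B z)) ≤ finrank F ↥(hp B J x ⊓ hp B J z) + 1 at h2
    omega)
  obtain ⟨y, hy⟩ := hJ.nd hu0
  obtain ⟨y', hy', h⟩ := hJ.proj hx y
  obtain ⟨y'', hy'', h'⟩ := hJ.proj hz y'
  have hx' := h' x (hJ.hp_symm hxz)
  obtain ⟨w, hw, hw0⟩ := hJ.exists_noniso (U := hp B J x ⊓ hp B J z) (y := y'') hu
    ⟨mem_hp.2 ⟨hx'.1.trans hy'.1, hx'.2.trans hy'.2⟩, hy''⟩ (by rwa [(h' u hu.2).2, (h u hu.1).2])
  obtain ⟨a, b, hab⟩ := hJ.univ hw0 μ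
  exact ⟨_, Submodule.add_mem _ (Submodule.smul_mem _ a hw.1)
    (Submodule.smul_mem _ b (hJ.J_hp hw.1)), Submodule.add_mem _ (Submodule.smul_mem _ a hw.2)
    (Submodule.smul_mem _ b (hJ.J_hp hw.2)), hab⟩

/-- the norm trick -/
theorem JS.norm_trick (hJ : JS B J δ) {w : V} (hw : B w (J w) ≠ 0) {c : F} (hc : c ≠ 0) (μ : F) :
    ∃ a ν : F, ∀ y ∈ hp B J w, B y (J y) = ν →
      B (a • w + J w + y) (J (a • w + J w + y)) = B w (J w) ∧
      B (a • w + J w + y + (c * B (a • w + J w + y) w) • w)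
        (J (a • w + J w + y + (c * B (a • w + J w + y) w) • w)) = μ := by
  have hB := hJ.symp
  obtain ⟨a, ha⟩ : ∃ a, μ = B w (J w) - 2 * c * a * B w (J w) ^ 2 + c ^ 2 * B w (J w) ^ 3 :=
    ⟨(B w (J w) + c ^ 2 * B w (J w) ^ 3 - μ) / (2 * c * B w (J w) ^ 2), by
      have := hJ.two
      field_simp; ring⟩
  refine ⟨a, (1 - a ^ 2 + δ) * B w (J w), fun y hy hν => ?_⟩
  obtain ⟨h1, h2⟩ := mem_hp.1 hy
  obtain ⟨h3, h4⟩ := mem_hp.1 (hJ.hp_symm hy)
  simp only [map_add, map_smul, LinearMap.add_apply, LinearMap.smul_apply, smul_eq_mul, hJ.adj,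
    hJ.sq, hB.alt, h1, h2, h3, h4, hν, ha]
  constructor <;> ring

variable [Finite F]

/-- a transvection with non-isotropic centre generates everything -/
theorem JS.stepA (hJ : JS B J δ) (hn : 3 ≤ finrank F V) (hM : M ≤ Sp B)
    (hH : ∀ g ∈ Sp B, C0 J g → g ∈ M) {w : V} (hw : B w (J w) ≠ 0) {c : F} (hc : c ≠ 0)
    (hT : T B M w c) : Sp B ≤ M := by
  have hB := hJ.symp
  have tr : ∀ x y, B x (J x) = B y (J y) → B x (J x) ≠ 0 → T B M x c → T B M y c := by
    intro x y h1 h2 h3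
    obtain ⟨g, hg, hg1, rfl, -⟩ := hJ.trans (e := 0) h1 h2 (by simp) (by simp) (by simp) (by simp)
    exact h3.conj hM (hH g hg hg1)
  have all : ∀ x, B x (J x) ≠ 0 → T B M x c := by
    intro x hx
    obtain ⟨a, ν, h⟩ := hJ.norm_trick hw hc (B x (J x))
    obtain ⟨y, hy, hyν⟩ := hJ.exists_norm1 hn hw ν
    obtain ⟨h1, h2⟩ := h y hy hyν
    exact tr _ _ h2 (h2 ▸ hx) ((tr _ _ h1.symm hw hT).conjT hM hT)
  have full : ∀ x, B x (J x) ≠ 0 → Full B M x := by
    intro x hx
    refine full_of_smul hB hc fun a => ?_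
    by_cases ha : a = 0
    · rw [ha, zero_smul]; exact T.zero_left c
    · exact all _ (by simp [ha, hx])
  apply Sp_le hB hM
  intro v
  by_cases hv : B v (J v) = 0
  swap
  · exact full v hv
  by_cases hv0 : v = 0
  · rw [hv0]; exact Full.zero
  obtain ⟨x, hx1, hx2⟩ : ∃ x, B x (J x) ≠ 0 ∧ B v x ≠ 0 := by
    obtain ⟨y, hy⟩ := hB.exists_ne hv0
    by_cases h1 : B y (J y) = 0
    swap
    · exact ⟨y, h1, hy⟩
    by_cases h2 : B v w = 0
    swap
    · exact ⟨w, hw, h2⟩
    by_cases h3 : B (y + w) (J (y + w)) = 0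
    · refine ⟨y - w, fun h4 => hw ?_, by simpa [h2] using hy⟩
      simp only [map_add, map_sub, LinearMap.add_apply, LinearMap.sub_apply, h1] at h3 h4
      have : 2 * B w (J w) = 0 := by linear_combination h3 + h4
      simpa [hJ.two] using this
    · exact ⟨y + w, h3, by simpa [h2] using hy⟩
  by_cases h : B (v + x) (J (v + x)) = 0
  · have h4 : B (v - x) (J (v - x)) ≠ 0 := by
      intro h4
      simp only [map_add, map_sub, LinearMap.add_apply, LinearMap.sub_apply, hv] at h h4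
      have : 2 * B x (J x) = 0 := by linear_combination h + h4
      exact hx1 (by simpa [hJ.two] using this)
    simpa using (full _ h4).add hM (full x hx1) (by simpa [hB.alt] using hx2)
  · simpa using (full _ h).sub hM (full x hx1) (by simpa [hB.alt] using hx2)

/-- a root element `E(x, z)` with non-isotropic `x` -/
theorem JS.stepR (hJ : JS B J δ) (hn : 5 ≤ finrank F V) (hM : M ≤ Sp B)
    (hH : ∀ g ∈ Sp B, PJ J g → g ∈ M)
    (hσ : ∀ l : F, l ^ 2 = δ → ∃ σ ∈ Sp B, ∀ x, σ (J x) = -J (σ x))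
    {x z : V} (hx : B x (J x) ≠ 0) (hz : z ∈ hp B J x) (hz0 : z ≠ 0) (hR : R B M x z 0) :
    Sp B ≤ M := by
  have hB := hJ.symp
  have hH0 : ∀ g ∈ Sp B, C0 J g → g ∈ M := fun g hg h => hH g hg (Or.inl h)
  have fin : ∀ z' ∈ hp B J x, Mv B J x z z' → B z' z ≠ 0 → Sp B ≤ M := by
    rintro z' hz' ⟨g, hg, hg1, hg2, hg3⟩ h
    have := hR.conj hM (hH0 g hg hg1)
    rw [hg2, hg3] at this
    exact hJ.stepA (by omega) hM hH0 hx (mul_ne_zero hJ.two h) (hR.comm hB this hz.1 hz'.1)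
  obtain ⟨hz1, hz2⟩ := mem_hp.1 hz
  by_cases hN : B z (J z) = 0
  swap
  · obtain ⟨w, hw1, hw2, hw⟩ := hJ.exists_norm2 hn hx hN hz ((1 + δ) * B z (J z))
    obtain ⟨h1, h2⟩ := mem_hp.1 hw1
    obtain ⟨h3, h4⟩ := mem_hp.1 hw2
    obtain ⟨h5, h6⟩ := mem_hp.1 (hJ.hp_symm hw2)
    refine fin (J z + w) (Submodule.add_mem _ (hJ.J_hp hz) hw1) (hJ.trans ?_ hN hz1 hz2
      (by simp [hz2, h1]) (by simp [hz1, h2, hJ.sq])) (by simpa [hJ.adj, h5] using hN)
    simp [hJ.adj, hJ.sq, h3, h4, h5, h6, hw, hB.alt]; ring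
  by_cases hfree : ∀ l : F, J z ≠ l • z
  · obtain ⟨φ, h1, h2⟩ := exists_dual_pair (F := F) (u := J z) (v := z) (by
      intro c hc
      by_cases hc0 : c = 0
      · exact hz0 (by simpa [hc0] using hc)
      · apply hfree c⁻¹
        conv_rhs => rw [hc]
        simp [smul_smul, hc0])
    obtain ⟨y, hy⟩ := hB.exists_dual φ
    obtain ⟨y', hy', h⟩ := hJ.proj hx y
    obtain ⟨h3, h4⟩ := h z hz
    rw [hy, h2] at h3
    rw [hJ.symm z y, ← neg_neg (B y (J z)), ← hB.skew, hy, h1, neg_zero] at h4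
    obtain ⟨h5, h6⟩ := mem_hp.1 hy'
    have h7 : B y' (J z) = 0 := by rw [hJ.symm, h4]
    have h8 : B y' z = -1 := by rw [hB.skew, h3]
    have h2δ := mul_ne_zero hJ.two hJ.ne
    refine fin (y' + (B y' (J y') / (2 * δ)) • J z)
      (Submodule.add_mem _ hy' (Submodule.smul_mem _ _ (hJ.J_hp hz)))
      (hJ.qmove ?_ ?_ (by simp [hz1, hz2, h5]) (by simp [hz1, hz2, h6, hJ.sq])) ?_
    · simp only [map_add, map_smul, LinearMap.add_apply, LinearMap.smul_apply, smul_eq_mul, hJ.adj,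
        hJ.sq, hB.alt, h3, h4, h7, h8, hN]
      have := hJ.two
      have := hJ.ne
      field_simp; ring
    · simp [hN, h3, h4, hJ.sq, hB.alt, hJ.ne]
    · simp [h8, hJ.adj, hN]
  push Not at hfree
  obtain ⟨l, hl⟩ := hfree
  have hl2 : l ^ 2 = δ := by
    have := hJ.sq z
    rw [hl, map_smul, hl, smul_smul, ← sub_eq_zero, ← sub_smul] at this
    have := (smul_eq_zero.1 this).resolve_right hz0
    linear_combination this
  have hl0 : l ≠ 0 := by rintro rfl; exact hJ.ne (by simpa using hl2.symm)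
  have hzJ : ∀ y, B z (J y) = -(l * B z y) := fun y => by
    rw [← neg_neg (B z (J y)), ← hJ.adj, hl]; simp
  -- a transvection with centre `z`
  obtain ⟨c, hc, hT⟩ : ∃ c, c ≠ 0 ∧ T B M z c := by
    obtain ⟨u, hu, hu'⟩ := exists_not_mem_one (K := hp B J x ⊓ LinearMap.ker (B z)) (by
      have := finrank_hp (B := B) (J := J) x
      have := finrank_inf_ker_ge (hp B J x) (B z)
      omega) z
    obtain ⟨φ, h1, h2⟩ := exists_dual_pair hu'
    obtain ⟨y, hy⟩ := hB.exists_dual φ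
    obtain ⟨y', hy', h⟩ := hJ.proj hx (J y)
    obtain ⟨w, hw, hw0⟩ := hJ.exists_noniso (U := hp B J x ⊓ LinearMap.ker (B z)) (y := y') hu
      ⟨hy', by
        have := (h z hz).1
        rw [hzJ, hy, h1] at this
        simpa using this⟩ (by rw [(h u hu.1).2]; simp [hJ.sq, hy, h2, hJ.ne])
    obtain ⟨a, b, hab⟩ := hJ.univ hw0 ((1 + δ) * B x (J x))
    have hw1 : a • w + b • J w ∈ hp B J x := Submodule.add_mem _ (Submodule.smul_mem _ a hw.1)
      (Submodule.smul_mem _ b (hJ.J_hp hw.1))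
    have hw2 : B z (a • w + b • J w) = 0 := by
      have : B z w = 0 := hw.2
      simp [hzJ, this]
    generalize a • w + b • J w = w' at *
    obtain ⟨h3, h4⟩ := mem_hp.1 hw1
    obtain ⟨h5, h6⟩ := mem_hp.1 (hJ.hp_symm hw1)
    have h7 : B z x = 0 := hB.comm.1 hz1
    obtain ⟨g, hg, hg1, hg2, hg3⟩ := hJ.trans (e := z) (x := x) (y := J x + w') (by
      simp [hJ.adj, hJ.sq, h3, h4, h5, h6, hab, hB.alt]; ring) hx h7 (by simp [hzJ, h7])
      (by simp [hzJ, h7, hw2]) (by simp [hzJ, h7, hw2])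
    have := hR.symm.conj hM (hH0 g hg hg1)
    rw [hg2, hg3] at this
    refine ⟨_, mul_ne_zero hJ.two ?_, hR.symm.comm hB this h7 (by simp [hzJ, h7, hw2])⟩
    simpa [hJ.adj, h5] using hx
  obtain ⟨σ, hσ1, hσ2⟩ := hσ l hl2
  have hT1 := hT.conj hM (hH σ hσ1 (Or.inr hσ2))
  have hz1J : J (σ z) = -(l • σ z) := by rw [← map_smul, ← hl, hσ2, neg_neg]
  have hz10 : σ z ≠ 0 := by simpa using hz0
  generalize σ z = z₁ at *
  have hz1J' : ∀ y, B z₁ (J y) = l * B z₁ y := fun y => by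
    rw [← neg_neg (B z₁ (J y)), ← hJ.adj, hz1J]; simp
  have fin2 : ∀ z₂, J z₂ = -(l • z₂) → T B M z₂ c → B z z₂ ≠ 0 → Sp B ≤ M := by
    intro z₂ h1 h2 h3
    refine hJ.stepA (by omega) hM hH0 ?_ hc (hT.conjT hM h2)
    simp only [map_add, map_smul, LinearMap.add_apply, LinearMap.smul_apply, smul_eq_mul, h1, hl,
      map_neg, hB.alt, hB.skew z₂ z]
    convert mul_ne_zero (mul_ne_zero (mul_ne_zero hc hl0) (pow_ne_zero 2 h3))
      (neg_ne_zero.2 hJ.two) using 1
    ring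
  by_cases h : B z z₁ = 0
  swap
  · exact fin2 z₁ hz1J hT1 h
  obtain ⟨u, h1, h2, h3⟩ : ∃ u, B u (J u) ≠ 0 ∧ B z u ≠ 0 ∧ B z₁ u ≠ 0 := by
    obtain ⟨y, hy⟩ := hB.exists_ne hz0
    have e1 : J (J y - l • y) = -(l • (J y - l • y)) := by
      simp only [map_sub, map_smul, hJ.sq, ← hl2]; module
    have e2 : B z (J y - l • y) ≠ 0 := by
      simp only [map_sub, map_smul, hzJ, smul_eq_mul]
      convert mul_ne_zero (mul_ne_zero (neg_ne_zero.2 hJ.two) hl0) hy using 1; ring
    generalize J y - l • y = u₁ at e1 e2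
    have e3 : ∀ y, B u₁ (J y) = l * B u₁ y := fun y => by
      rw [← neg_neg (B u₁ (J y)), ← hJ.adj, e1]; simp
    obtain ⟨y', -, h4, h5⟩ := exists_ne_ne (S := ⊤) (B z₁) (B u₁)
      (by obtain ⟨s, hs⟩ := hB.exists_ne hz10; exact ⟨s, trivial, hs⟩)
      (by obtain ⟨s, hs⟩ := hB.exists_ne (z := u₁) (by rintro rfl; simp at e2)
          exact ⟨s, trivial, hs⟩)
    have e4 : J (J y' + l • y') = l • (J y' + l • y') := by
      simp only [map_add, map_smul, hJ.sq, ← hl2]; module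
    have e5 : B z₁ (J y' + l • y') ≠ 0 := by
      simp only [map_add, map_smul, hz1J', smul_eq_mul]
      convert mul_ne_zero (mul_ne_zero hJ.two hl0) h4 using 1; ring
    have e6 : B u₁ (J y' + l • y') ≠ 0 := by
      simp only [map_add, map_smul, e3, smul_eq_mul]
      convert mul_ne_zero (mul_ne_zero hJ.two hl0) h5 using 1; ring
    have e7 : B z (J y' + l • y') = 0 := by simp [hzJ]
    generalize J y' + l • y' = u₀ at e4 e5 e6 e7
    have e8 : B z₁ u₁ = 0 := by
      have := hz1J' u₁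
      rw [e1] at this
      simp only [map_neg, map_smul, smul_eq_mul] at this
      have : 2 * l * B z₁ u₁ = 0 := by linear_combination -this
      simpa [hJ.two, hl0] using this
    refine ⟨u₀ + u₁, ?_, by simpa [e7] using e2, by simpa [e8] using e5⟩
    simp only [map_add, map_smul, LinearMap.add_apply, e1, e4, map_neg, hB.alt, hB.skew u₀ u₁,
      smul_eq_mul]
    convert mul_ne_zero (mul_ne_zero hJ.two hl0) e6 using 1; ring
  have h4 : B u (J u) / 2 ≠ 0 := div_ne_zero h1 hJ.two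
  obtain ⟨g, hg, hg1, hg2⟩ := hJ.qrefl u (B u (J u) / 2) 0 (by have := hJ.two; field_simp)
    (by simpa using h4)
  refine fin2 (g z₁) (by rw [← hg1, hz1J]; simp) (hT1.conj hM (hH0 g hg hg1)) ?_
  rw [hg2]
  simp only [map_sub, map_smul, smul_eq_mul, hzJ, hz1J', h]
  generalize B u (J u) / 2 = a at h4
  convert mul_ne_zero (mul_ne_zero (mul_ne_zero (mul_ne_zero (neg_ne_zero.2 hJ.two) hl0) h2) h3)
    (inv_ne_zero h4) using 1
  field_simp
  ring

theorem JS.stepS (hJ : JS B J δ) (hn : 5 ≤ finrank F V) (hM : M ≤ Sp B)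
    (hH : ∀ g ∈ Sp B, PJ J g → g ∈ M)
    (hσ : ∀ l : F, l ^ 2 = δ → ∃ σ ∈ Sp B, ∀ x, σ (J x) = -J (σ x))
    {x z : V} (hx : B x (J x) ≠ 0) (hz : z ∈ hp B J x) (hz0 : z ≠ 0) {α β γ : F}
    (hS : S2 B M x z α β γ) (hdet : α * γ - β ^ 2 ≠ 0) : Sp B ≤ M := by
  have hB := hJ.symp
  have hH0 : ∀ g ∈ Sp B, C0 J g → g ∈ M := fun g hg h => hH g hg (Or.inl h)
  have case1 : ∀ (x z : V) (α β γ : F), B x (J x) ≠ 0 → z ∈ hp B J x → z ≠ 0 →
      S2 B M x z α β γ → β ≠ 0 → Sp B ≤ M := by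
    intro x z α β γ hx hz hz0 hS hβ
    have h4 : B x (J x) / 2 ≠ 0 := div_ne_zero hx hJ.two
    obtain ⟨g, hg, hg1, hg2⟩ := hJ.qrefl x (B x (J x) / 2) 0 (by have := hJ.two; field_simp)
      (by simpa using h4)
    obtain ⟨h1, h2⟩ := mem_hp.1 (hJ.hp_symm hz)
    have h3 := hS.conj hM (hH0 g hg hg1)
    have e1 : g z = z := by rw [hg2]; simp [h1, h2]
    have e2 : g x = -x := by
      rw [hg2]
      have := hJ.two
      simp only [hB.alt]
      match_scalars <;> field_simp <;> ring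
    rw [e1, e2] at h3
    have h5 : S2 B M x z α (-β) γ := h3.of_eq fun v => by simp only [map_neg]; module
    have h6 := hS.add hB (h5.neg hB hz.1) hz.1
    simp only [add_neg_cancel, neg_neg] at h6
    exact hJ.stepR hn hM hH hσ hx (Submodule.smul_mem _ _ hz)
      (smul_ne_zero (by rw [← two_mul]; exact mul_ne_zero hJ.two hβ) hz0) h6.toR
  by_cases hβ : β = 0
  swap
  · exact case1 x z α β γ hx hz hz0 hS hβ
  subst hβ
  have hα : α ≠ 0 := by rintro rfl; simp at hdet
  have hγ : γ ≠ 0 := by rintro rfl; simp at hdet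
  have case3 : ∀ z ∈ hp B J x, z ≠ 0 → B z (J z) = 0 → S2 B M x z α 0 γ → Sp B ≤ M := by
    intro z hz hz0 hN hS
    obtain ⟨h1, h2⟩ := mem_hp.1 hz
    obtain ⟨h3, h4⟩ := mem_hp.1 (hJ.hp_symm hz)
    refine case1 (x + z) z α (-α) (α + γ) (by simpa [h2, h4, hN] using hx)
      (mem_hp.2 ⟨by simp [h1, hB.alt], by simp [h2, hN]⟩) hz0 (hS.of_eq fun v => ?_) (by simpa)
    simp only [map_add]; module
  by_cases hN : B z (J z) = 0
  · exact case3 z hz hz0 hN hS
  obtain ⟨a, ν, h⟩ := hJ.norm_trick hN hγ 0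
  obtain ⟨y, hy1, hy2, hyν⟩ := hJ.exists_norm2 hn hx hN hz ν
  obtain ⟨h1, h2⟩ := h y hy2 hyν
  have hw : a • z + J z + y ∈ hp B J x :=
    Submodule.add_mem _ (Submodule.add_mem _ (Submodule.smul_mem _ _ hz) (hJ.J_hp hz)) hy1
  generalize a • z + J z + y = w at *
  obtain ⟨g, hg, hg1, hg2, hg3⟩ := hJ.trans (e := x) h1.symm hN hz.1 hz.2 hw.1 hw.2
  have h3 := hS.conj hM (hH0 g hg hg1)
  rw [hg2, hg3] at h3
  obtain ⟨s, hs, hsv⟩ := hS
  have h4 := h3.conj hM hs
  have e1 : s x = x := by rw [hsv]; simp [hB.alt, (mem_hp.1 hz).1]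
  have e2 : s w = w + (γ * B w z) • z := by rw [hsv]; simp [hB.comm.1 (mem_hp.1 hw).1]
  rw [e1, e2] at h4
  refine case3 _ (Submodule.add_mem _ hw (Submodule.smul_mem _ _ hz)) ?_ h2 h4
  rw [← e2, ← hg2]
  simpa using hz0

/-- two symmetric forms with the same isotropic vectors are proportional -/
theorem JS.prop (hJ : JS B J δ) (hn : 4 ≤ finrank F V) (D : V →ₗ[F] V →ₗ[F] F)
    (hD : ∀ x y, D x y = D y x) (h : ∀ v, B v (J v) = 0 → D v v = 0) :
    ∃ l : F, ∀ x y, D x y = l * B x (J y) := by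
  have h2 := hJ.two
  obtain ⟨u, hu⟩ := hJ.exists_noniso0 (by omega)
  obtain ⟨w, hw, hwN⟩ := hJ.exists_norm1 (by omega) hu (-B u (J u))
  obtain ⟨e, e', he, he', hee⟩ : ∃ e e', B e (J e) = 0 ∧ B e' (J e') = 0 ∧ B e (J e') = 1 := by
    obtain ⟨h1, h3⟩ := mem_hp.1 hw
    obtain ⟨h4, h5⟩ := mem_hp.1 (hJ.hp_symm hw)
    refine ⟨u + w, (2 * B u (J u))⁻¹ • (u - w), by simp [h3, h5, hwN], by simp [h3, h5, hwN], ?_⟩
    simp only [map_add, map_sub, map_smul, LinearMap.add_apply, smul_eq_mul, h3, h5, hwN]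
    field_simp; ring
  have hee' : B e' (J e) = 1 := by rw [hJ.symm, hee]
  have hDe := h e he
  have hDe' := h e' he'
  have key : ∀ w, B e (J w) = 0 → B e' (J w) = 0 →
      D w w = D e e' * B w (J w) ∧ 2 * D e w = B w (J w) * D e' w ∧
        2 * D e' w = B w (J w) * D e w := by
    intro w h1 h3
    have h4 : B w (J e) = 0 := by rw [hJ.symm, h1]
    have h5 : B w (J e') = 0 := by rw [hJ.symm, h3]
    obtain ⟨ν, hν⟩ : ∃ ν, B w (J w) = 2 * ν := ⟨B w (J w) / 2, by field_simp⟩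
    have k : ∀ s : F, s ^ 2 = 1 →
        D (e + s • w - ν • e') (e + s • w - ν • e') = 0 ∧
        D (e' + s • w - ν • e) (e' + s • w - ν • e) = 0 := by
      intro s hs
      constructor <;> apply h <;>
      simp only [map_add, map_sub, map_smul, LinearMap.add_apply, LinearMap.sub_apply,
        LinearMap.smul_apply, smul_eq_mul, h1, h3, h4, h5, he, he', hee, hee', hν] <;>
      linear_combination 2 * ν * hs
    obtain ⟨k1, k2⟩ := k 1 (by simp)
    obtain ⟨k3, k4⟩ := k (-1) (by simp)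
    simp only [map_add, map_sub, map_smul, LinearMap.add_apply, LinearMap.sub_apply,
        LinearMap.smul_apply, smul_eq_mul, hDe, hDe', hD w e, hD w e', hD e' e] at k1 k2 k3 k4
    rw [hν]
    refine ⟨?_, ?_, ?_⟩
    · apply mul_left_cancel₀ h2; linear_combination k1 + k3
    · apply mul_left_cancel₀ h2; linear_combination k1 - k3
    · apply mul_left_cancel₀ h2; linear_combination k2 - k4
  have key2 : ∀ (e e' : V), B e (J e) = 0 → B e' (J e') = 0 → B e (J e') = 1 →
      (∀ w, B e (J w) = 0 → B e' (J w) = 0 → 2 * D e w = B w (J w) * D e' w ∧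
        2 * D e' w = B w (J w) * D e w) → ∀ w, B e (J w) = 0 → B e' (J w) = 0 → D e w = 0 := by
    intro e e' he he' hee key w h1 h3
    have hee' : B e' (J e) = 1 := by rw [hJ.symm, hee]
    by_contra hne
    obtain ⟨k, hk, hk0⟩ := exists_ne_zero_of_finrank
      (K := (LinearMap.ker (B e ∘ₗ J) ⊓ LinearMap.ker (B e' ∘ₗ J)) ⊓ LinearMap.ker (D e)) (by
        have := finrank_ker₂_ge (B e ∘ₗ J) (B e' ∘ₗ J)
        have := finrank_inf_ker_ge (LinearMap.ker (B e ∘ₗ J) ⊓ LinearMap.ker (B e' ∘ₗ J)) (D e)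
        omega)
    have a1 : ∀ k, B e (J k) = 0 → B e' (J k) = 0 → D e k = 0 →
        2 * B w (J k) + B k (J k) = 0 := by
      intro k k1 k2 k3
      have k4 : D e' k = 0 := by simpa [k3, h2] using (key k k1 k2).2
      have k5 := (key (w + k) (by simp [h1, k1]) (by simp [h3, k2])).2
      have k6 := (key w h1 h3).2
      simp only [map_add, LinearMap.add_apply, k3, k4, hJ.symm k w] at k5
      apply mul_right_cancel₀ hne
      linear_combination k6 - k5
    have a2 : ∀ k, B e (J k) = 0 → B e' (J k) = 0 → D e k = 0 →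
        B w (J k) = 0 ∧ B k (J k) = 0 := by
      intro k k1 k2 k3
      have b1 := a1 k k1 k2 k3
      have b2 := a1 (-k) (by simp [k1]) (by simp [k2]) (by simp [k3])
      simp only [map_neg, LinearMap.neg_apply, neg_neg] at b2
      constructor
      · apply mul_left_cancel₀ (mul_ne_zero h2 h2); linear_combination b1 - b2
      · apply mul_left_cancel₀ h2; linear_combination b1 + b2
    have k1 : B e (J k) = 0 := hk.1.1
    have k2 : B e' (J k) = 0 := hk.1.2
    have k3 : D e k = 0 := hk.2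
    obtain ⟨y, hy⟩ := hJ.nd hk0
    apply hy
    obtain ⟨y', hy', y1, y2⟩ : ∃ y', y = y' + B e' (J y) • e + B e (J y) • e' ∧ B e (J y') = 0 ∧
        B e' (J y') = 0 :=
      ⟨y - B e' (J y) • e - B e (J y) • e', by abel, by simp [he, hee], by simp [he', hee']⟩
    obtain ⟨y'', hy'', y3, y4, y5⟩ : ∃ y'', y' = y'' + (D e y' / D e w) • w ∧ B e (J y'') = 0 ∧
        B e' (J y'') = 0 ∧ D e y'' = 0 :=
      ⟨y' - (D e y' / D e w) • w, by abel, by simp [y1, h1], by simp [y2, h3], by simp [hne]⟩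
    have c1 := (a2 k k1 k2 k3)
    have c2 := (a2 y'' y3 y4 y5).2
    have c3 := (a2 (k + y'') (by simp [k1, y3]) (by simp [k2, y4]) (by simp [k3, y5])).2
    simp only [map_add, LinearMap.add_apply, c1.2, c2, hJ.symm y'' k] at c3
    have c4 : B k (J y'') = 0 := by apply mul_left_cancel₀ h2; linear_combination c3
    rw [hy', hy'']
    simp [c4, hJ.symm k w, hJ.symm k e, hJ.symm k e', c1.1, k1, k2]
  have z1 := key2 e e' he he' hee fun w h1 h3 => (key w h1 h3).2
  have z2 := key2 e' e he' he hee' fun w h1 h3 => (key w h3 h1).2.symm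
  have quad : ∀ x, D x x = D e e' * B x (J x) := by
    intro x
    obtain ⟨w, hw, y1, y2⟩ : ∃ w, x = w + B e' (J x) • e + B e (J x) • e' ∧ B e (J w) = 0 ∧
        B e' (J w) = 0 :=
      ⟨x - B e' (J x) • e - B e (J x) • e', by abel, by simp [he, hee], by simp [he', hee']⟩
    generalize B e' (J x) = a at hw
    generalize B e (J x) = b at hw
    subst hw
    simp only [map_add, map_smul, LinearMap.add_apply, LinearMap.smul_apply, smul_eq_mul, hDe, hDe',
      hD w e, hD w e', hD e' e, z1 w y1 y2, z2 w y2 y1, (key w y1 y2).1, he, he', hee, hee', y1, y2,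
      hJ.symm w e, hJ.symm w e']
    ring
  refine ⟨D e e', fun x y => ?_⟩
  have := quad (x + y)
  simp only [map_add, LinearMap.add_apply, quad x, quad y, hD y x, hJ.symm y x] at this
  apply mul_left_cancel₀ h2; linear_combination this

theorem JS.core (hJ : JS B J δ) (hn : 5 ≤ finrank F V) (hM : M ≤ Sp B)
    (hH : ∀ g ∈ Sp B, PJ J g → g ∈ M)
    (hσ : ∀ l : F, l ^ 2 = δ → ∃ σ ∈ Sp B, ∀ x, σ (J x) = -J (σ x))
    (hg : ∃ g ∈ M, ¬ PJ J g) : Sp B ≤ M := by
  have hB := hJ.symp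
  have h2 := hJ.two
  have hH0 : ∀ g ∈ Sp B, C0 J g → g ∈ M := fun g hg h => hH g hg (Or.inl h)
  obtain ⟨g, hgM, hg⟩ := hg
  have hgS := hM hgM
  obtain ⟨v, hv, hfree, a, b, hab⟩ : ∃ v, B v (J v) = 0 ∧ (∀ a b : F, a • v + b • J v = 0 → a = 0 ∧ b = 0) ∧
      ∃ a b : F, B (g (a • v + b • J v)) (J (g (a • v + b • J v))) ≠ 0 := by
    by_contra! hcon
    apply hg
    obtain ⟨l, hl⟩ := hJ.prop (by omega)
      (B.compl₁₂ (g : V →ₗ[F] V) (J ∘ₗ (g : V →ₗ[F] V))) (fun x y => by simp [hJ.symm (g x)]) (by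
        intro v hv
        simp only [LinearMap.compl₁₂_apply, LinearEquiv.coe_coe, LinearMap.comp_apply]
        by_cases hv0 : v = 0
        · simp [hv0]
        by_cases hfree : ∀ a b : F, a • v + b • J v = 0 → a = 0 ∧ b = 0
        · simpa using hcon v hv hfree 1 0
        push Not at hfree
        obtain ⟨a, b, h1, h3⟩ := hfree
        have hb : b ≠ 0 := by
          rintro rfl
          have : a = 0 := by simpa [hv0] using h1
          exact h3 this rfl
        obtain ⟨l, hl⟩ : ∃ l : F, J v = l • v := ⟨-a / b, by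
          apply smul_right_injective V hb
          simp only [smul_smul]
          rw [eq_neg_of_add_eq_zero_right h1]
          match_scalars; field_simp⟩
        have hl2 : l ^ 2 = δ := by
          have := hJ.sq v
          rw [hl, map_smul, hl, smul_smul, ← sub_eq_zero, ← sub_smul] at this
          have := (smul_eq_zero.1 this).resolve_right hv0
          linear_combination this
        have hl0 : l ≠ 0 := by rintro rfl; exact hJ.ne (by simpa using hl2.symm)
        have hvJ : ∀ y, B v (J y) = -(l * B v y) := fun y => by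
          rw [← neg_neg (B v (J y)), ← hJ.adj, hl]; simp
        obtain ⟨y, hy1, hy2⟩ : ∃ y, B v y = 0 ∧ J y - l • y ≠ 0 := by
          by_contra! h'
          obtain ⟨u, hu, hu'⟩ := exists_not_mem_one (K := LinearMap.ker (B v))
            (by have := finrank_ker_ge (B v); omega) v
          obtain ⟨φ, h4, h5⟩ := exists_dual_pair hu'
          obtain ⟨y, hy⟩ := hB.exists_dual φ
          have e1 := sub_eq_zero.1 (h' y (by rw [hy, h4]))
          have e2 := sub_eq_zero.1 (h' u hu)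
          have e3 := hJ.adj u y
          rw [e1, e2] at e3
          simp only [map_smul, LinearMap.smul_apply, smul_eq_mul, hy, h5] at e3
          exact mul_ne_zero h2 hl0 (by linear_combination e3)
        have e1 : J (J y - l • y) = -(l • (J y - l • y)) := by
          simp only [map_sub, map_smul, hJ.sq, ← hl2]; module
        have e2 : B v (J y - l • y) = 0 := by simp [hvJ, hy1]
        generalize J y - l • y = w at e1 e2 hy2
        have := hcon (v + w) (by simp [hl, e1, hB.alt, e2, hB.comm.1 e2]) (by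
          intro a b hab
          rw [map_add, hl, e1] at hab
          have e3 := congrArg J hab
          simp only [map_add, map_smul, map_neg, hl, e1, map_zero] at e3
          have e4 : (2 * l * (a + b * l)) • v = 0 := by
            linear_combination (norm := module) l • hab + e3
          have e5 : (2 * l * (a - b * l)) • w = 0 := by
            linear_combination (norm := module) l • hab - e3
          have e6 : a + b * l = 0 := by simpa [h2, hl0, hv0] using e4
          have e7 : a - b * l = 0 := by simpa [h2, hl0, hy2] using e5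
          constructor
          · apply mul_left_cancel₀ h2; linear_combination e6 + e7
          · apply mul_left_cancel₀ (mul_ne_zero h2 hl0); linear_combination e6 - e7)
          (1 / 2) (1 / (2 * l))
        have e8 : (1 / 2 : F) • (v + w) + (1 / (2 * l)) • J (v + w) = v := by
          rw [map_add, hl, e1]
          match_scalars <;> field_simp <;> ring
        rwa [e8] at this)
    simp only [LinearMap.compl₁₂_apply, LinearEquiv.coe_coe, LinearMap.comp_apply] at hl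
    have e1 : ∀ y, J (g y) = l • g (J y) := fun y => by
      apply hB.ext
      intro x
      obtain ⟨x, rfl⟩ := g.surjective x
      rw [hl, map_smul, hgS, smul_eq_mul]
    obtain ⟨y, -, hy⟩ := exists_ne_zero_of_finrank (K := (⊤ : Submodule F V)) (by simp; omega)
    have e2 := hJ.sq (g y)
    rw [e1, map_smul, e1, hJ.sq, map_smul, smul_smul, smul_smul, ← sub_eq_zero, ← sub_smul] at e2
    have e3 : (l - 1) * (l + 1) = 0 := by
      have := (smul_eq_zero.1 e2).resolve_right (by simpa using hy)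
      apply mul_right_cancel₀ hJ.ne; linear_combination this
    rcases mul_eq_zero.1 e3 with e4 | e4
    · left; intro x; rw [e1, sub_eq_zero.1 e4, one_smul]
    · right; intro x; rw [e1, eq_neg_of_add_eq_zero_left e4]; simp
  obtain ⟨k, hk, hk1, hk2⟩ := hJ.qrefl v 0 1 (by simp [hv]) (by simp [hJ.ne])
  have hS : S2 B M v (J v) (-1) 0 δ⁻¹ := ⟨k, hH0 k hk hk1, fun z => by
    rw [hk2]
    have := hJ.ne
    simp only [mul_zero, mul_one, zero_sub, sub_zero, one_pow, zero_pow two_ne_zero]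
    match_scalars <;> field_simp <;> ring⟩
  have hS' := hS.conj hM hgM
  have hpq : B (g v) (g (J v)) = 0 := by rw [hgS, hv]
  have hind : ∀ a b : F, a • g v + b • g (J v) = 0 → a = 0 ∧ b = 0 := fun a b h =>
    hfree a b (g.injective (by simpa using h))
  simp only [map_add g, map_smul g] at hab
  generalize g v = p at *
  generalize g (J v) = q at *
  have case1 : ∀ (p q : V) (α γ : F), B p q = 0 → (∀ a : F, q ≠ a • p) → S2 B M p q α 0 γ →
      α ≠ 0 → γ ≠ 0 → B p (J p) ≠ 0 → Sp B ≤ M := by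
    intro p q α γ hpq hind hS hα hγ hp
    obtain ⟨l, hl⟩ : ∃ l, B p (J q) = l * B p (J p) := ⟨B p (J q) / B p (J p), by field_simp⟩
    refine hJ.stepS hn hM hH hσ hp (z := q - l • p) (mem_hp.2 ⟨by simp [hpq, hB.alt], by simp [hl]⟩)
      (sub_ne_zero.2 (hind l)) (α := α + γ * l ^ 2) (β := γ * l) (γ := γ) (hS.of_eq fun v => ?_) ?_
    · simp only [map_sub, map_smul, smul_eq_mul]; module
    · convert mul_ne_zero hα hγ using 1; ring
  have hδ := inv_ne_zero hJ.ne
  by_cases hp0 : B p (J p) = 0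
  swap
  · exact case1 p q _ _ hpq (fun a h => by simpa using (hind a (-1) (by simp [h])).2) hS' (by simp)
      hδ hp0
  by_cases hq0 : B q (J q) = 0
  swap
  · exact case1 q p _ _ (hB.comm.1 hpq) (fun a h => by simpa using (hind (-1) a (by simp [h])).1)
      hS'.swap hδ (by simp) hq0
  have hpq' : B p (J q) ≠ 0 := by
    intro h
    simp [hp0, hq0, h, hJ.symm q p] at hab
  have h4 : (4 : F) ≠ 0 := by convert mul_ne_zero h2 h2 using 1; norm_num
  refine hJ.stepS hn hM hH hσ (x := p + q) (z := p - q) ?_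
    (mem_hp.2 ⟨by simp [hpq, hB.alt, hB.comm.1 hpq], by simp [hp0, hq0, hJ.symm q p]⟩) ?_
    (α := (-1 + δ⁻¹) / 4) (β := (-1 - δ⁻¹) / 4) (γ := (-1 + δ⁻¹) / 4) (hS'.of_eq fun v => ?_) ?_
  · simp only [map_add, LinearMap.add_apply, hp0, hq0, hJ.symm q p]
    convert mul_ne_zero h2 hpq' using 1; ring
  · intro h
    simpa using (hind 1 (-1) (by simpa [sub_eq_add_neg] using h)).1
  · simp only [map_sub, map_add]
    match_scalars <;> field_simp <;> ring
  · convert div_ne_zero (neg_ne_zero.2 hδ) h4 using 1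
    field_simp; ring

theorem JS.proper (hJ : JS B J δ) (hn : 1 ≤ finrank F V) : ∃ g ∈ Sp B, ¬ PJ J g := by
  have hB := hJ.symp
  obtain ⟨u, hu⟩ := hJ.exists_noniso0 hn
  refine ⟨tvE hB u 1, tvE_mem _ _ _, ?_⟩
  rintro (h | h)
  · have := congrArg (B u) (h u)
    have h2 := congrArg (fun x => B x (J u)) (h u)
    simp [hB.alt, hJ.adj, hJ.sq, hu] at h2
  · have := congrArg (B u) (h u)
    simp only [tvE_apply, map_add, map_smul, hB.alt, map_neg] at this
    exact mul_ne_zero hJ.two hu (by simp at this; linear_combination this)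

end Core

end Cfsg.Agent.H9.Sp
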